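import Cfsg.Agent.H1.Spin5
import Cfsg.Agent.H6.Pg

/-!
Finite irreducible subgroups of the five-dimensional orthogonal group: basic set-up.
-/

set_option autoImplicit false
set_option linter.unusedSectionVars false

namespace Cfsg.Agent.O5

open Module Matrix H1.Spin5

/-- the five-dimensional space -/
abbrev W (k : Type*) : Type _ := Fin 5 → k

/-- its linear group -/
abbrev GW (k : Type*) [Field k] : Type _ := W k ≃ₗ[k] W k

variable {k : Type*} [Field k]

/-- the quadratic form -/
def Q (x : W k) : k := Q5 k x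

/-- the polar form: `B x x = 2 * Q x` -/
def B : LinearMap.BilinForm k (W k) := (Q5 k).polarBilin

theorem B_def (x y : W k) : B x y = QuadraticMap.polar (Q5 k) x y := rfl

theorem Q_apply (x : W k) : Q x = x 0 * x 0 + x 1 * x 2 - x 3 * x 4 := Q5_apply x

theorem B_apply (x y : W k) :
    B x y = 2 * x 0 * y 0 + x 1 * y 2 + x 2 * y 1 - x 3 * y 4 - x 4 * y 3 := by
  simp only [B_def, QuadraticMap.polar, Q5_apply, Pi.add_apply]; ring

theorem B_comm (x y : W k) : B x y = B y x := by rw [B_apply, B_apply]; ring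

theorem B_self (x : W k) : B x x = 2 * Q x := by rw [B_apply, Q_apply]; ring

theorem Q_add (x y : W k) : Q (x + y) = Q x + Q y + B x y := by
  simp only [B_apply, Q_apply, Pi.add_apply]; ring

theorem Q_sub (x y : W k) : Q (x - y) = Q x + Q y - B x y := by
  simp only [B_apply, Q_apply, Pi.sub_apply]; ring

theorem Q_smul (c : k) (x : W k) : Q (c • x) = c ^ 2 * Q x := by
  simp only [Q_apply, Pi.smul_apply, smul_eq_mul]; ring

theorem Q_neg (x : W k) : Q (-x) = Q x := by
  simp only [Q_apply, Pi.neg_apply]; ring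

@[simp] theorem Q_zero : Q (0 : W k) = 0 := by simp [Q_apply]

theorem B_symm : (B : LinearMap.BilinForm k (W k)).IsSymm := ⟨B_comm⟩

theorem B_refl : (B : LinearMap.BilinForm k (W k)).IsRefl := B_symm.isRefl

theorem B_nd (h2 : (2 : k) ≠ 0) {x : W k} (h : ∀ y, B x y = 0) : x = 0 :=
  nd5 h2 x fun y => by rw [← B_def, B_comm, h]

theorem B_nondeg (h2 : (2 : k) ≠ 0) : (B : LinearMap.BilinForm k (W k)).Nondegenerate :=
  ⟨fun _ h => B_nd h2 h, fun _ h => B_nd h2 fun y => by rw [B_comm, h]⟩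

theorem finrank_W : finrank k (W k) = 5 := by simp

theorem ψ_mul_self (x : W k) : ψ x * ψ x = Q x • (1 : Matrix I4 I4 k) := ψ_sq x

theorem ψ_add_swap (x y : W k) : ψ x * ψ y + ψ y * ψ x = B x y • (1 : Matrix I4 I4 k) := ψ_anti x y

theorem ψ_injective : Function.Injective (ψ : W k → Matrix I4 I4 k) := fun x y h =>
  sub_eq_zero.1 (ψ_inj (by rw [map_sub, h, sub_self]))

/-- isometries -/
def Iso (g : GW k) : Prop := ∀ x y, B (g x) (g y) = B x y

variable (k) in
/-- the image of the symplectic group -/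
def Om : Subgroup (GW k) := (Γ k ⊓ (spGL 2 k).prod ⊤).map (MonoidHom.snd _ _)

/-- `A` is a symplectic lift of `g` -/
def Lf (A : GL I4 k) (g : GW k) : Prop :=
  A ∈ spGL 2 k ∧ ∀ x, ψ (g x) * (A : Matrix I4 I4 k) = A * ψ x

theorem mem_Om {g : GW k} : g ∈ Om k ↔ ∃ A, Lf A g :=
  ⟨fun ⟨p, hp, e⟩ => ⟨p.1, hp.2.1, by rw [← e]; exact hp.1⟩,
    fun ⟨A, h⟩ => ⟨(A, g), ⟨h.2, h.1, trivial⟩, rfl⟩⟩

theorem Lf.one : Lf (1 : GL I4 k) 1 := ⟨one_mem _, (Γ k).one_mem⟩

theorem Lf.mul {A A' : GL I4 k} {g g' : GW k} (h : Lf A g) (h' : Lf A' g') : Lf (A * A') (g * g') :=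
  ⟨mul_mem h.1 h'.1, fun x => by
    rw [LinearEquiv.mul_apply, Units.val_mul, ← mul_assoc, h.2, mul_assoc, h'.2, mul_assoc]⟩

theorem Lf.inv {A : GL I4 k} {g : GW k} (h : Lf A g) : Lf A⁻¹ g⁻¹ :=
  ⟨inv_mem h.1, (Γ k).inv_mem (x := (A, g)) h.2⟩

theorem Lf.pow {A : GL I4 k} {g : GW k} (h : Lf A g) (n : ℕ) : Lf (A ^ n) (g ^ n) := by
  induction n with
  | zero => simpa using Lf.one
  | succ n ih => rw [pow_succ, pow_succ]; exact ih.mul h

theorem Lf.neg {A : GL I4 k} {g : GW k} (h : Lf A g) : Lf (-A) g :=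
  ⟨mem_sp.2 fun u v => by
      have := mem_sp.1 h.1 u v
      simpa [neg_mulVec, sympForm, mulVec_neg] using this,
    fun x => by simp [h.2 x]⟩

theorem Lf.conj {A : GL I4 k} {g : GW k} (h : Lf A g) (x : W k) :
    ψ (g x) = A * ψ x * (A⁻¹ : GL I4 k) := by
  rw [← h.2, mul_assoc, Units.mul_inv, mul_one]

theorem Lf.unique {A : GL I4 k} {g g' : GW k} (h : Lf A g) (h' : Lf A g') : g = g' :=
  LinearEquiv.ext fun x => ψ_injective (by rw [h.conj, h'.conj])

theorem Lf.of_one (h2 : (2 : k) ≠ 0) {A : GL I4 k} (h : Lf A 1) : A = 1 ∨ A = -1 := by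
  obtain ⟨c, hc⟩ := sc_of_comm h2 (M := A) fun x => (h.2 x).symm
  have := mem_sp.1 h.1 (Pi.single (.inr 0) 1) (Pi.single (.inl 0) 1)
  rw [hc] at this
  simp [f_apply, smul_mulVec] at this
  rcases mul_self_eq_one_iff.1 this with rfl | rfl
  · exact Or.inl (Units.ext (by simp [hc]))
  · exact Or.inr (Units.ext (by simp [hc]))

theorem Lf.eq_or (h2 : (2 : k) ≠ 0) {A A' : GL I4 k} {g : GW k} (h : Lf A g) (h' : Lf A' g) :
    A' = A ∨ A' = -A := by
  have := (h.inv.mul h')
  rw [inv_mul_cancel] at this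
  rcases this.of_one h2 with e | e
  · exact Or.inl (by rw [inv_mul_eq_iff_eq_mul, mul_one] at e; exact e)
  · exact Or.inr (by rw [inv_mul_eq_iff_eq_mul, mul_neg_one] at e; exact e)

theorem Lf.Q_eq {A : GL I4 k} {g : GW k} (h : Lf A g) (x : W k) : Q (g x) = Q x := by
  have e := ψ_mul_self (g x)
  rw [h.conj, mul_assoc, mul_assoc, mul_assoc, Units.inv_mul_cancel_left, ← mul_assoc (ψ x),
    ψ_mul_self, smul_mul_assoc, one_mul, mul_smul_comm, Units.mul_inv] at e
  have := congrFun (congrFun e (.inl 0)) (.inl 0)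
  simpa using this.symm

theorem Om_Q {g : GW k} (h : g ∈ Om k) (x : W k) : Q (g x) = Q x :=
  let ⟨_, h⟩ := mem_Om.1 h; h.Q_eq x

theorem Om_iso {g : GW k} (h : g ∈ Om k) : Iso g := fun x y => by
  have := Om_Q h (x + y)
  rw [map_add, Q_add, Q_add, Om_Q h, Om_Q h] at this
  linear_combination this

theorem Iso.Q_eq (h2 : (2 : k) ≠ 0) {g : GW k} (h : Iso g) (x : W k) : Q (g x) = Q x :=
  mul_left_cancel₀ h2 (by rw [← B_self, ← B_self, h])

theorem Iso.mul {g g' : GW k} (h : Iso g) (h' : Iso g') : Iso (g * g') := fun x y => by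
  rw [LinearEquiv.mul_apply, LinearEquiv.mul_apply, h, h']

theorem Iso.inv {g : GW k} (h : Iso g) : Iso g⁻¹ := fun x y => by
  rw [← h]; simp

theorem Iso.swap {g : GW k} (h : Iso g) (x y : W k) : B (g x) y = B x (g⁻¹ y) := by
  rw [← h x (g⁻¹ y)]; simp

/-- the map `t_v = - r_v` -/
def tv (v x : W k) : W k := (B x v / Q v) • v - x

/-- the Siegel map `E(s, m)` -/
def sg (s m x : W k) : W k := x + B x s • m - (B x m + Q m * B x s) • s

/-- `g = t_v`, an involution of type A -/
def IsT (v : W k) (g : GW k) : Prop := Q v ≠ 0 ∧ ∀ x, g x = tv v x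

/-- `g = E(s, m)` -/
def IsE (s m : W k) (g : GW k) : Prop := Q s = 0 ∧ B m s = 0 ∧ ∀ x, g x = sg s m x

/-- `G` has an involution of type A -/
def HasA (G : Subgroup (GW k)) : Prop := ∃ g ∈ G, ∃ v, IsT v g

/-- `G` has a long root element -/
def HasLong (G : Subgroup (GW k)) : Prop := ∃ g ∈ G, g ≠ 1 ∧ ∃ s m, IsE s m g ∧ Q m = 0

/-- `G` has a short root element -/
def HasShort (G : Subgroup (GW k)) : Prop := ∃ g ∈ G, ∃ s m, s ≠ 0 ∧ IsE s m g ∧ Q m ≠ 0

/-- The standing hypothesis. -/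
structure St (p : ℕ) (G : Subgroup (GW k)) : Prop where
  prime : p.Prime
  ne2 : p ≠ 2
  char : CharP k p
  fin : Finite G
  simple : IsSimpleGroup G
  nonab : ∃ a ∈ G, ∃ b ∈ G, a * b ≠ b * a
  le : G ≤ Om k
  irr : ∀ U : Submodule k (W k), (∀ g ∈ G, ∀ x ∈ U, g x ∈ U) → U = ⊥ ∨ U = ⊤

namespace St

variable {p : ℕ} {G : Subgroup (GW k)}

theorem two (h : St p G) : (2 : k) ≠ 0 := fun e => by
  haveI := h.char
  have : ((2 : ℕ) : k) = 0 := by exact_mod_cast e
  exact h.ne2 ((Nat.prime_dvd_prime_iff_eq h.prime Nat.prime_two).1 ((CharP.cast_eq_zero_iff k p 2).1 this))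

theorem iso (h : St p G) {g : GW k} (hg : g ∈ G) : Iso g := Om_iso (h.le hg)

theorem Q_eq (h : St p G) {g : GW k} (hg : g ∈ G) (x : W k) : Q (g x) = Q x := Om_Q (h.le hg) x

theorem lift (h : St p G) {g : GW k} (hg : g ∈ G) : ∃ A, Lf A g := mem_Om.1 (h.le hg)

/-- homomorphisms to commutative groups are trivial -/
theorem hom_one (h : St p G) {C : Type*} [CommGroup C] (χ : G →* C) (g : G) : χ g = 1 := by
  haveI := h.simple
  rcases (inferInstance : χ.ker.Normal).eq_bot_or_eq_top with e | e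
  · obtain ⟨a, ha, b, hb, hab⟩ := h.nonab
    have := (MonoidHom.ker_eq_bot_iff χ).1 e (a₁ := ⟨a, ha⟩ * ⟨b, hb⟩) (a₂ := ⟨b, hb⟩ * ⟨a, ha⟩)
      (by rw [map_mul, map_mul, mul_comm])
    exact absurd (congrArg Subtype.val this) hab
  · exact (e.ge (Subgroup.mem_top g) : g ∈ χ.ker)

theorem det (h : St p G) {g : GW k} (hg : g ∈ G) : LinearMap.det (g : W k →ₗ[k] W k) = 1 := by
  have := h.hom_one (LinearEquiv.det.comp G.subtype) ⟨g, hg⟩
  have := congrArg Units.val this
  simpa using this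

/-- a conjugation-invariant set of elements with a non-trivial member generates `G` -/
theorem gen (h : St p G) {S : Set (GW k)} (hS : S ⊆ G) (hc : ∀ g ∈ G, ∀ s ∈ S, g * s * g⁻¹ ∈ S)
    {s : GW k} (hs : s ∈ S) (h1 : s ≠ 1) : Subgroup.closure S = G := by
  haveI := h.simple
  have hle : Subgroup.closure S ≤ G := (Subgroup.closure_le G).2 hS
  have hn : ((Subgroup.closure S).subgroupOf G).Normal := by
    rw [Subgroup.normal_subgroupOf_iff hle]
    intro x g hx hg
    induction hx using Subgroup.closure_induction with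
    | mem x hx => exact Subgroup.subset_closure (hc g hg x hx)
    | one => simp
    | mul x y _ _ hx hy =>
      have := mul_mem hx hy
      simpa [mul_assoc] using this
    | inv x _ hx =>
      have := inv_mem hx
      simpa [mul_assoc] using this
  rcases hn.eq_bot_or_eq_top with e | e
  · have : (⟨s, hS hs⟩ : G) ∈ (Subgroup.closure S).subgroupOf G := Subgroup.subset_closure hs
    rw [e, Subgroup.mem_bot] at this
    exact absurd (congrArg Subtype.val this) h1
  · exact le_antisymm hle (Subgroup.subgroupOf_eq_top.1 e)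

/-- the span of an invariant set with a non-zero member is everything -/
theorem span_top (h : St p G) {X : Set (W k)} (hX : ∀ g ∈ G, ∀ x ∈ X, g x ∈ X) {x : W k}
    (hx : x ∈ X) (h0 : x ≠ 0) : Submodule.span k X = ⊤ := by
  refine (h.irr _ fun g hg y hy => ?_).resolve_left fun e => h0 ?_
  · induction hy using Submodule.span_induction with
    | mem y hy => exact Submodule.subset_span (hX g hg y hy)
    | zero => simp
    | add y z _ _ hy hz => rw [map_add]; exact add_mem hy hz
    | smul c y _ hy => rw [map_smul]; exact Submodule.smul_mem _ c hy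
  · have := Submodule.subset_span (R := k) hx
    rwa [e, SetLike.mem_coe, Submodule.mem_bot] at this

/-- no non-zero vector is orthogonal to an invariant set with a non-zero member -/
theorem eq_zero_of_perp (h : St p G) {X : Set (W k)} (hX : ∀ g ∈ G, ∀ x ∈ X, g x ∈ X) {x : W k}
    (hx : x ∈ X) (h0 : x ≠ 0) {w : W k} (hw : ∀ y ∈ X, B w y = 0) : w = 0 := by
  refine B_nd h.two fun y => ?_
  have hy : y ∈ Submodule.span k X := by rw [h.span_top hX hx h0]; trivial
  induction hy using Submodule.span_induction with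
  | mem y hy => exact hw y hy
  | zero => simp
  | add y z _ _ hy hz => rw [map_add, hy, hz, add_zero]
  | smul c y _ hy => rw [map_smul, hy, smul_zero]

/-- no invariant line -/
theorem no_line (h : St p G) {w : W k} (h0 : w ≠ 0) : ∃ g ∈ G, ∀ c : k, g w ≠ c • w := by
  by_contra hc
  push Not at hc
  rcases h.irr (k ∙ w) (fun g hg x hx => by
    obtain ⟨a, rfl⟩ := Submodule.mem_span_singleton.1 hx
    obtain ⟨c, hc⟩ := hc g hg
    rw [map_smul, hc, smul_smul]
    exact Submodule.smul_mem _ _ (Submodule.mem_span_singleton_self w)) with e | e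
  · exact h0 (Submodule.span_singleton_eq_bot.1 e)
  · have := finrank_span_singleton (K := k) h0
    rw [e, finrank_top, finrank_W] at this
    omega

/-- conjugation -/
theorem conj (h : St p G) {γ : GW k} (hγ : γ ∈ Om k) :
    St p (G.map (MulAut.conj γ).toMonoidHom) where
  prime := h.prime
  ne2 := h.ne2
  char := h.char
  fin := by
    haveI := h.fin
    exact Finite.of_equiv G (G.equivMapOfInjective _ (MulAut.conj γ).injective).toEquiv
  simple := by
    haveI := h.simple
    exact (G.equivMapOfInjective _ (MulAut.conj γ).injective).symm.isSimpleGroup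
  nonab := by
    obtain ⟨a, ha, b, hb, hab⟩ := h.nonab
    refine ⟨_, ⟨a, ha, rfl⟩, _, ⟨b, hb, rfl⟩, fun e => hab ((MulAut.conj γ).injective ?_)⟩
    rw [map_mul, map_mul]; exact e
  le := by
    rintro _ ⟨g, hg, rfl⟩
    exact mul_mem (mul_mem hγ (h.le hg)) (inv_mem hγ)
  irr U hU := by
    rcases h.irr (U.comap γ.toLinearMap) (fun g hg x hx => by
      have := hU _ ⟨g, hg, rfl⟩ _ hx
      simpa using this) with e | e
    · left
      refine (Submodule.eq_bot_iff _).2 fun x hx => ?_
      have : γ⁻¹ x ∈ U.comap γ.toLinearMap := by simpa using hx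
      rw [e, Submodule.mem_bot] at this
      simpa using this
    · right
      refine Submodule.eq_top_iff'.2 fun x => ?_
      have : γ⁻¹ x ∈ U.comap γ.toLinearMap := by rw [e]; trivial
      simpa using this

end St

end Cfsg.Agent.O5
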