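import Cfsg.Agent.O5.TvA

/-!
Irreducible symplectic groups generated by transvections in odd characteristic.
-/

set_option autoImplicit false
set_option linter.unusedSectionVars false

namespace Cfsg.Agent.O5.Tv

open Module Matrix H7

variable {F V : Type*} [Field F] [AddCommGroup V] [Module F V]
  {f : LinearMap.BilinForm F V} {X : Subgroup (V ≃ₗ[F] V)} {u v : V} {a b : F}

theorem trace_mem [FiniteDimensional F V] (hf : ∀ x, (∀ y, f y x = 0) → x = 0) (L : Subfield F)
    {M : Set V} (hM : Submodule.span F M = ⊤) (ha : a ≠ 0) (hG : ∀ x ∈ M, ∀ y ∈ M, f x y / a ∈ L)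
    {g : V →ₗ[F] V} (hg : ∀ x ∈ M, g x ∈ M) : LinearMap.trace F V g ∈ L := by
  classical
  obtain ⟨s, hs, h1, h2⟩ := exists_linearIndependent F M
  let e : Basis s F V := Basis.mk h2 (by rw [Subtype.range_coe, h1, hM])
  have he : ∀ i, e i ∈ M := fun i => by simpa [e] using hs i.2
  have : Fintype s := FiniteDimensional.fintypeBasisIndex e
  let G0 : Matrix s s L := Matrix.of fun i j => ⟨_, hG _ (he i) _ (he j)⟩
  let R0 : Matrix s s L := Matrix.of fun i j => ⟨_, hG _ (he i) _ (hg _ (he j))⟩
  have hR : G0.map L.subtype * LinearMap.toMatrix e e g = R0.map L.subtype := by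
    ext i j
    simp only [mul_apply, map_apply, G0, R0, of_apply, Subfield.coe_subtype, LinearMap.toMatrix_apply]
    conv_rhs => rw [← e.sum_repr (g (e j))]
    simp only [map_sum, map_smul, smul_eq_mul, Finset.sum_div]
    exact Finset.sum_congr rfl fun x _ => by ring
  have hd : (G0.map L.subtype).det ≠ 0 := fun h => by
    obtain ⟨c, c0, hc⟩ := exists_mulVec_eq_zero_iff.2 h
    refine c0 (funext fun i => Fintype.linearIndependent_iff.1 e.linearIndependent c
      (hf _ fun y => ?_) i)
    rw [← e.sum_repr y]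
    simp only [map_sum, map_smul, LinearMap.sum_apply, LinearMap.smul_apply, smul_eq_mul]
    rw [show ∑ j, c j * ∑ i, e.repr y i * f (e i) (e j) =
      ∑ i, e.repr y i * a * (G0.map L.subtype *ᵥ c) i by
        simp only [mulVec, dotProduct, map_apply, G0, of_apply, Subfield.coe_subtype, Finset.mul_sum]
        rw [Finset.sum_comm]
        exact Finset.sum_congr rfl fun x _ => Finset.sum_congr rfl fun y _ => by field_simp]
    rw [hc]; simp
  have e1 : (G0.map L.subtype).det * (LinearMap.toMatrix e e g).trace =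
      L.subtype (G0.adjugate * R0).trace := by
    rw [← smul_eq_mul, ← trace_smul, ← one_mul (LinearMap.toMatrix e e g), ← smul_mul_assoc,
      ← adjugate_mul, mul_assoc, hR, AddMonoidHom.map_trace, Matrix.map_mul]
    congr 2
    exact (L.subtype.map_adjugate G0).symm
  rw [LinearMap.trace_eq_matrix_trace F e, ← mul_div_cancel_left₀ (trace _) hd, e1]
  exact L.div_mem (Subtype.prop _) (by rw [← RingHom.mapMatrix_apply, ← RingHom.map_det]; exact Subtype.prop _)

theorem T.origin : T f X 0 a := Has.id.congr fun x => by simp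

/-- the hypotheses -/
structure Hy (f : LinearMap.BilinForm F V) (X : Subgroup (V ≃ₗ[F] V)) : Prop extends Sy f X where
  dim : 3 ≤ finrank F V
  irr : ∀ U : Submodule F V, (∀ g ∈ X, ∀ x ∈ U, g x ∈ U) → U = ⊥ ∨ U = ⊤
  gen : ∀ K : Subgroup (V ≃ₗ[F] V),
    (∀ g ∈ X, ∀ u a, (∀ x, g x = x + (a * f x u) • u) → g ∈ K) → X ≤ K

/-- the field of parameters -/
def Sy.LL [Finite F] (h : Sy f X) : Subfield F :=
  let s : Subring F :=
    { carrier := {l | ∀ u a, T f X u a → T f X u (l * a)}
      mul_mem' := fun ha hb u c t => (ha _ _ (hb u c t)).cast (mul_assoc _ _ _).symm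
      one_mem' := fun u c t => t.cast (one_mul _).symm
      add_mem' := fun ha hb u c t => (h.add (ha u c t) (hb u c t)).cast (add_mul _ _ _).symm
      zero_mem' := fun u c _ => T.zero.cast (zero_mul _).symm
      neg_mem' := fun ha u c t => (h.neg (ha u c t)).cast (neg_mul _ _).symm }
  { s with inv_mem' := H6.M3.inv_mem_subring' s }

theorem Sy.mem_LL [Finite F] (h : Sy f X) {l : F} :
    l ∈ h.LL ↔ ∀ u a, T f X u a → T f X u (l * a) := Iff.rfl

theorem Sy.heis (h : Sy f X) {y z : V} {c : F} (hz : f y z = 0) (h1 : T f X (y + z) c)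
    (h2 : T f X (-y + z) c) : Has X fun x => x + (2 * c * f x y) • z + (2 * c * f x z) • y :=
  (h1.comp (h.neg h2)).congr fun x => by
    simp only [map_add, map_smul, map_neg, LinearMap.add_apply, LinearMap.smul_apply,
      LinearMap.neg_apply, h.alt, hz, h.skew z y, smul_eq_mul]
    module

theorem Sy.comm (h : Sy f X) {y y' z : V} {c : F} (hz : f y z = 0) (hz' : f y' z = 0)
    (h1 : Has X fun x => x + (c * f x y) • z + (c * f x z) • y)
    (h2 : Has X fun x => x + (c * f x y') • z + (c * f x z) • y') :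
    T f X z (2 * c * c * f y' y) :=
  (h1.comp h2).of_comp_left (h2.comp h1) fun x => by
    simp only [map_add, map_smul, LinearMap.add_apply, LinearMap.smul_apply, h.alt, hz, hz',
      h.skew z y, h.skew z y', h.skew y y', smul_eq_mul]
    module

namespace Hy

variable (h : Hy f X)
include h

theorem irrT (U : Submodule F V)
    (H : ∀ u a, T f X u a → a ≠ 0 → u ≠ 0 → ∀ x ∈ U, f x u • u ∈ U) : U = ⊥ ∨ U = ⊤ := by
  have := h.gen (stab U) fun g hg u a e x => by
    by_cases ha : a = 0
    · simp [e, ha]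
    by_cases hu : u = 0
    · simp [e, hu]
    have H' := H u a ⟨g, hg, e⟩ ha hu
    refine ⟨fun hx => ?_, fun hx => ?_⟩
    · rw [e, ← smul_smul]; exact U.add_mem hx (U.smul_mem a (H' _ hx))
    · have := U.sub_mem hx (U.smul_mem a (H' _ hx))
      simpa [e, h.alt, smul_smul] using this
  exact h.irr U fun g hg x hx => (this hg x).1 hx

theorem orb_span (hu : u ≠ 0) : Submodule.span F {x | ∃ g ∈ X, g u = x} = ⊤ := by
  refine (h.irr _ fun g hg y hy => ?_).resolve_left fun e => hu ?_
  · induction hy using Submodule.span_induction with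
    | mem y hy =>
      obtain ⟨g', hg', rfl⟩ := hy
      exact Submodule.subset_span ⟨g * g', mul_mem hg hg', rfl⟩
    | zero => simp
    | add y z _ _ hy hz => rw [map_add]; exact add_mem hy hz
    | smul c y _ hy => rw [map_smul]; exact Submodule.smul_mem _ c hy
  · have : u ∈ Submodule.span F {x | ∃ g ∈ X, g u = x} := Submodule.subset_span ⟨1, one_mem _, rfl⟩
    rwa [e, Submodule.mem_bot] at this

omit h in
theorem exists_of_span (h : Sy f X) {S : Set V} (hS : Submodule.span F S = ⊤) {w : V} (hw : w ≠ 0) :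
    ∃ y ∈ S, f w y ≠ 0 := by
  by_contra hc
  push Not at hc
  refine hw (h.nd w fun y => ?_)
  have : Submodule.span F S ≤ LinearMap.ker (f w) := Submodule.span_le.2 hc
  exact this (hS ▸ trivial)

theorem orb (hu : u ≠ 0) {w : V} (hw : w ≠ 0) : ∃ g ∈ X, f w (g u) ≠ 0 := by
  obtain ⟨_, ⟨g, hg, rfl⟩, e⟩ := exists_of_span h.toSy (h.orb_span hu) hw
  exact ⟨g, hg, e⟩

variable [Finite F] [Finite X] (p : ℕ) [Fact p.Prime] [CharP F p] (hp : p ≠ 2)
include hp

theorem ratio (hu : u ≠ 0) (h1 : T f X u a) (ha : a ≠ 0) {l : F} (h2 : T f X u (l * a)) :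
    l ∈ h.LL := fun w c t => by
  by_cases hc : c = 0
  · exact T.zero.cast (by simp [hc])
  by_cases hw : w = 0
  · exact hw ▸ T.origin
  obtain ⟨g, hg, e⟩ := h.orb hu hw
  rcases h.dick p hp (u := g u) (v := w) (by rw [h.skew]; simpa using e) (h.act hg h1) ha t hc with
    ⟨L, l1, l2, -⟩ | ⟨-, l1, -⟩
  · exact (l2 l).2 ((l1 l).1 (h.act hg h2))
  · have : l * (l - 1) * (l + 1) = 0 := by linear_combination l1 l (h.act hg h2)
    rcases mul_eq_zero.1 this with e | e
    · rcases mul_eq_zero.1 e with e | e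
      · exact T.zero.cast (by simp [e])
      · exact t.cast (by linear_combination -c * e)
    · exact (h.neg t).cast (by linear_combination -c * e)

theorem two : (2 : F) ≠ 0 := fun e => by
  have : ((2 : ℕ) : F) = 0 := by exact_mod_cast e
  exact hp ((Nat.prime_dvd_prime_iff_eq Fact.out Nat.prime_two).1 ((CharP.cast_eq_zero_iff F p 2).1 this))

theorem of_tau (hu : T f X u a) (hv : T f X v b) (hb : b ≠ 0) {τ : V ≃ₗ[F] V} (t1 : τ ∈ X)
    (t2 : τ u = -u) (t3 : τ v = -v) {y z : V} {c : F} (hc : c ≠ 0) (ty : τ y = -y) (tz : τ z = z)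
    (hz : z ≠ 0) (h1 : f z u = 0) (h2 : f z v = 0) (h3 : f y z = 0) (hy : T f X (y + z) c)
    (hyv : f y v ≠ 0) : a * b * f u v ^ 2 ∈ h.LL := by
  have h2' := h.two p hp
  have key : ∀ w d, T f X w d → τ w = -w → f z w = 0 → T f X z (-(8 * c * c * d * f y w ^ 2)) :=
    fun w d tw e1 e2 => by
      have a1 : T f X (y + (d * f y w) • w + z) c := by
        have := h.step hy tw
        rwa [map_add, LinearMap.add_apply, e2, add_zero, add_right_comm] at this
      have a2 := h.act t1 hy
      have a3 := h.act t1 a1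
      rw [map_add, ty, tz] at a2
      rw [map_add, map_add, map_smul, ty, tz, e1, smul_neg, ← neg_add] at a3
      have a4 : f (y + (d * f y w) • w) z = 0 := by simp [h3, h.skew w z, e2]
      refine (h.comm h3 a4 (h.heis h3 hy a2) (h.heis a4 a1 a3)).cast ?_
      simp only [map_add, map_smul, LinearMap.add_apply, LinearMap.smul_apply, h.alt, smul_eq_mul,
        h.skew w y]
      ring
  have s1 := key _ _ (h.step hu hv) (by simp [t2, t3, add_comm]) (by simp [h1, h2])
  have s2 := key _ _ (h.step hu (h.neg hv)) (by simp [t2, t3, add_comm]) (by simp [h1, h2])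
  have s3 := key _ _ hu t2 h1
  have s4 := key _ _ hv t3 h2
  have h8 : (8 : F) ≠ 0 := by
    rw [show (8 : F) = 2 * 2 * 2 by norm_num]; simp [h2']
  have := h.ratio p hp hz s4 (by simp [h8, hc, hb, hyv]) (l := 2 * (a * b * f u v ^ 2))
    ((h.add (h.add (h.add s1 s2) (h.neg s3)) (h.neg s3)).cast (by
      simp only [map_add, map_smul, smul_eq_mul]; ring))
  have := h.LL.div_mem this (natCast_mem h.LL 2)
  rwa [Nat.cast_ofNat, mul_div_cancel_left₀ _ h2'] at this

theorem kappa (hu : T f X u a) (hv : T f X v b) : a * b * f u v ^ 2 ∈ h.LL := by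
  by_cases h0 : a * b * f u v ^ 2 = 0
  · rw [h0]; exact zero_mem _
  simp only [mul_eq_zero, pow_eq_zero_iff two_ne_zero, not_or] at h0
  obtain ⟨⟨ha, hb⟩, huv⟩ := h0
  have hu0 : u ≠ 0 := by rintro rfl; simp at huv
  rcases h.dick p hp huv hu ha hv hb with ⟨L, l1, -, l2⟩ | ⟨-, -, τ, t1, t2, t3, t4⟩
  · exact h.ratio p hp hu0 hu ha ((l1 _).2 l2)
  by_contra hk
  have m1 : u ∈ Submodule.span F {u, v} := Submodule.subset_span (by simp)
  have m2 : v ∈ Submodule.span F {u, v} := Submodule.subset_span (by simp)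
  rcases h.irrT (Submodule.span F {u, v}) (fun y c hy hc _ x hx => by
    obtain ⟨z, z1, z2, e⟩ := h.dec huv y
    by_cases hz : z = 0
    · rw [hz, add_zero] at e
      rw [e]
      exact Submodule.smul_mem _ _ (sub_mem (Submodule.smul_mem _ _ m1) (Submodule.smul_mem _ _ m2))
    generalize hy0 : (f y v / f u v) • u - (f y u / f u v) • v = y0 at e
    have a1 : τ y0 = -y0 := by rw [← hy0]; simp only [map_sub, map_smul, t2, t3]; module
    have a2 : f y0 z = 0 := by simp [← hy0, h.skew u z, h.skew v z, z1, z2]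
    rw [e] at hy
    have a3 : f y0 v = 0 := by_contra fun e =>
      hk (h.of_tau p hp hu hv hb t1 t2 t3 hc a1 (t4 z z1 z2) hz z1 z2 a2 hy e)
    have a4 : f y0 u = 0 := by_contra fun e => hk (by
      have := h.of_tau p hp hv hu ha t1 t3 t2 hc a1 (t4 z z1 z2) hz z2 z1 a2 hy e
      rwa [h.skew v u, neg_sq, mul_comm b] at this)
    obtain ⟨α, β, rfl⟩ := Submodule.mem_span_pair.1 hx
    rw [show f (α • u + β • v) y = 0 by
      simp [e, h.skew u y0, h.skew v y0, h.skew u z, h.skew v z, z1, z2, a3, a4], zero_smul]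
    exact zero_mem _) with e | e
  · rw [e] at m1; exact hu0 m1
  · classical
    have := finrank_span_le_card (R := F) ({u, v} : Set V)
    have h3 := h.dim
    have h4 : ({u, v} : Set V).toFinset.card ≤ 2 := by simpa using Finset.card_le_two
    rw [e, finrank_top] at this
    omega

theorem triple {w : V} {c : F} (hu : T f X u a) (hv : T f X v b) (hw : T f X w c) :
    a * b * c * (f u v * f w v * f u w) ∈ h.LL := by
  have h2 := h.two p hp
  have := h.LL.div_mem (h.LL.sub_mem (h.LL.sub_mem (h.kappa p hp hu (h.step hw hv)) (h.kappa p hp hu hw))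
    (h.LL.mul_mem (h.kappa p hp hu hv) (h.kappa p hp hw hv))) (natCast_mem h.LL 2)
  convert this using 1
  simp only [map_add, map_smul, smul_eq_mul, Nat.cast_ofNat]
  field_simp; ring

omit hp in
theorem near (hu0 : u ≠ 0) (hu : T f X u a) (ha : a ≠ 0) :
    Submodule.span F {v | f u v = 1 ∧ ∃ b, b ≠ 0 ∧ T f X v b} = ⊤ := by
  have k1 : ∀ y c, T f X y c → c ≠ 0 → f u y ≠ 0 →
      y ∈ Submodule.span F {v | f u v = 1 ∧ ∃ b, b ≠ 0 ∧ T f X v b} := fun y c t hc e => by
    have : (f u y)⁻¹ • y ∈ Submodule.span F {v | f u v = 1 ∧ ∃ b, b ≠ 0 ∧ T f X v b} :=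
      Submodule.subset_span ⟨by simp [e], f u y * f u y * c, by simp [e, hc],
        T.smul (t.cast (by field_simp))⟩
    simpa [e] using Submodule.smul_mem _ (f u y) this
  refine (h.irrT _ fun y c t hc _ x hx => ?_).resolve_left fun e => ?_
  · by_cases e : f u y = 0
    swap
    · exact Submodule.smul_mem _ _ (k1 y c t hc e)
    by_cases e1 : ∀ v ∈ {v | f u v = 1 ∧ ∃ b, b ≠ 0 ∧ T f X v b}, f y v = 0
    · have : Submodule.span F {v | f u v = 1 ∧ ∃ b, b ≠ 0 ∧ T f X v b} ≤ LinearMap.ker (f y) :=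
        Submodule.span_le.2 e1
      rw [h.skew, show f y x = 0 from this hx]; simp
    push Not at e1
    obtain ⟨v, hv, e1⟩ := e1
    obtain ⟨v1, b, hb, tv⟩ := id hv
    have := sub_mem (k1 _ c (h.step t tv) hc (by simp [e, v1, hb, e1]))
      (Submodule.smul_mem _ (b * f y v) (Submodule.subset_span hv))
    rw [add_sub_cancel_right] at this
    exact Submodule.smul_mem _ _ this
  · obtain ⟨g, hg, e1⟩ := h.orb hu0 hu0
    have := k1 _ _ (h.act hg hu) ha e1
    rw [e, Submodule.mem_bot] at this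
    simp [this] at e1

theorem trace_LL [FiniteDimensional F V] (hu0 : u ≠ 0) (hu : T f X u a) (ha : a ≠ 0)
    {g : V ≃ₗ[F] V} (hg : g ∈ X) : LinearMap.trace F V g ∈ h.LL := by
  let Y := {v | f u v = 1 ∧ ∃ b, b ≠ 0 ∧ T f X v b}
  have hY : Submodule.span F Y = ⊤ := h.near hu0 hu ha
  have g1 : ∀ x ∈ Y, ∀ y ∈ Y, f x y / a ∈ h.LL := fun x ⟨x1, b, hb, tx⟩ y ⟨y1, c, hc, ty⟩ => by
    have := h.LL.div_mem (h.triple p hp hu ty tx)
      (h.LL.mul_mem (h.kappa p hp hu tx) (h.kappa p hp hu ty))
    convert this using 1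
    rw [x1, y1]; field_simp
  let M := Submodule.span h.LL Y
  have g2 : ∀ x ∈ M, ∀ y ∈ M, f x y / a ∈ h.LL := fun x hx y hy => by
    induction hx using Submodule.span_induction with
    | mem x hx =>
      induction hy using Submodule.span_induction with
      | mem y hy => exact g1 x hx y hy
      | zero => simp
      | add y z _ _ hy hz => rw [map_add, add_div]; exact add_mem hy hz
      | smul c y _ hy =>
        rw [Subfield.smul_def, map_smul, smul_eq_mul, mul_div_assoc]; exact mul_mem c.2 hy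
    | zero => simp
    | add y z _ _ hy hz => rw [map_add, LinearMap.add_apply, add_div]; exact add_mem hy hz
    | smul c y _ hy =>
      rw [Subfield.smul_def, map_smul, LinearMap.smul_apply, smul_eq_mul, mul_div_assoc]
      exact mul_mem c.2 hy
  let K : Subgroup (V ≃ₗ[F] V) :=
    { carrier := {g | ∀ x, g x ∈ M ↔ x ∈ M}
      one_mem' := fun _ => Iff.rfl
      mul_mem' := fun ha hb x => by rw [LinearEquiv.mul_apply, ha, hb]
      inv_mem' := fun {a} ha x => by rw [← ha]; simp }
  have k0 : ∀ y ∈ Y, ∀ c, T f X y c → ∀ x ∈ M, (c * f x y) • y ∈ M := fun y hy c t x hx => by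
    have := M.smul_mem ⟨_, h.LL.mul_mem (h.kappa p hp hu t) (g2 x hx y (Submodule.subset_span hy))⟩
      (Submodule.subset_span hy)
    convert this using 1
    rw [Subfield.smul_def]
    congr 1
    simp only [hy.1]; field_simp
  have k1 : ∀ y c, f u y ≠ 0 → ∀ g ∈ X, (∀ x, g x = x + (c * f x y) • y) → g ∈ K := by
    intro y c e g hg eg x
    by_cases hc : c = 0
    · simp [eg, hc]
    have t : T f X ((f u y)⁻¹ • y) (f u y * f u y * c) := T.smul (T.cast ⟨g, hg, eg⟩ (by field_simp))
    have k := k0 _ ⟨by simp [e], _, by simp [e, hc], t⟩ _ t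
    have k' : ∀ x ∈ M, (c * f x y) • y ∈ M := fun x hx => by
      convert k x hx using 1
      rw [map_smul, smul_smul, smul_eq_mul]
      congr 1; field_simp
    refine ⟨fun hx => ?_, fun hx => by rw [eg]; exact M.add_mem hx (k' x hx)⟩
    simpa [eg, h.alt] using M.sub_mem hx (k' _ hx)
  have hK : X ≤ K := h.gen K fun g hg y c eg => by
    by_cases e : f u y = 0
    swap
    · exact k1 y c e g hg eg
    by_cases hy : y = 0
    · intro x; simp [eg, hy]
    obtain ⟨v, ⟨v1, b, hb, t, ht, et⟩, e1⟩ := exists_of_span h.toSy hY hy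
    have a1 := k1 v b (by simp [v1]) t ht et
    have a2 := k1 (t y) c (by simp [et, e, v1, hb, e1]) (t * g * t⁻¹)
      (mul_mem (mul_mem ht hg) (inv_mem ht)) fun x => by
        obtain ⟨x, rfl⟩ := t.surjective x
        simp [eg, h.iso t ht]
    simpa [mul_assoc] using mul_mem (mul_mem (inv_mem a1) a2) a1
  refine trace_mem (M := M) (fun x hx => h.nd x fun y => by rw [h.skew, hx, neg_zero]) h.LL
    (eq_top_iff.2 (hY ▸ Submodule.span_mono Submodule.subset_span)) ha g2 fun x hx => (hK hg x).2 hx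

end Hy

end Cfsg.Agent.O5.Tv
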