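import Cfsg.Agent.O5.G0
import Cfsg.Agent.O5.TvB
import Cfsg.Agent.H1.Sp4Z
import Cfsg.Agent.Tens.One2
import Cfsg.Agent.Tens.C4Fin
import Cfsg.Agent.Asch.Group

/-!
From a residual core of a maximal subgroup of `Sp₄(F)` to the orthogonal setting.
-/

set_option autoImplicit false
set_option linter.unusedSectionVars false

namespace Cfsg.Agent.O5

open Module Matrix H1.Spin5 Geo
open scoped commutatorElement

variable {F : Type*} [Field F] {k : Type*} [Field k]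

section core

variable {ι : Type} [Fintype ι] [DecidableEq ι] {H P : Subgroup (GL ι F)}

theorem core_gen (hc : IsResidualCore H P) {S : Set (GL ι F)} (hS : S ⊆ P)
    (hn : ∀ g ∈ P, ∀ s ∈ S, g * s * g⁻¹ ∈ S) {s : GL ι F} (hs : s ∈ S) (h1 : s ∉ scalars ι F) :
    P ≤ Subgroup.closure S := by
  have := hc.simple
  have hle : Subgroup.closure S ≤ P := (Subgroup.closure_le P).2 hS
  have nn : ((Subgroup.closure S).subgroupOf P).Normal := by
    rw [Subgroup.normal_subgroupOf_iff hle]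
    intro x g hx hg
    induction hx using Subgroup.closure_induction with
    | mem x hx => exact Subgroup.subset_closure (hn g hg x hx)
    | one => simp
    | mul x y _ _ hx hy => simpa [mul_assoc] using mul_mem hx hy
    | inv x _ hx => simpa [mul_assoc] using inv_mem hx
  have key : ∀ x ∈ P, ∃ n ∈ Subgroup.closure S, ∃ z ∈ scalars ι F, x = n * z := fun x hx => by
    rcases (nn.map (QuotientGroup.mk' ((scalars ι F).subgroupOf P))
      (QuotientGroup.mk'_surjective _)).eq_bot_or_eq_top with e | e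
    · have := (Subgroup.map_eq_bot_iff _).1 e
        (show (⟨s, hS hs⟩ : P) ∈ _ from Subgroup.subset_closure hs)
      rw [QuotientGroup.ker_mk'] at this
      exact absurd this h1
    · obtain ⟨n, a, b⟩ : QuotientGroup.mk' ((scalars ι F).subgroupOf P) ⟨x, hx⟩ ∈ _ := e.ge trivial
      rw [QuotientGroup.mk'_apply, QuotientGroup.mk'_apply, QuotientGroup.eq] at b
      exact ⟨n, a, n.1⁻¹ * x, b, by simp⟩
  rw [← hc.perfect, Subgroup.commutator_le]
  intro x hx y hy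
  obtain ⟨n, a, z, b, rfl⟩ := key x hx
  obtain ⟨n', a', z', b', rfl⟩ := key y hy
  have : ⁅n * z, n' * z'⁆ = n * n' * n⁻¹ * n'⁻¹ := by
    calc _ = n * (z * (n' * z') * z⁻¹) * n⁻¹ * (n' * z')⁻¹ := by rw [commutatorElement_def]; group
      _ = n * n' * (z' * n⁻¹) * z'⁻¹ * n'⁻¹ := by rw [Asch.scalars_comm b]; group
      _ = _ := by rw [Asch.scalars_comm b']; group
  rw [this]
  exact mul_mem (mul_mem (mul_mem a a') (inv_mem a)) (inv_mem a')

theorem core_hom (hc : IsResidualCore H P) {C : Type*} [CommGroup C] (χ : P →* C) (a : P) :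
    χ a = 1 := by
  refine Abelianization.commutator_subset_ker χ ?_
  obtain ⟨b, hb, e⟩ : a.1 ∈ (commutator P).map P.subtype := by
    rw [Subgroup.map_subtype_commutator, hc.perfect]; exact a.2
  rwa [← Subtype.ext e]

theorem core_tr [Finite F] (hc : IsResidualCore H P) (L : Subfield F)
    (h : ∀ x ∈ P, (x : Matrix ι ι F).trace ∈ L) : L = ⊤ := by_contra fun c =>
  hc.no_subfield L c ((Asch.absIrr_of_acts hc.absIrred).realisableOver L h)

end core

variable {H P : Subgroup (GL I4 F)}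

/-- the core contains no transvection -/
theorem no_tv [Finite F] (hc : IsResidualCore H P) (hH : H < spGL 2 F) (p : ℕ) [Fact p.Prime]
    [CharP F p] (hp : p ≠ 2) {a : GL I4 F} (ha : a ∈ P) {u : I4 → F} {b : F}
    (e : ∀ x, a.1 *ᵥ x = x + (b * sympForm 2 F x u) • u) : a = 1 := by
  by_contra h1
  have h0 : ¬ (b = 0 ∨ u = 0) := fun c =>
    h1 (Units.ext (mat_ext fun x => by rcases c with c | c <;> simp [e, c]))
  rw [not_or] at h0
  have sp : P ≤ spGL 2 F := hc.le.trans hH.le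
  let X := P.map (H7.toLE (ι := I4) (F := F)).toMonoidHom
  let f := H7.bilinOf (H7.isSymplecticForm_sympForm 2 F).bilinear
  have : Finite X := Finite.of_injective (fun g : X => (g.1 : (I4 → F) → (I4 → F)))
    fun _ _ e => Subtype.ext (DFunLike.coe_injective e)
  have hy : Tv.Hy f X :=
    { alt := f_self
      nd := fun x hx => H1.Sp4.f_nd fun y => by rw [f_skew, neg_eq_zero]; exact hx y
      iso := by rintro _ ⟨g, hg, rfl⟩; exact mem_sp.1 (sp hg)
      dim := by simp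
      irr := fun U hU => (Asch.irred_iff P).2 hc.absIrred.1 U fun g hg => hU _ ⟨g, hg, rfl⟩
      gen := fun K hK => by
        rw [Subgroup.map_le_iff_le_comap]
        refine (core_gen hc (S := {g | g ∈ P ∧ ∃ u b, ∀ x,
          g.1 *ᵥ x = x + (b * sympForm 2 F x u) • u}) (fun g hg => hg.1) ?_ (s := a)
          ⟨ha, u, b, e⟩ fun c => ?_).trans ((Subgroup.closure_le _).2 ?_)
        · rintro g hg s ⟨hs, u, b, e⟩
          refine ⟨mul_mem (mul_mem hg hs) (inv_mem hg), g.1 *ᵥ u, b, fun x => ?_⟩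
          rw [Units.val_mul, Units.val_mul, ← mulVec_mulVec, ← mulVec_mulVec, e, mulVec_add,
            mulVec_smul, mulVec_mulVec, Units.mul_inv, one_mulVec, (Adj.sp (sp hg)).symm]
        · obtain ⟨c, hc⟩ := (mem_scalars_iff _).1 c
          have := e u
          rw [hc, f_self, mul_zero, zero_smul, add_zero, smul_mulVec, one_mulVec] at this
          have : (c : F) = 1 := smul_left_injective F h0.2 (by simpa using this)
          exact h1 (Units.ext (by simp [hc, this]))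
        · rintro g ⟨hg, u, b, e⟩
          exact hK _ ⟨g, hg, rfl⟩ u b e }
  have T0 : Tv.T f X u b := ⟨_, ⟨a, ha, rfl⟩, e⟩
  have LL : hy.toSy.LL = ⊤ := core_tr hc _ fun x hx => by
    have := hy.trace_LL p hp h0.2 T0 h0.1 (g := H7.toLE x) ⟨x, hx, rfl⟩
    rwa [H7.toLE_coe, trace_toLin'_eq] at this
  have tv : ∀ v c, c ≠ 0 → Tv.T f X v c → Tens.One.TV (H7.spStd 2 F) X v := fun v c c0 t l => by
    have := hy.toSy.mem_LL.1 (LL ▸ Subfield.mem_top (l / c)) v c t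
    rw [div_mul_cancel₀ _ c0] at this
    exact this.congr fun x => by simp [smul_smul]; rfl
  have := Tens.One.E_le_of_TV (X := X)
    (by rintro _ ⟨g, hg, rfl⟩; exact (H7.mem_spGL_iff_Iso 2 g).1 (sp hg))
    (Tens.isSp_spPolar _) (H1.Sp4.two_ne p hp) (tv u b h0.1 T0) h0.2 (hy.near h0.2 T0 h0.1) (by
      rintro y ⟨h3, c, c0, t⟩
      have h4 : sympForm 2 F y u = -1 := by rw [f_skew]; exact congrArg Neg.neg h3
      refine ⟨tv y c c0 t, fun _ => ⟨_, tv _ c c0 (hy.toSy.step t T0), ?_, ?_⟩⟩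
      · change sympForm 2 F (y + (b * sympForm 2 F y u) • u) u ≠ 0
        rw [f_add, f_smul, f_self, h4]; simp
      · change sympForm 2 F y (y + (b * sympForm 2 F y u) • u) ≠ 0
        rw [f_add', f_smul', f_self, h4]; simpa using h0.1)
  refine hH.not_ge fun g hg => ?_
  obtain ⟨g', a, b⟩ := this ((H7.mem_spGL_iff 2 g).1 hg)
  exact hc.le (H7.toLE.injective b ▸ a)

theorem exists_lf (h2 : (2 : k) ≠ 0) {A : GL I4 k} (hA : A ∈ spGL 2 k) : ∃ g, Lf A g := by
  refine ⟨LinearEquiv.ofLinear (H1.Sp4.σ A) (H1.Sp4.σ A⁻¹) (LinearMap.ext fun x => ?_)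
    (LinearMap.ext fun x => ?_), hA, fun x => ?_⟩
  · rw [LinearMap.comp_apply, H1.Sp4.σ_σ_inv h2 hA, LinearMap.id_apply]
  · rw [LinearMap.comp_apply, H1.Sp4.σ_inv_σ h2 hA, LinearMap.id_apply]
  · rw [LinearEquiv.ofLinear_apply, H1.Sp4.ψσ' h2 hA]

theorem mem_sp_iff {A : GL I4 k} : A ∈ spGL 2 k ↔ A.1ᵀ * J (Fin 2) k * A.1 = J (Fin 2) k := by
  have e : ∀ u v, sympForm 2 k (A.1 *ᵥ u) (A.1 *ᵥ v) = u ⬝ᵥ (A.1ᵀ * J (Fin 2) k * A.1) *ᵥ v :=
    fun u v => by
      rw [sympForm, ← mulVec_mulVec, ← mulVec_mulVec, dotProduct_mulVec u, vecMul_transpose]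
  rw [mem_sp]
  refine ⟨fun h => Matrix.ext fun i j => ?_, fun h u v => by rw [e, h, sympForm]⟩
  simpa [sympForm] using (e _ _).symm.trans (h (Pi.single i 1) (Pi.single j 1))

theorem map_sp (φ : F →+* k) {A : GL I4 F} (h : A ∈ spGL 2 F) :
    GeneralLinearGroup.map φ A ∈ spGL 2 k := by
  rw [mem_sp_iff] at h ⊢
  have := congrArg (fun M => M.map φ) h
  simpa [Matrix.map_mul, transpose_map] using this

theorem map_inj (φ : F →+* k) :
    Function.Injective (GeneralLinearGroup.map φ : GL I4 F → GL I4 k) := fun A C h =>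
  Units.ext (Matrix.ext fun i j => φ.injective (by
    rw [← GeneralLinearGroup.map_apply, h, GeneralLinearGroup.map_apply]))

theorem map_neg' (φ : F →+* k) (A : GL I4 F) :
    GeneralLinearGroup.map φ (-A) = -GeneralLinearGroup.map φ A :=
  Units.ext (Matrix.ext fun i j => by simp)

theorem sc_iff (h2 : (2 : F) ≠ 0) {A : GL I4 F} (h : A ∈ spGL 2 F) :
    A ∈ scalars I4 F ↔ A = 1 ∨ A = -1 := by
  refine ⟨fun c => ?_, ?_⟩
  · obtain ⟨c, hc⟩ := (mem_scalars_iff _).1 c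
    exact Lf.of_one h2 ⟨h, fun x => by simp [hc]⟩
  · rintro (rfl | rfl)
    exacts [one_mem _, (mem_scalars_iff _).2 ⟨-1, by simp⟩]

theorem exists_rho (sp : P ≤ spGL 2 F) (φ : F →+* k) (h2 : (2 : k) ≠ 0) :
    ∃ ρ : (P ⧸ (scalars I4 F).subgroupOf P) →* GW k, Function.Injective ρ ∧
      ∀ a : P, Lf (GeneralLinearGroup.map φ a) (ρ a) := by
  have h2' : (2 : F) ≠ 0 := fun e => h2 (by rw [← map_ofNat φ, e, map_zero])
  choose θ hθ using fun a : P => exists_lf h2 (map_sp φ (sp a.2))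
  let θ' : P →* GW k := MonoidHom.mk' θ fun a b => (hθ _).unique (by
    rw [Subgroup.coe_mul, map_mul]; exact (hθ a).mul (hθ b))
  have hk : ∀ a : P, θ' a = 1 ↔ a ∈ (scalars I4 F).subgroupOf P := fun a => by
    rw [Subgroup.mem_subgroupOf, sc_iff h2' (sp a.2)]
    refine ⟨fun e => ?_, fun e => ?_⟩
    · have := hθ a
      rw [show θ a = 1 from e] at this
      exact (this.of_one h2).imp (fun c => map_inj φ (by rw [c, map_one]))
        fun c => map_inj φ (by rw [c, map_neg', map_one])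
    · refine (hθ a).unique ?_
      rcases e with e | e <;> rw [e]
      · rw [map_one]; exact Lf.one
      · rw [map_neg', map_one]; exact Lf.one.neg
  refine ⟨QuotientGroup.lift _ θ' fun a => (hk a).2, ?_, hθ⟩
  rw [injective_iff_map_eq_one]
  intro x hx
  obtain ⟨a, rfl⟩ := QuotientGroup.mk_surjective x
  exact (QuotientGroup.eq_one_iff _).2 ((hk a).1 hx)

section irr

variable [Finite F] (hc : IsResidualCore H P) (φ : F →+* k)
include hc

theorem semi {M : M4x k} (h0 : M ≠ 0) (h : ∀ a : P, ∃ c : k,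
    (GeneralLinearGroup.map φ a.1).1 * M * ((GeneralLinearGroup.map φ a.1)⁻¹).1 = c • M) :
    ∃ c : k, M = c • 1 := by
  choose c hc' using h
  have c0 : ∀ a, c a ≠ 0 := fun a e => h0 (by
    have := hc' a
    rwa [e, zero_smul, Units.mul_left_eq_zero, Units.mul_right_eq_zero] at this)
  let χ : P →* kˣ := MonoidHom.mk' (fun a => Units.mk0 (c a) (c0 a)) fun a b => Units.ext
    (smul_left_injective k h0 (by
      simp only [Units.val_mk0, Units.val_mul]
      rw [← hc', mul_comm, mul_smul, ← hc' a, ← smul_mul_assoc, ← mul_smul_comm, ← hc' b,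
        Subgroup.coe_mul, map_mul, _root_.mul_inv_rev]
      simp only [Units.val_mul, mul_assoc]))
  have key : ∀ y : M4x F, y.map φ * M = M * y.map φ := fun y =>
    Asch.spanAlg_induction (p := fun y => y.map φ * M = M * y.map φ) (fun x hx => by
      have := hc' ⟨x, hx⟩
      rw [show c ⟨x, hx⟩ = 1 from congrArg Units.val (core_hom hc χ ⟨x, hx⟩), one_smul,
        Units.mul_inv_eq_iff_eq_mul] at this
      exact this) (by simp) (fun x y a b => by
        simp only [Matrix.map_add _ (map_add φ), add_mul, mul_add, a, b])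
      (fun c x a => by
        have : (c • x).map φ = φ c • x.map φ := by ext; simp
        simp [this, a]) (Asch.absIrr_of_acts hc.absIrred y)
  obtain ⟨d, hd⟩ := (Matrix.mem_range_scalar_iff_commute_single' (M := M)).2 fun i j => by
    simpa [Matrix.map_single, Commute, SemiconjBy] using key (single i j 1)
  exact ⟨d, by rw [← hd]; simp [smul_one_eq_diagonal]⟩

theorem irr_rho (h2 : (2 : k) ≠ 0) {ρ : (P ⧸ (scalars I4 F).subgroupOf P) →* GW k}
    (hρ : ∀ a : P, Lf (GeneralLinearGroup.map φ a) (ρ a)) (U : Submodule k (W k))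
    (hU : ∀ g, ∀ x ∈ U, ρ g x ∈ U) : U = ⊥ ∨ U = ⊤ := by
  have key : ∀ U : Submodule k (W k), (∀ g, ∀ x ∈ U, ρ g x ∈ U) → finrank k U ≤ 2 → U = ⊥ := by
    intro U hU hd
    by_contra c
    obtain ⟨v, hv, v0⟩ := (Submodule.ne_bot_iff _).1 c
    by_cases hl : ∀ a ∈ U, ∃ c : k, a = c • v
    · obtain ⟨c, hc⟩ := semi hc φ (M := ψ v) (fun e => v0 (ψ_inj e)) fun a => by
        obtain ⟨c, e⟩ := hl _ (hU a v hv)
        exact ⟨c, by rw [← (hρ a).conj, e, map_smul]⟩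
      exact v0 (eq_zero_of_sc h2 hc)
    push Not at hl
    obtain ⟨w, hw, hl⟩ := hl
    have n : ψ v * ψ w - ψ w * ψ v ≠ 0 := fun e =>
      let ⟨t, ht⟩ := prop_of_comm h2 v0 (sub_eq_zero.1 e); hl t ht
    obtain ⟨c, hc⟩ := semi hc φ n fun a => by
      obtain ⟨α, β, e1⟩ := H1.Sp4.span_two hd hw hv v0 hl (hU a v hv)
      obtain ⟨γ, δ, e2⟩ := H1.Sp4.span_two hd hw hv v0 hl (hU a w hw)
      refine ⟨β * γ - α * δ, ?_⟩
      rw [mul_sub, sub_mul, H1.Sp4.ψψ_conj h2 (hρ a).1, H1.Sp4.ψψ_conj h2 (hρ a).1,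
        (H1.Sp4.lf_iff h2 (hρ a).1).1 (hρ a), (H1.Sp4.lf_iff h2 (hρ a).1).1 (hρ a), e1, e2]
      simp only [map_add, map_smul, mul_add, add_mul, smul_mul_assoc, mul_smul_comm]
      module
    obtain ⟨t, ht⟩ := H1.Sp4.prop_of_sc h2 v0 (b := w) (c := (c + B v w) / 2) (by
      rw [div_eq_inv_mul, mul_smul, add_smul, ← hc, ← ψ_add_swap, sub_add_add_cancel, ← two_smul k,
        smul_smul, inv_mul_cancel₀ h2, one_smul])
    exact hl t ht
  by_cases hd : finrank k U ≤ 2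
  · exact Or.inl (key U hU hd)
  have e := finrank_orth h2 U
  rw [key ((B : LinearMap.BilinForm k (W k)).orthogonal U) (fun g y hy => mem_orth.2 fun u hu => by
    obtain ⟨a, rfl⟩ := QuotientGroup.mk_surjective g
    rw [B_comm, (Om_iso (mem_Om.2 ⟨_, hρ a⟩)).swap, B_comm, ← map_inv]
    exact mem_orth.1 hy _ (hU _ u hu)) (by omega), finrank_bot, zero_add] at e
  exact Or.inr (Submodule.eq_top_of_finrank_eq (by rw [e, finrank_W]))

theorem st_rho {p : ℕ} (hp : p.Prime) (h2 : p ≠ 2) [CharP k p]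
    {ρ : (P ⧸ (scalars I4 F).subgroupOf P) →* GW k} (hi : Function.Injective ρ)
    (hρ : ∀ a : P, Lf (GeneralLinearGroup.map φ a) (ρ a)) : St p ρ.range where
  prime := hp
  ne2 := h2
  char := inferInstance
  fin := Finite.of_equiv _ (MonoidHom.ofInjective hi).toEquiv
  simple := have := hc.simple; (MonoidHom.ofInjective hi).symm.isSimpleGroup
  nonab := by
    by_contra! c
    exact hc.nonabelian ⟨⟨fun x y => hi (by
      rw [map_mul, map_mul]; exact c _ ⟨x, rfl⟩ _ ⟨y, rfl⟩)⟩⟩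
  le := by
    rintro _ ⟨g, rfl⟩
    obtain ⟨a, rfl⟩ := QuotientGroup.mk_surjective g
    exact mem_Om.2 ⟨_, hρ a⟩
  irr U hU := have := Fact.mk hp
    irr_rho hc φ (H1.Sp4.two_ne p h2) hρ U fun g => hU _ ⟨g, rfl⟩

end irr

theorem rank_one (h2 : (2 : k) ≠ 0) {s m : W k} (hs : Q s = 0) (hm : B s m = 0) (hQ : Q m = 0) :
    ∃ v, ∀ x, ∃ c : k, (ψ s * ψ m) *ᵥ x = c • v := by
  by_cases h0 : ψ s * ψ m = 0
  · exact ⟨0, fun x => ⟨0, by simp [h0]⟩⟩
  obtain ⟨x0, hx⟩ : ∃ x, (ψ s * ψ m) *ᵥ x ≠ 0 := by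
    by_contra! hh
    exact h0 (mat_ext fun x => by rw [hh, zero_mulVec])
  have hs0 : s ≠ 0 := by rintro rfl; simp at h0
  have h1 : ∀ x, ψ s *ᵥ x ∈ LinearMap.ker (toLin' (ψ s)) := fun x => by
    rw [LinearMap.mem_ker, toLin'_apply, mulVec_mulVec, ψ_mul_self, hs]; simp
  have h3 : ∀ x, (ψ s * ψ m) *ᵥ x = -(ψ m *ᵥ (ψ s *ᵥ x)) := fun x => by
    rw [H1.Sp4.ψ_neg_swap hm, neg_mulVec, mulVec_mulVec]
  have h4 : ψ m *ᵥ ((ψ s * ψ m) *ᵥ x0) = 0 := by
    rw [h3, mulVec_neg, mulVec_mulVec, ψ_mul_self, hQ]; simp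
  refine ⟨(ψ s * ψ m) *ᵥ x0, fun x => ?_⟩
  obtain ⟨α, β, e'⟩ := H1.Sp4.span_two (H1.Sp4.finrank_ker_sing h2 hs0 hs).le (h1 x0)
    (v := (ψ s * ψ m) *ᵥ x0) (by rw [← mulVec_mulVec]; exact h1 _) hx (fun c e => hx (by
      rw [h3, e, mulVec_smul, h4]; simp)) (h1 x)
  refine ⟨α, ?_⟩
  rw [h3, e', mulVec_add, mulVec_smul, mulVec_smul, h4, h3]
  simp

theorem tv_form {A : GL I4 F} (hA : A ∈ spGL 2 F) {v : I4 → F} (h0 : v ≠ 0)
    (h : ∀ x, ∃ c : F, A.1 *ᵥ x = x + c • v) :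
    ∃ b, ∀ x, A.1 *ᵥ x = x + (b * sympForm 2 F x v) • v := by
  obtain ⟨x, hx⟩ : ∃ x, sympForm 2 F x v ≠ 0 := by
    by_contra! hh
    exact h0 (H1.Sp4.f_nd hh)
  obtain ⟨l, hl⟩ := h x
  refine ⟨l / sympForm 2 F x v, fun y => ?_⟩
  obtain ⟨c, hc⟩ := h y
  have := mem_sp.1 hA x y
  rw [hl, hc, f_add, f_add', f_add', f_smul, f_smul, f_smul', f_smul', f_self, f_skew v y] at this
  rw [hc, show c = l / sympForm 2 F x v * sympForm 2 F y v by field_simp; linear_combination this]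

theorem descend (φ : F →+* k) {M : M4x F} {v : I4 → k} (h : ∀ x, ∃ c : k, M.map φ *ᵥ x = c • v)
    (h0 : M ≠ 0) : ∃ u, u ≠ 0 ∧ ∀ x, ∃ c : F, M *ᵥ x = c • u := by
  obtain ⟨x0, hx⟩ : ∃ x, M *ᵥ x ≠ 0 := by
    by_contra! hh
    exact h0 (mat_ext fun x => by rw [hh, zero_mulVec])
  obtain ⟨i, hi⟩ := Function.ne_iff.1 hx
  refine ⟨_, hx, fun x => ⟨(M *ᵥ x) i / (M *ᵥ x0) i, funext fun j => φ.injective ?_⟩⟩
  obtain ⟨c, hc⟩ := h (φ ∘ x)
  obtain ⟨d, hd⟩ := h (φ ∘ x0)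
  have hi' := (map_ne_zero φ).2 hi
  simp only [Pi.smul_apply, smul_eq_mul, map_mul, map_div₀, RingHom.map_mulVec, hc, hd] at hi' ⊢
  have := left_ne_zero_of_mul hi'
  have := right_ne_zero_of_mul hi'
  field_simp

theorem no_long [Finite F] (hc : IsResidualCore H P) (hH : H < spGL 2 F) (φ : F →+* k) (p : ℕ)
    [Fact p.Prime] [CharP F p] (hp : p ≠ 2) {ρ : (P ⧸ (scalars I4 F).subgroupOf P) →* GW k}
    (hρ : ∀ a : P, Lf (GeneralLinearGroup.map φ a) (ρ a)) : ¬ HasLong ρ.range := by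
  rintro ⟨_, ⟨g, rfl⟩, h1, s, m, hE, hm⟩
  obtain ⟨a, rfl⟩ := QuotientGroup.mk_surjective g
  have h2 : (2 : k) ≠ 0 := by rw [← map_ofNat φ]; exact (map_ne_zero φ).2 (H1.Sp4.two_ne p hp)
  have a6 : B s m = 0 := by rw [B_comm, hE.2.1]
  have e : ((a.1 * a.1).1 - 1).map φ = (-2 : k) • (ψ s * ψ m) := by
    have e1 : GeneralLinearGroup.map φ (a.1 * a.1) = lift hE.1 hE.2.1 * lift hE.1 hE.2.1 := by
      rw [map_mul]
      rcases (hE.lf h2).eq_or h2 (hρ a) with e | e <;> rw [e]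
      rw [neg_mul_neg]
    have e2 : ((a.1 * a.1).1).map φ = (1 - ψ s * ψ m) * (1 - ψ s * ψ m) := congrArg Units.val e1
    rw [Matrix.map_sub _ (map_sub φ), e2, sub_mul, mul_sub, mul_sub, H1.Sp4.ψψ_sq hE.1 a6,
      Matrix.map_one _ (map_zero φ) (map_one φ)]
    simp only [one_mul, mul_one]
    module
  have h0 : (a.1 * a.1).1 - 1 ≠ 0 := fun c => h1 (by
    rw [c, Matrix.map_zero _ (map_zero φ), eq_comm, smul_eq_zero, neg_eq_zero] at e
    refine (hE.lf h2).unique ?_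
    rw [show lift hE.1 hE.2.1 = 1 from Units.ext (by simp [lift, e.resolve_left h2])]
    exact Lf.one)
  obtain ⟨v, hv⟩ := rank_one h2 hE.1 a6 hm
  obtain ⟨u, u0, hu⟩ := descend φ (v := v) (fun x => (hv x).elim fun c hc =>
    ⟨-2 * c, by rw [e, smul_mulVec, hc, smul_smul]⟩) h0
  obtain ⟨b, hb⟩ := tv_form (hH.le (hc.le (mul_mem a.2 a.2))) u0 fun x => (hu x).imp fun c hc => by
    rw [← hc, sub_mulVec, one_mulVec, add_sub_cancel]
  exact h0 (by rw [no_tv hc hH p hp (mul_mem a.2 a.2) hb]; simp)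

/-- The context and the standing hypotheses. -/
theorem exists_cx [Finite F] (hc : IsResidualCore H P) (hH : IsMaximalIn (spGL 2 F) H) {p : ℕ}
    (hp : p.Prime) [CharP F p] (h2 : p ≠ 2) :
    (∃ (ρ : (P ⧸ (scalars I4 F).subgroupOf P) →* GW F) (N : Subgroup (GW F)), Cx p ρ N) ∧
      ∃ G : Subgroup (GW (AlgebraicClosure F)), St p G ∧ ¬ HasLong G ∧
        Nonempty ((P ⧸ (scalars I4 F).subgroupOf P) ≃* G) := by
  have := Fact.mk hp
  have sp : P ≤ spGL 2 F := hc.le.trans hH.1.le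
  have t := H1.Sp4.two_ne (k := F) p h2
  let φ := algebraMap F (AlgebraicClosure F)
  obtain ⟨θ, θi, hθ⟩ := exists_rho sp φ (H1.Sp4.two_ne p h2)
  obtain ⟨ρ, ρi, hρ⟩ := exists_rho sp (RingHom.id F) t
  have st := st_rho hc φ hp h2 θi hθ
  have nl := no_long hc hH.1 φ p h2 hθ
  have hy := H1.Sp4.hy_pre st nl
  have l1 : ∀ a : P, Lf a (ρ a) := hρ
  have l2 : ∀ g A, Lf A (ρ g) → GeneralLinearGroup.map φ A ∈ H1.Sp4.pre θ.range := fun g A a => by
    obtain ⟨b, rfl⟩ := QuotientGroup.mk_surjective g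
    rcases (l1 b).eq_or t a with rfl | rfl
    · exact ⟨_, ⟨_, rfl⟩, hθ b⟩
    · exact ⟨_, ⟨_, rfl⟩, map_neg' φ _ ▸ (hθ b).neg⟩
  have l3 : ∀ g, Lf 1 (ρ g) → g = 1 := fun g a => ρi (by rw [map_one]; exact a.unique Lf.one)
  let N : Subgroup (GW F) :=
    { carrier := {n | ∃ A ∈ H, Lf A n}
      one_mem' := ⟨1, one_mem _, Lf.one⟩
      mul_mem' := fun ⟨_, a, b⟩ ⟨_, a', b'⟩ => ⟨_, mul_mem a a', b.mul b'⟩
      inv_mem' := fun ⟨_, a, b⟩ => ⟨_, inv_mem a, b.inv⟩ }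
  refine ⟨⟨ρ, N, hp, h2, inferInstance, ρi, fun g => ?_, irr_rho hc _ t hρ, ?_, fun L hL => ?_,
    fun g A a e => ?_, fun g A a e => ?_, fun g => ?_, fun n ⟨A, _, a⟩ => mem_Om.2 ⟨A, a⟩,
    fun n ⟨C, c, c'⟩ g => ?_, fun M h3 h4 => ?_⟩, θ.range, st, nl, ⟨MonoidHom.ofInjective θi⟩⟩
  · obtain ⟨b, rfl⟩ := QuotientGroup.mk_surjective g
    exact mem_Om.2 ⟨_, l1 b⟩
  · refine Submodule.eq_top_iff'.2 fun M => Submodule.span_mono ?_
      (Asch.mem_spanAlg.1 (Asch.absIrr_of_acts hc.absIrred M))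
    rintro _ ⟨x, hx, rfl⟩
    exact ⟨_, x, l1 ⟨x, hx⟩, rfl⟩
  · exact core_tr hc L fun x hx => hL _ x (l1 ⟨x, hx⟩)
  · rcases hy.caseA _ (l2 g A a) (by rw [← map_mul, e, map_one]) with c | c
    · exact l3 g (map_inj φ (c.trans (map_one _).symm) ▸ a)
    · have : A = -1 := map_inj φ (by rw [c, map_neg', map_one])
      exact l3 g (by simpa [this] using a.neg)
  · refine (hy.caseS _ (l2 g A a) ?_).imp 
      (fun c => l3 g (map_inj φ (Eq.trans c (map_one _).symm) ▸ a))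
      fun c => ⟨c.1, fun d => c.2 (d.trans ?_)⟩
    · have := congrArg (fun M => M.map φ) e
      simpa [Matrix.map_mul, Matrix.map_sub _ (map_sub φ)] using this
    · rw [Nat.card_congr (MonoidHom.ofInjective θi).toEquiv]
      exact H1.Sp4.card_dvd_pre st
  · obtain ⟨b, rfl⟩ := QuotientGroup.mk_surjective g
    exact ⟨_, hc.le b.2, l1 b⟩
  · obtain ⟨b, rfl⟩ := QuotientGroup.mk_surjective g
    have := l1 ⟨_, hc.normal C c b b.2⟩
    exact ⟨_, this.unique ((c'.mul (l1 b)).mul c'.inv)⟩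
  · rcases hH.2 (H1.Sp4.pre M) (fun A a => (exists_lf t (hH.1.le a)).elim fun n b =>
      ⟨n, h3 ⟨A, a, b⟩, b⟩) (fun _ ⟨_, _, b⟩ => b.1) with e | e
    · refine Or.inl (le_antisymm (fun n hn => ?_) h3)
      obtain ⟨A, a⟩ := mem_Om.1 (h4 hn)
      exact ⟨A, e.le ⟨n, hn, a⟩, a⟩
    · refine Or.inr (le_antisymm h4 fun n hn => ?_)
      obtain ⟨A, a⟩ := mem_Om.1 hn
      obtain ⟨n', b, c⟩ := e.ge a.1
      exact c.unique a ▸ b

end Cfsg.Agent.O5
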