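import Mathlib

/-!
Case B: arithmetic of the two counting arguments.
-/

set_option autoImplicit false
set_option maxHeartbeats 400000

namespace Cfsg.Agent.O5.Num

/-- numerical data of a class of subgroups -/
structure Cl (n b w κ c : ℕ) : Prop where
  e1 : n = b * (w * κ)
  e2 : w * c + w * κ = n
  dv : w ∣ b - 1
  one : 1 < b
  odd : b % 2 = 1
  pos : 0 < κ

theorem tab {n b k : ℕ} (h : n = b * k) (v : ℕ) : (b = v → n = v * k) ∧ (v ≤ b → v * k ≤ n) :=
  ⟨fun e => e ▸ h, fun e => h ▸ Nat.mul_le_mul_right k e⟩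

theorem cop {a b : ℕ} (h : a.Coprime b) (r : ℕ) (hr : 1 < r := by decide) : ¬ r ∣ a ∨ ¬ r ∣ b := by
  by_contra! e
  exact hr.ne' (Nat.eq_one_of_dvd_coprimes h e.1 e.2)

theorem sizes {ι : Type*} (F : Finset ι) (c : ι → ℕ) {n r lo hi : ℕ}
    (h : ∀ B ∈ F, r * n ≤ lo * c B ∧ hi * c B < n) :
    (F.card = 0 ∧ ∑ B ∈ F, c B = 0) ∨
    (F.card = 1 ∧ r * n ≤ lo * ∑ B ∈ F, c B ∧ hi * ∑ B ∈ F, c B < n) ∨
    (F.card = 2 ∧ 2 * (r * n) ≤ lo * ∑ B ∈ F, c B ∧ hi * ∑ B ∈ F, c B < 2 * n) ∨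
    (F.card = 3 ∧ 3 * (r * n) ≤ lo * ∑ B ∈ F, c B) ∨
    (4 ≤ F.card ∧ 4 * (r * n) ≤ lo * ∑ B ∈ F, c B) := by
  have h1 := F.card_nsmul_le_sum (fun B => lo * c B) _ fun B hB => (h B hB).1
  have h2 := F.sum_le_card_nsmul (fun B => hi * c B + 1) _ fun B hB => (h B hB).2
  rw [← Finset.mul_sum, smul_eq_mul] at h1
  rw [Finset.sum_add_distrib, ← Finset.mul_sum, smul_eq_mul, Finset.sum_const, smul_eq_mul] at h2
  rcases (by omega : F.card = 0 ∨ F.card = 1 ∨ F.card = 2 ∨ F.card = 3 ∨ 4 ≤ F.card) with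
    e | e | e | e | e
  · simp [Finset.card_eq_zero.1 e]
  all_goals first
    | (rw [e] at h1 h2; omega)
    | (have := Nat.mul_le_mul_right (r * n) e; omega)

theorem Cl.two {n b κ c : ℕ} (h : Cl n b 2 κ c) : 1 * n ≤ 3 * c ∧ 2 * c < n := by
  have := tab h.e1 3
  have := h.e2; have := h.one; have := h.odd; have := h.pos
  omega

theorem Cl.two' {n b κ c : ℕ} (h : Cl n b 2 κ c) (h3 : ¬ 3 ∣ b) : 2 * n ≤ 5 * c ∧ 2 * c < n := by
  have := tab h.e1 5
  have := h.e2; have := h.one; have := h.odd; have := h.pos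
  omega

theorem Cl.four {n b κ c : ℕ} (h : Cl n b 4 κ c) : 1 * n ≤ 5 * c ∧ 4 * c < n := by
  have := tab h.e1 5
  have := h.e2; have := h.one; have := h.dv; have := h.pos
  omega

theorem Cl.three {n b κ c : ℕ} (h : Cl n b 3 κ c) : 2 * n ≤ 7 * c ∧ 3 * c < n := by
  have := tab h.e1 7
  have := h.e2; have := h.one; have := h.dv; have := h.pos; have := h.odd
  omega

theorem dvd3 {n a b c : ℕ} (ha : a ∣ n) (hb : b ∣ n) (hc : c ∣ n) (h1 : a.Coprime b)
    (h2 : a.Coprime c) (h3 : b.Coprime c) : ∃ m, n = a * b * c * m :=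
  (Nat.Coprime.mul_left h2 h3).mul_dvd_of_dvd_of_dvd (h1.mul_dvd_of_dvd_of_dvd ha hb) hc

theorem Cl.dvd {n b w κ c : ℕ} (h : Cl n b w κ c) : b ∣ n := ⟨_, h.e1⟩

theorem Cl.cop2 {n b w κ c a : ℕ} (h : Cl n b w κ c) (h1 : a.Coprime b) : (2 * a).Coprime b :=
  Nat.Coprime.mul_left (Nat.coprime_two_left.2 (Nat.odd_iff.2 h.odd)) h1

theorem tri {x y u : ℕ} (hx : 3 ≤ x) (h1 : x ∣ u - 1) (h2 : 1 < u) (h : x * u + 2 * y = y * u + 1) :
    u = 2 * x + 1 ∧ y = x + 1 := by
  obtain ⟨k, hk⟩ := h1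
  obtain rfl : u = x * k + 1 := by omega
  have h3 : (x : ℤ) ∣ y - 1 := ⟨y * k - (x * k + 1), by zify at h; linear_combination h⟩
  obtain ⟨l, hl⟩ := h3
  have k0 : 1 ≤ k := Nat.pos_of_ne_zero (by rintro rfl; simp at h2)
  zify at h hx k0 ⊢
  have hy : (y : ℤ) = x * l + 1 := by linarith
  have h4 : l * (x * k - 1) = x * k + 1 - k := by
    apply mul_left_cancel₀ (show (x : ℤ) ≠ 0 by omega)
    rw [hy] at h
    linear_combination -h
  have h5 : 0 ≤ l := by
    by_contra! e
    nlinarith [Int.natCast_nonneg y]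
  have h6 : l = 1 := by
    rcases (by omega : l = 0 ∨ l = 1 ∨ 2 ≤ l) with e | e | e
    · subst e; nlinarith
    · exact e
    · nlinarith [mul_le_mul_of_nonneg_right e (show 0 ≤ (x : ℤ) * k - 1 by nlinarith)]
  subst h6
  obtain rfl : k = 2 := by omega
  constructor <;> push_cast <;> linarith

section I
variable {n a i e : ℕ} (ha : n = a * (2 * i)) (he : 2 * e + 2 * i = n) (a2 : a % 2 = 0)
  (i0 : 0 < i)
include ha he a2 i0

theorem n22 {b κ c b' κ' c' : ℕ} (h : Cl n b 2 κ c) (h' : Cl n b' 2 κ' c') (cp : b.Coprime b')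
    (eq : n = 1 + e + (c + c')) : n = 60 := by
  have key : 2 * (i + κ + κ') = n + 2 := by have := h.e2; have := h'.e2; omega
  have A : n = 2 * (2 * i) ∨ 4 * (2 * i) ≤ n := by
    have := tab ha 0; have := tab ha 2; have := tab ha 4; omega
  have B : ∀ {b κ c : ℕ}, Cl n b 2 κ c →
      (b = 3 ∧ n = 3 * (2 * κ)) ∨ (b = 5 ∧ n = 5 * (2 * κ)) ∨ 7 * (2 * κ) ≤ n := by
    intro b κ c h
    have := tab h.e1 3; have := tab h.e1 5; have := tab h.e1 7
    have := h.one; have := h.odd; omega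
  have B1 := B h; have B2 := B h'
  have := cop cp 3; have := cop cp 5; have := h.pos; have := h'.pos
  clear ha he a2 h h' cp eq B
  rcases A with A | A <;> rcases B1 with B1 | B1 | B1 <;> rcases B2 with B2 | B2 | B2 <;> omega

theorem n24 (a4 : 4 ∣ a) {b κ c b' κ' c' : ℕ} (h : Cl n b 2 κ c) (h' : Cl n b' 4 κ' c')
    (cp : b.Coprime b') (cp' : a.Coprime b) (eq : n = 1 + e + (c + c')) : n = 360 ∧ b' = 9 := by
  have key : 4 * (i + κ + κ') = n + 4 := by have := h.e2; have := h'.e2; omega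
  have A : n = 4 * (2 * i) ∨ n = 8 * (2 * i) ∨ (a = 12 ∧ n = 12 * (2 * i)) ∨ 16 * (2 * i) ≤ n := by
    have := tab ha 0; have := tab ha 4; have := tab ha 8; have := tab ha 12; have := tab ha 16
    omega
  have B : (b = 3 ∧ n = 3 * (2 * κ)) ∨ (b = 5 ∧ n = 5 * (2 * κ)) ∨ 7 * (2 * κ) ≤ n := by
    have := tab h.e1 3; have := tab h.e1 5; have := tab h.e1 7
    have := h.one; have := h.odd; omega
  have C : (b' = 5 ∧ n = 5 * (4 * κ')) ∨ (b' = 9 ∧ n = 9 * (4 * κ')) ∨ 13 * (4 * κ') ≤ n := by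
    have := tab h'.e1 5; have := tab h'.e1 9; have := tab h'.e1 13
    have := h'.one; have := h'.dv; omega
  have := cop cp 3; have := cop cp 5; have := cop cp' 3
  have := h'.pos
  clear ha he a2 a4 h h' cp cp' eq
  rcases A with A | A | A | A <;> rcases B with B | B | B <;> rcases C with C | C | C <;> omega

theorem n444 (a4 : 4 ∣ a) {b κ c b' κ' c' b'' κ'' c'' : ℕ} (h : Cl n b 4 κ c) (h' : Cl n b' 4 κ' c')
    (h'' : Cl n b'' 4 κ'' c'') (cp : b.Coprime b') (cp' : b.Coprime b'') (cp'' : b'.Coprime b'')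
    (eq : n = 1 + e + (c + c' + c'')) : False := by
  have key : 4 * (i + κ + κ' + κ'') = n + 4 := by
    have := h.e2; have := h'.e2; have := h''.e2; omega
  have A : 4 * (2 * i) ≤ n := by have := tab ha 0; have := tab ha 4; omega
  have B : ∀ {b κ c : ℕ}, Cl n b 4 κ c → (b = 5 ∧ n = 5 * (4 * κ)) ∨ 9 * (4 * κ) ≤ n := by
    intro b κ c h
    have := tab h.e1 5; have := tab h.e1 9; have := h.one; have := h.dv; omega
  have B1 := B h; have B2 := B h'; have B3 := B h''
  have := cop cp 5; have := cop cp' 5; have := cop cp'' 5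
  clear ha he a2 a4 h h' h'' cp cp' cp'' eq B
  rcases B1 with B1 | B1 <;> rcases B2 with B2 | B2 <;> rcases B3 with B3 | B3 <;> omega

theorem n32 {b κ c u k v : ℕ} (h : Cl n b 2 κ c) (h' : Cl n u 3 k v) (h3 : 3 ∣ a ∨ 3 ∣ b)
    (eq : n = 1 + e + c + v) : k = u + 1 ∧ 2 * 3 = u - 1 := by
  have key : 3 * (i + κ + k) = n + 3 := by have := h.e2; have := h'.e2; omega
  have A : (a = 2 ∧ n = 2 * (2 * i)) ∨ (a = 4 ∧ n = 4 * (2 * i)) ∨ 6 * (2 * i) ≤ n := by
    have := tab ha 0; have := tab ha 2; have := tab ha 4; have := tab ha 6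
    omega
  have B : (b = 3 ∧ n = 3 * (2 * κ)) ∨ (b = 5 ∧ n = 5 * (2 * κ)) ∨ (b = 7 ∧ n = 7 * (2 * κ)) ∨
      (b = 9 ∧ n = 9 * (2 * κ)) ∨ (b = 11 ∨ b = 13) ∧ 11 * (2 * κ) ≤ n ∨ 15 * (2 * κ) ≤ n := by
    have := h.one; have := h.odd; have h1 := h.e1
    rcases (by omega : b = 3 ∨ b = 5 ∨ b = 7 ∨ b = 9 ∨ b = 11 ∨ b = 13 ∨ 15 ≤ b) with
      rfl | rfl | rfl | rfl | rfl | rfl | e15
    iterate 6 omega
    have := (tab h1 15).2 e15
    omega
  have C : (u = 7 ∧ n = 7 * (3 * k)) ∨ 13 * (3 * k) ≤ n := by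
    have := tab h'.e1 7; have := tab h'.e1 13
    have := h'.one; have := h'.dv; have := h'.odd; omega
  have D : 3 ∣ a → a ≠ 2 ∧ a ≠ 4 := by omega
  have := h'.pos
  clear ha he a2 h h' eq
  rcases A with A | A | A <;> rcases B with B | B | B | B | B | B <;> rcases C with C | C <;> omega

theorem n34 (a4 : 4 ∣ a) {b κ c u k v : ℕ} (h : Cl n b 4 κ c) (h' : Cl n u 3 k v)
    (h3 : 3 ∣ a ∨ 3 ∣ b) (c1 : a.Coprime b) (c2 : a.Coprime u) (c3 : b.Coprime u)
    (eq : n = 1 + e + c + v) (jj : i * i ≤ i + 2 * a * e + b * c + u * v) : False := by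
  obtain ⟨m, hm⟩ := dvd3 ⟨i, by rw [ha]; ring⟩ h.dvd h'.dvd (h.cop2 c1) (h'.cop2 c2) c3
  obtain ⟨a', rfl⟩ := a4
  have a0 : a' ≠ 0 := by rintro rfl; omega
  have b1 := h.one; have u1 := h'.one
  have e1 : i = b * u * m := by
    apply Nat.eq_of_mul_eq_mul_left (show 0 < 8 * a' by omega); linarith
  have e2 : κ = 2 * a' * u * m := by
    apply Nat.eq_of_mul_eq_mul_left (show 0 < 4 * b by omega); have := h.e1; linarith
  have e3 : 3 * k = 8 * a' * b * m := by
    apply Nat.eq_of_mul_eq_mul_left (show 0 < u by omega); have := h'.e1; linarith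
  have e4 := h.e2; have e5 := h'.e2
  have key : 12 * (i + κ + k) = n + 12 := by omega
  obtain ⟨u', hu⟩ := h'.dv
  obtain rfl : u = 3 * u' + 1 := by omega
  have e6 : (m : ℤ) * (b * (3 * u' + 1) + 2 * a' * (3 * u' + 1) - 2 * a' * b * (u' - 1)) = 1 := by
    zify at key e1 e2 e3 hm
    apply mul_left_cancel₀ (show (12 : ℤ) ≠ 0 by decide)
    linear_combination key - 12 * e1 - 12 * e2 - 4 * e3 + hm
  obtain rfl : m = 1 := by exact_mod_cast Int.eq_one_of_mul_eq_one_right (by omega) e6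
  have e7 : 2 * a' * b * u' + 1 = b * (3 * u' + 1) + 2 * a' * (3 * u' + 1) + 2 * a' * b := by
    zify; linear_combination -e6
  have b4 := h.dv; have u2 := h'.odd
  have hb : b = 5 ∨ b = 9 ∨ 13 ≤ b := by omega
  have hu' : u' = 2 ∨ u' = 4 ∨ 6 ≤ u' := by omega
  rcases (by omega : a' = 1 ∨ a' = 2 ∨ a' = 3 ∨ 4 ≤ a') with rfl | rfl | rfl | e
  · nlinarith
  · have e8 : b * u' = 5 * b + 12 * u' + 3 := by linarith
    have h2 : i * i ≤ i * (109 + 4 * b + 16 * u') := by
      have f1 : e = 7 * i := by omega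
      have f2 : b * c + 4 * i = 4 * i * b := by
        apply Nat.eq_of_mul_eq_mul_left (show 0 < 4 by omega); have := h.e1
        zify at *; linear_combination (b : ℤ) * e4 + this + ((b : ℤ) - 1) * ha
      have f3 : (3 * u' + 1) * v = 16 * i * u' := by
        apply Nat.eq_of_mul_eq_mul_left (show 0 < 3 by omega); have := h'.e1
        zify at *; linear_combination (3 * (u' : ℤ) + 1) * e5 + this + (3 * (u' : ℤ)) * ha
      rw [f1, f3] at jj
      linarith
    have h4 := Nat.le_of_mul_le_mul_left h2 i0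
    have h5 : i = 3 * (b * u') + b := by rw [e1]; ring
    clear * - e8 h4 h5 hb hu'
    rcases hb with rfl | rfl | hb <;> omega
  · have e8 : 3 * (b * u') = 7 * b + 18 * u' + 5 := by linarith
    clear * - e8 hb hu'
    rcases hb with rfl | rfl | hb
    · omega
    · omega
    rcases hu' with rfl | rfl | hu'
    · omega
    · omega
    nlinarith
  · have h1 : 5 * (b * u') ≤ 9 * b + 24 * u' + 8 := by
      by_contra! h1
      have : b + (3 * u' + 1) < b * u' := by
        by_contra! h2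
        nlinarith
      nlinarith
    clear * - e7 h1 hb hu' h3 b4 b1 u2 e
    have : u' = 2 ∨ u' = 4 ∨ b = 5 := by
      rcases hu' with h | h | h
      · omega
      · omega
      rcases hb with rfl | hb | hb
      · omega
      · subst hb; omega
      · nlinarith
    rcases this with rfl | rfl | rfl
    · have : b ≤ 56 := by omega
      interval_cases b <;> omega
    · have : b ≤ 10 := by omega
      interval_cases b <;> omega
    · have : u' ≤ 53 := by omega
      interval_cases u' <;> omega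

theorem na2 {b κ c u k v : ℕ} (h : Cl n b 2 κ c) (h' : Cl n u a k v) (a3 : 3 ≤ a)
    (c1 : a.Coprime b) (c2 : a.Coprime u) (c3 : b.Coprime u)
    (eq : n = 1 + e + c + v) : k = u + 1 ∧ 2 * a = u - 1 := by
  obtain ⟨m, hm⟩ := dvd3 ⟨i, by rw [ha]; ring⟩ h.dvd h'.dvd (h.cop2 c1) (h'.cop2 c2) c3
  have b1 := h.one; have u1 := h'.one
  have e1 : i = b * u * m := by
    apply Nat.eq_of_mul_eq_mul_left (show 0 < 2 * a by omega); nlinarith
  have e2 : κ = a * u * m := by
    apply Nat.eq_of_mul_eq_mul_left (show 0 < 2 * b by omega); have := h.e1; nlinarith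
  have e3 : k = 2 * b * m := by
    apply Nat.eq_of_mul_eq_mul_left (show 0 < u * a by positivity); have := h'.e1; nlinarith
  have e5 : v + k = 2 * i := by
    apply Nat.eq_of_mul_eq_mul_left (show 0 < a by omega); have := h'.e2; nlinarith
  have e4 := h.e2
  have e6 : (m : ℤ) * (a * u + 2 * b - b * u) = 1 := by
    have : κ + k = 1 + i := by omega
    zify at *
    linear_combination this - e2 - e3 + e1
  obtain rfl : m = 1 := by exact_mod_cast Int.eq_one_of_mul_eq_one_right (by omega) e6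
  have := tri (y := b) a3 h'.dv u1 (by zify; linear_combination e6)
  omega

theorem na44 {b κ c b' κ' c' u k v : ℕ} (h : Cl n b 4 κ c) (h' : Cl n b' 4 κ' c')
    (h'' : Cl n u a k v) (a5 : 5 ≤ a) (hm : 2 * a * b * b' * u ∣ n)
    (eq : n = 1 + e + (c + c') + v) (jj : i * i ≤ i + 2 * a * e + (b * c + b' * c') + u * v) :
    False := by
  obtain ⟨m, hm⟩ := hm
  have b1 : 5 ≤ b := by have := h.one; have := h.dv; omega
  have b2 : 5 ≤ b' := by have := h'.one; have := h'.dv; omega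
  have u1 : a + 1 ≤ u := by have := Nat.le_of_dvd (by have := h''.one; omega) h''.dv; omega
  have e1 : i = b * b' * u * m := by
    apply Nat.eq_of_mul_eq_mul_left (show 0 < 2 * a by omega); linarith
  have e2 : 2 * κ = a * b' * u * m := by
    apply Nat.eq_of_mul_eq_mul_left (show 0 < 2 * b by omega); have := h.e1; linarith
  have e2' : 2 * κ' = a * b * u * m := by
    apply Nat.eq_of_mul_eq_mul_left (show 0 < 2 * b' by omega); have := h'.e1; linarith
  have e5 : v + k = 2 * i := by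
    apply Nat.eq_of_mul_eq_mul_left (show 0 < a by omega); have := h''.e2; linarith
  have e4 := h.e2; have e4' := h'.e2
  have m0 : 0 < m := Nat.pos_of_ne_zero (by rintro rfl; omega)
  have k0 := h''.pos
  have f0 : κ + κ' ≤ i := by omega
  have f1 : a * (b + b') ≤ 2 * (b * b') := by
    apply Nat.le_of_mul_le_mul_right (c := u * m) _ (Nat.mul_pos (by omega) m0)
    linarith
  have f2 : a * a ≤ b * b' := by
    have g1 : 4 * (b * b') ≤ (b + b') * (b + b') := by zify; nlinarith [sq_nonneg ((b : ℤ) - b')]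
    have g2 := Nat.mul_le_mul f1 f1
    have g3 := Nat.mul_le_mul_left (a * a) g1
    apply Nat.le_of_mul_le_mul_right (c := 4 * (b * b')) _ (by positivity)
    linarith
  have f3 : e ≤ a * i := by linarith
  have f4 : 2 * c ≤ a * i := by linarith
  have f5 : 2 * c' ≤ a * i := by linarith
  have f6 : v ≤ 2 * i := by omega
  have f7 : i ≤ 1 + 3 * (b * b') + 2 * u := by
    apply Nat.le_of_mul_le_mul_left (c := 2 * i) _ (by omega)
    have g1 := Nat.mul_le_mul_left (4 * a) f3
    have g2 := Nat.mul_le_mul_left b f4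
    have g3 := Nat.mul_le_mul_left b' f5
    have g4 := Nat.mul_le_mul_left (2 * u) f6
    have g5 := Nat.mul_le_mul_left i f1
    have g6 := Nat.mul_le_mul_left (4 * i) f2
    linarith
  have f8 : b * b' * u ≤ i := by rw [e1]; exact Nat.le_mul_of_pos_right _ m0
  have f9 := Nat.mul_le_mul b1 b2
  generalize b * b' = P at f7 f8 f9
  clear * - f7 f8 f9 u1 a5
  nlinarith

theorem nb2 {b κ c u k v : ℕ} (h : Cl n b 2 κ c) (h' : Cl n u b k v)
    (c1 : a.Coprime b) (c2 : a.Coprime u) (c3 : b.Coprime u)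
    (eq : n = 1 + e + c + v) : k = u + 1 ∧ 2 * b = u - 1 := by
  obtain ⟨m, hm⟩ := dvd3 ⟨i, by rw [ha]; ring⟩ h.dvd h'.dvd (h.cop2 c1) (h'.cop2 c2) c3
  have b1 := h.one; have u1 := h'.one
  have a0 : 0 < a := Nat.pos_of_ne_zero (by rintro rfl; omega)
  have e1 : i = b * u * m := by
    apply Nat.eq_of_mul_eq_mul_left (show 0 < 2 * a by omega); nlinarith
  have e2 : κ = a * u * m := by
    apply Nat.eq_of_mul_eq_mul_left (show 0 < 2 * b by omega); have := h.e1; nlinarith
  have e3 : k = 2 * a * m := by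
    apply Nat.eq_of_mul_eq_mul_left (show 0 < u * b by positivity); have := h'.e1; nlinarith
  have e5 : v + k = 2 * κ := by
    apply Nat.eq_of_mul_eq_mul_left (show 0 < b by omega); have := h'.e2; have := h.e1; nlinarith
  have e4 := h.e2
  have e6 : (m : ℤ) * (b * u + 2 * a - a * u) = 1 := by
    have : i + k = 1 + κ := by omega
    zify at *
    linear_combination this - e1 - e3 + e2
  obtain rfl : m = 1 := by exact_mod_cast Int.eq_one_of_mul_eq_one_right (by omega) e6
  have := h.odd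
  have := tri (y := a) (show 3 ≤ b by omega) h'.dv u1 (by zify; linear_combination e6)
  omega

theorem nb4 (a4 : 4 ∣ a) {κ c b' κ' c' u k v : ℕ} (h : Cl n 5 4 κ c) (h' : Cl n b' 4 κ' c')
    (h'' : Cl n u 5 k v) (c0 : Nat.Coprime 5 b') (hm : 2 * a * 5 * b' * u ∣ n)
    (eq : n = 1 + e + (c + c') + v) : False := by
  have e0 := h.e1; have e4 := h'.e2; have e5 := h''.e2
  have key : 5 * (i + κ' + k) = 5 + 15 * κ := by have := h.e2; omega
  have hb : b' = 9 ∨ b' = 13 ∨ 17 ≤ b' := by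
    have := cop c0 5; have := h'.one; have := h'.dv; omega
  have hu : (u = 11 ∨ 21 ≤ u) ∧ u % 5 = 1 := by
    have := h''.one; have := h''.dv; have := h''.odd; omega
  obtain rfl : a = 4 := by
    have t0 := (tab ha 0).1; have t1 := (tab ha 8).2
    have t2 := (tab h'.e1 9).2 (by omega); have t3 := (tab h''.e1 11).2 (by omega)
    clear * - t0 t1 t2 t3 key e0 a4 i0 he
    omega
  obtain ⟨m, hm⟩ := hm
  have e2 : κ' = 10 * u * m := by
    apply Nat.eq_of_mul_eq_mul_left (show 0 < 4 * b' by omega); have := h'.e1; nlinarith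
  have e3 : k = 8 * b' * m := by
    apply Nat.eq_of_mul_eq_mul_left (show 0 < u * 5 by omega); have := h''.e1; nlinarith
  have e6 : (m : ℤ) * (10 * u + 8 * b' - b' * u) = 1 := by
    have : 40 * (κ' + k) = n + 40 := by omega
    zify at this hm e2 e3
    apply mul_left_cancel₀ (show (40 : ℤ) ≠ 0 by decide)
    linear_combination this + hm - 40 * e2 - 40 * e3
  obtain rfl : m = 1 := by exact_mod_cast Int.eq_one_of_mul_eq_one_right (by omega) e6
  have e7 : b' * u + 1 = 10 * u + 8 * b' := by zify; linear_combination -e6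
  clear * - e7 hb hu
  rcases hb with rfl | rfl | hb
  · omega
  · omega
  rcases hu.1 with rfl | hu
  · omega
  · nlinarith

end I

section II
variable {n i r y j : ℕ} (hi : n = 24 * i) (hr : n = 36 * r) (hy : 9 * y = j * n) (n0 : 0 < n)
include hi hr hy n0

theorem m2 {b κ c : ℕ} (h : Cl n b 2 κ c) (h3 : ¬ 3 ∣ b) (eq : n = 1 + 9 * i + r + y + c)
    (j1 : j = 1) (pl : c * b ≤ i * i) : False := by
  subst j1
  obtain ⟨m, hm⟩ := (h.cop2 (a := 36) (Nat.Coprime.mul_left (m := 4) (n := 9)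
    ((Nat.coprime_two_left.2 (Nat.odd_iff.2 h.odd)).pow_left 2)
    (((Nat.prime_three.coprime_iff_not_dvd).2 h3).pow_left 2))).mul_dvd_of_dvd_of_dvd
    (by omega) h.dvd
  have := h.one; have e4 := h.e2
  have e2 : κ = 36 * m := by
    apply Nat.eq_of_mul_eq_mul_left (show 0 < 2 * b by omega); have := h.e1; nlinarith
  have e6 : (m : ℤ) * (36 - b) = 1 := by
    have : 72 * κ = n + 72 := by omega
    zify at this hm e2
    apply mul_left_cancel₀ (show (72 : ℤ) ≠ 0 by decide)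
    linear_combination this + hm - 72 * e2
  obtain rfl : m = 1 := by exact_mod_cast Int.eq_one_of_mul_eq_one_right (by omega) e6
  obtain rfl : b = 35 := by omega
  obtain rfl : i = 105 := by omega
  omega

theorem m44 {b κ c b' κ' c' : ℕ} (h : Cl n b 4 κ c) (h' : Cl n b' 4 κ' c') (hm : 72 * b * b' ∣ n)
    (eq : n = 1 + 9 * i + r + y + (c + c')) (j1 : j = 1) : False := by
  subst j1
  obtain ⟨m, hm⟩ := hm
  have := h.one; have e4 := h.e2; have := h'.one; have e5 := h'.e2
  have e2 : κ = 18 * b' * m := by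
    apply Nat.eq_of_mul_eq_mul_left (show 0 < 4 * b by omega); have := h.e1; nlinarith
  have e3 : κ' = 18 * b * m := by
    apply Nat.eq_of_mul_eq_mul_left (show 0 < 4 * b' by omega); have := h'.e1; nlinarith
  have e6 : (m : ℤ) * (18 * b' + 18 * b - b * b') = 1 := by
    have : 72 * (κ + κ') = n + 72 := by omega
    zify at this hm e2 e3
    apply mul_left_cancel₀ (show (72 : ℤ) ≠ 0 by decide)
    linear_combination this + hm - 72 * e2 - 72 * e3
  obtain rfl : m = 1 := by exact_mod_cast Int.eq_one_of_mul_eq_one_right (by omega) e6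
  obtain ⟨s, hs⟩ := h.dv
  obtain ⟨s', hs'⟩ := h'.dv
  obtain rfl : b = 4 * s + 1 := by omega
  obtain rfl : b' = 4 * s' + 1 := by omega
  have : (4 * s + 1 : ℤ) * (4 * s' + 1) = 4 * (4 * s * s' + s + s') + 1 := by ring
  push_cast at e6
  omega

theorem m34 {b κ c u k v : ℕ} (h : Cl n b 4 κ c) (h' : Cl n u 3 k v) (h3 : ¬ 3 ∣ b)
    (cp : b.Coprime u) (eq : n = 1 + 9 * i + r + y + c + v) (j1 : j = 1) : n = 2520 ∧ u = 7 := by
  subst j1
  have := tab h.e1 5; have := tab h.e1 13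
  have := tab h'.e1 7; have := tab h'.e1 13
  have := h.e2; have := h.one; have := h.dv; have := h'.e2; have := h'.one; have := h'.dv
  have := h'.pos; have := h'.odd
  omega

end II

end Cfsg.Agent.O5.Num
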