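import Cfsg.Agent.O5.Pi
import Cfsg.Agent.H1.Sp4B

/-!
The context for the final analysis over the finite field: adjoints, the vector `wp A`,
quadratic elements.
-/

set_option autoImplicit false
set_option linter.unusedSectionVars false

namespace Cfsg.Agent.O5

open Module Matrix H1.Spin5

variable {F : Type*} [Field F]

local notation "f" => sympForm 2 F

/-- four by four matrices -/
abbrev M4x (F : Type*) : Type _ := Matrix I4 I4 F

/-- `M'` is the adjoint of `M` -/
def Adj (M M' : M4x F) : Prop := ∀ u v, f (M *ᵥ u) v = f u (M' *ᵥ v)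

namespace Adj

variable {M M' N N' : M4x F}

theorem one : Adj (1 : M4x F) 1 := fun u v => by simp

theorem mul (h : Adj M M') (h' : Adj N N') : Adj (M * N) (N' * M') := fun u v => by
  rw [← mulVec_mulVec, ← mulVec_mulVec, h, h']

theorem add (h : Adj M M') (h' : Adj N N') : Adj (M + N) (M' + N') := fun u v => by
  rw [add_mulVec, add_mulVec, f_add, f_add', h, h']

theorem sub (h : Adj M M') (h' : Adj N N') : Adj (M - N) (M' - N') := fun u v => by
  rw [sub_mulVec, sub_mulVec, f_sub, f_sub', h, h']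

theorem smul (h : Adj M M') (c : F) : Adj (c • M) (c • M') := fun u v => by
  rw [smul_mulVec, smul_mulVec, f_smul, f_smul', h]

theorem neg (h : Adj M M') : Adj (-M) (-M') := by simpa using h.smul (-1)

theorem symm (h : Adj M M') : Adj M' M := fun u v => by rw [f_skew, ← h, ← f_skew]

theorem cast (h : Adj M M') (e : M' = N') : Adj M N' := e ▸ h

theorem psi (x : W F) : Adj (ψ x) (ψ x) := ψ_sa x

theorem sp {A : GL I4 F} (h : A ∈ spGL 2 F) : Adj A.1 (A⁻¹).1 := H1.Sp4.sp_adj h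

theorem unique (h : Adj M M') (h' : Adj M N') : M' = N' :=
  mat_ext fun v => sub_eq_zero.1 (H1.Sp4.f_nd fun u => by rw [f_sub', ← h, ← h', sub_self])

theorem trace (h : Adj M M') : M'.trace = M.trace := by
  have a := h (Pi.single (.inl 0) 1) (Pi.single (.inr 0) 1)
  have b := h (Pi.single (.inl 1) 1) (Pi.single (.inr 1) 1)
  have c := h (Pi.single (.inr 0) 1) (Pi.single (.inl 0) 1)
  have d := h (Pi.single (.inr 1) 1) (Pi.single (.inl 1) 1)
  simp [f_apply] at a b c d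
  simp [Matrix.trace, Fintype.sum_sum_type, a, b, c, d]; ring

theorem trace_skew (h2 : (2 : F) ≠ 0) (h : Adj M (-M)) : M.trace = 0 := by
  have := h.trace
  rw [trace_neg] at this
  exact mul_left_cancel₀ h2 (by linear_combination -this)

end Adj

theorem four_ne (h2 : (2 : F) ≠ 0) : (4 : F) ≠ 0 := by
  rw [show (4 : F) = 2 * 2 by norm_num]; exact mul_ne_zero h2 h2

theorem trace_dec (c : F) (x : W F) : (c • (1 : M4x F) + ψ x).trace = 4 * c := by
  simp [ψ_trace, mul_comm]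

theorem dec_unique (h2 : (2 : F) ≠ 0) {c c' : F} {x x' : W F}
    (h : c • (1 : M4x F) + ψ x = c' • 1 + ψ x') : c = c' ∧ x = x' := by
  have : c = c' := mul_left_cancel₀ (four_ne h2) (by rw [← trace_dec c x, h, trace_dec])
  subst this
  exact ⟨rfl, ψ_injective (add_left_cancel h)⟩

theorem Adj.dec (h2 : (2 : F) ≠ 0) {M : M4x F} (h : Adj M M) :
    ∃ x, M = (M.trace / 4) • 1 + ψ x := by
  obtain ⟨x, hx⟩ := exists_ψ h2 (h.sub (Adj.one.smul (M.trace / 4))) (by
    simp; field_simp [four_ne h2]; ring)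
  exact ⟨x, by rw [hx]; abel⟩

theorem eq_zero_of_sc (h2 : (2 : F) ≠ 0) {x : W F} {c : F} (h : ψ x = c • (1 : M4x F)) : x = 0 :=
  (dec_unique h2 (c := 0) (c' := c) (x := x) (x' := 0) (by simpa using h)).2

theorem prop_of_comm (h2 : (2 : F) ≠ 0) {x y : W F} (hx : x ≠ 0) (h : ψ x * ψ y = ψ y * ψ x) :
    ∃ t : F, y = t • x :=
  H1.Sp4.prop_of_sc h2 hx (c := B x y / 2) (by
    have := ψ_add_swap x y
    rw [← h, ← two_smul F] at this
    rw [div_eq_inv_mul, mul_smul, ← this, smul_smul, inv_mul_cancel₀ h2, one_smul])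

/-- the sum of a matrix and its inverse -/
def tt (A : GL I4 F) : M4x F := A.1 + (A⁻¹).1

/-- the vector part of `A + A⁻¹` -/
noncomputable def wp (A : GL I4 F) : W F := H1.Sp4.ψi (tt A - (A.1.trace / 2) • 1)

theorem tt_inv (A : GL I4 F) : tt A⁻¹ = tt A := by simp [tt, add_comm]

theorem tt_neg (A : GL I4 F) : tt (-A) = -tt A := by simp [tt, add_comm]

theorem tt_comm {A : GL I4 F} {M : M4x F} (h : M * A.1 = A.1 * M) : M * tt A = tt A * M := by
  have : M * (A⁻¹).1 = (A⁻¹).1 * M := (Commute.units_inv_right h)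
  rw [tt, mul_add, add_mul, h, this]

theorem tt_conj (C A : GL I4 F) : tt (C * A * C⁻¹) = C.1 * tt A * (C⁻¹).1 := by
  simp only [tt, _root_.mul_inv_rev, inv_inv, Units.val_mul, mul_add, add_mul, mul_assoc]

section
variable (h2 : (2 : F) ≠ 0) {A : GL I4 F} (hA : A ∈ spGL 2 F)
include h2 hA

theorem tt_eq : tt A = (A.1.trace / 2) • 1 + ψ (wp A) := by
  have h : Adj (tt A) (tt A) := ((Adj.sp hA).add (Adj.sp hA).symm).cast (add_comm _ _)
  obtain ⟨x, hx⟩ := h.dec h2
  have e : (tt A).trace / 4 = A.1.trace / 2 := by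
    rw [tt, trace_add, (Adj.sp hA).trace]; field_simp [four_ne h2]; ring
  rw [e] at hx
  rw [wp, hx, add_sub_cancel_left, H1.Sp4.ψi_ψ]

theorem wp_of {c : F} {x : W F} (h : tt A = c • 1 + ψ x) : A.1.trace / 2 = c ∧ wp A = x :=
  dec_unique h2 ((tt_eq h2 hA).symm.trans h)

theorem wp_of_sc {c : F} (h : tt A = c • 1) : wp A = 0 :=
  (wp_of h2 hA (c := c) (by simpa using h)).2

theorem wp_inv : wp A⁻¹ = wp A := (wp_of h2 (inv_mem hA) ((tt_inv A).trans (tt_eq h2 hA))).2

theorem wp_neg : wp (-A) = -wp A := by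
  have : -A ∈ spGL 2 F := mem_sp.2 fun u v => by
    have := mem_sp.1 hA u v
    simpa [neg_mulVec, sympForm, mulVec_neg] using this
  exact (wp_of h2 this (c := -(A.1.trace / 2)) (by rw [tt_neg, tt_eq h2 hA]; simp [add_comm])).2

theorem Lf.wp_conj {C : GL I4 F} {γ : GW F} (h : Lf C γ) : wp (C * A * C⁻¹) = γ (wp A) :=
  (wp_of h2 (mul_mem (mul_mem h.1 hA) (inv_mem h.1)) (c := A.1.trace / 2) (by
    rw [tt_conj, tt_eq h2 hA, h.conj]; simp [mul_add, add_mul])).2

theorem comm_wp {M : M4x F} (h : M * A.1 = A.1 * M) : M * ψ (wp A) = ψ (wp A) * M := by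
  have := tt_comm h
  rw [tt_eq h2 hA] at this
  simpa [mul_add, add_mul] using this

end

theorem Lf.fix_iff {A : GL I4 F} {g : GW F} (h : Lf A g) {x : W F} :
    g x = x ↔ ψ x * A.1 = A.1 * ψ x :=
  ⟨fun e => by rw [← h.2, e], fun e => ψ_injective (by rw [h.conj, ← e]; simp [mul_assoc])⟩

theorem Lf.fix_wp (h2 : (2 : F) ≠ 0) {A : GL I4 F} {g : GW F} (h : Lf A g) : g (wp A) = wp A :=
  h.fix_iff.2 (comm_wp h2 h.1 rfl).symm

/-- a non-quadratic element fixes only one line -/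
theorem Lf.fix_line (h2 : (2 : F) ≠ 0) {A : GL I4 F} {g : GW F} (h : Lf A g) (h0 : wp A ≠ 0)
    {y : W F} (hy : g y = y) : ∃ t : F, y = t • wp A :=
  prop_of_comm h2 h0 (comm_wp h2 h.1 (h.fix_iff.1 hy)).symm

theorem Lf.wp_eq (h2 : (2 : F) ≠ 0) {A A' : GL I4 F} {g : GW F} (h : Lf A g) (h' : Lf A' g) :
    wp A' = wp A ∨ wp A' = -wp A := by
  rcases h.eq_or h2 h' with rfl | rfl
  exacts [Or.inl rfl, Or.inr (wp_neg h2 h.1)]

/-- for two quadratic elements `AB + (AB)⁻¹` commutes with both -/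
theorem tt_mul_comm {A C : GL I4 F} {a c : F} (hA : tt A = a • 1) (hC : tt C = c • 1) :
    A.1 * tt (A * C) = tt (A * C) * A.1 ∧ C.1 * tt (A * C) = tt (A * C) * C.1 := by
  have e1 : A.1 = a • 1 - (A⁻¹).1 := by rw [← hA, tt]; abel
  have e2 : C.1 = c • 1 - (C⁻¹).1 := by rw [← hC, tt]; abel
  have k1 : A.1 * A.1 = a • A.1 - 1 := by
    nth_rw 2 [e1]; rw [mul_sub, Units.mul_inv]; simp
  have k2 : C.1 * C.1 = c • C.1 - 1 := by
    nth_rw 2 [e2]; rw [mul_sub, Units.mul_inv]; simp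
  have e3 : (A⁻¹).1 = a • 1 - A.1 := by rw [← hA, tt]; abel
  have e4 : (C⁻¹).1 = c • 1 - C.1 := by rw [← hC, tt]; abel
  have k3 : ∀ X, A.1 * (A.1 * X) = a • (A.1 * X) - X := fun X => by
    rw [← mul_assoc, k1]; simp [sub_mul]
  have k4 : ∀ X, C.1 * (C.1 * X) = c • (C.1 * X) - X := fun X => by
    rw [← mul_assoc, k2]; simp [sub_mul]
  rw [tt, _root_.mul_inv_rev, Units.val_mul, Units.val_mul, e3, e4]
  constructor <;>
    simp only [mul_add, add_mul, mul_sub, sub_mul, mul_assoc, k1, k2, k3, k4, smul_mul_assoc,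
      mul_smul_comm, one_mul, mul_one, smul_sub] <;> module

variable {Γ : Type*} [Group Γ]

/-- The context: `ρ` is the action of the socle and `N` the image of the maximal subgroup. -/
structure Cx (p : ℕ) (ρ : Γ →* GW F) (N : Subgroup (GW F)) : Prop where
  prime : p.Prime
  ne2 : p ≠ 2
  char : CharP F p
  inj : Function.Injective ρ
  om : ∀ g, ρ g ∈ Om F
  irr : ∀ U : Submodule F (W F), (∀ g, ∀ x ∈ U, ρ g x ∈ U) → U = ⊥ ∨ U = ⊤
  abs : Submodule.span F {M : M4x F | ∃ (g : Γ) (A : GL I4 F), Lf A (ρ g) ∧ A.1 = M} = ⊤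
  tr : ∀ L : Subfield F, (∀ g A, Lf A (ρ g) → A.1.trace ∈ L) → L = ⊤
  na : ∀ g A, Lf A (ρ g) → A * A = 1 → g = 1
  ns : ∀ g A, Lf A (ρ g) → (A.1 - 1) * (A.1 - 1) = 0 → g = 1 ∨ (p = 3 ∧ ¬ 9 ∣ Nat.card Γ)
  le : ∀ g, ρ g ∈ N
  nom : N ≤ Om F
  norm : ∀ n ∈ N, ∀ g, ∃ g', ρ g' = n * ρ g * n⁻¹
  max : ∀ M, N ≤ M → M ≤ Om F → M = N ∨ M = Om F

namespace Cx

variable {p : ℕ} {ρ : Γ →* GW F} {N : Subgroup (GW F)} (h : Cx p ρ N)
include h

theorem comp {Γ' : Type*} [Group Γ'] (e : Γ ≃* Γ') : Cx p (ρ.comp e.symm.toMonoidHom) N where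
  prime := h.prime
  ne2 := h.ne2
  char := h.char
  inj := h.inj.comp e.symm.injective
  om g := h.om _
  irr U hU := h.irr U fun g => by simpa using hU (e g)
  abs := top_unique (h.abs ▸ Submodule.span_mono fun _ ⟨g, A, a, b⟩ => ⟨e g, A, by simpa using a, b⟩)
  tr L hL := h.tr L fun g A a => hL (e g) A (by simpa using a)
  na g A a b := by simpa using h.na _ A a b
  ns g A a b := (h.ns _ A a b).imp (by simp) (by rw [Nat.card_congr e.toEquiv]; exact id)
  le g := h.le _
  nom := h.nom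
  norm n hn g := (h.norm n hn (e.symm g)).elim fun g' a => ⟨e g', by simpa using a⟩
  max := h.max

theorem two : (2 : F) ≠ 0 := fun e => by
  have := h.char
  have : ((2 : ℕ) : F) = 0 := by exact_mod_cast e
  exact h.ne2 ((Nat.prime_dvd_prime_iff_eq h.prime Nat.prime_two).1
    ((CharP.cast_eq_zero_iff F p 2).1 this))

theorem cast_ne {n : ℕ} (hn : ¬ p ∣ n) : (n : F) ≠ 0 := fun e => by
  have := h.char
  exact hn ((CharP.cast_eq_zero_iff F p n).1 e)

theorem iso (g : Γ) : Iso (ρ g) := Om_iso (h.om g)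

theorem lift (g : Γ) : ∃ A, Lf A (ρ g) := mem_Om.1 (h.om g)

theorem lf_mul {a b : Γ} {A C : GL I4 F} (ha : Lf A (ρ a)) (hb : Lf C (ρ b)) :
    Lf (A * C) (ρ (a * b)) := by rw [map_mul]; exact ha.mul hb

theorem lf_inv {a : Γ} {A : GL I4 F} (ha : Lf A (ρ a)) : Lf A⁻¹ (ρ a⁻¹) := by
  rw [map_inv]; exact ha.inv

theorem lf_pow {a : Γ} {A : GL I4 F} (ha : Lf A (ρ a)) (n : ℕ) : Lf (A ^ n) (ρ (a ^ n)) := by
  rw [map_pow]; exact ha.pow n

theorem pm {a : Γ} {A : GL I4 F} (ha : Lf A (ρ a)) (e : a = 1) : A = 1 ∨ A = -1 :=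
  Lf.of_one h.two (by rwa [e, map_one] at ha)

/-- involutions lift to elements of order four -/
theorem inv_sq {t : Γ} {A : GL I4 F} (ha : Lf A (ρ t)) (e : t * t = 1) (h1 : t ≠ 1) :
    A * A = -1 :=
  (h.pm (h.lf_mul ha ha) e).resolve_left fun c => h1 (h.na t A ha c)

theorem inv_tt {t : Γ} {A : GL I4 F} (ha : Lf A (ρ t)) (e : t * t = 1) (h1 : t ≠ 1) :
    tt A = (0 : F) • 1 := by
  have : A⁻¹ = -A := inv_eq_of_mul_eq_one_right (by rw [mul_neg, h.inv_sq ha e h1, neg_neg])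
  rw [tt, this]; simp

/-- elements of odd order lift to elements of the same order -/
theorem odd_lift {g : Γ} {n : ℕ} (hn : Odd n) (e : g ^ n = 1) : ∃ A, Lf A (ρ g) ∧ A ^ n = 1 := by
  obtain ⟨A, hA⟩ := h.lift g
  rcases h.pm (h.lf_pow hA n) e with c | c
  · exact ⟨A, hA, c⟩
  · exact ⟨-A, hA.neg, by rw [hn.neg_pow, c, neg_neg]⟩

theorem odd_unique {g : Γ} {n : ℕ} (hn : Odd n) {A A' : GL I4 F} (a : Lf A (ρ g)) (a' : Lf A' (ρ g))
    (e : A ^ n = 1) (e' : A' ^ n = 1) : A' = A := by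
  refine (a.eq_or h.two a').resolve_right fun c => h.two (smul_one_eq_zero ?_)
  rw [c, hn.neg_pow, e] at e'
  have := congrArg Units.val e'
  rw [two_smul]
  simpa [neg_eq_iff_add_eq_zero] using this

theorem span_ind {q : M4x F → Prop} (h1 : ∀ g A, Lf A (ρ g) → q A.1) (h0 : q 0)
    (ha : ∀ x y, q x → q y → q (x + y)) (hs : ∀ (c : F) x, q x → q (c • x)) (M : M4x F) : q M := by
  have : M ∈ Submodule.span F {M : M4x F | ∃ (g : Γ) (A : GL I4 F), Lf A (ρ g) ∧ A.1 = M} :=
    h.abs ▸ trivial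
  induction this using Submodule.span_induction with
  | mem x hx => obtain ⟨g, A, a, rfl⟩ := hx; exact h1 g A a
  | zero => exact h0
  | add x y _ _ a b => exact ha x y a b
  | smul c x _ a => exact hs c x a

/-- induction over lifts of a generating set -/
theorem gen_ind {S : Set Γ} (hS : Subgroup.closure S = ⊤) {q : GL I4 F → Prop}
    (h1 : ∀ g ∈ S, ∃ A, Lf A (ρ g) ∧ q A ∧ q A⁻¹) (h0 : q 1) (hn : ∀ A, q A → q (-A))
    (hm : ∀ A C, q A → q C → q (A * C)) (g : Γ) (A : GL I4 F) (a : Lf A (ρ g)) : q A := by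
  have : g ∈ Subgroup.closure S := hS ▸ trivial
  have key : ∃ A, Lf A (ρ g) ∧ q A := by
    clear a
    induction this using Subgroup.closure_induction_left with
    | one => exact ⟨1, by rw [map_one]; exact Lf.one, h0⟩
    | mul_left x hx y _ ih =>
      obtain ⟨X, a, b, -⟩ := h1 x hx
      obtain ⟨Y, c, d⟩ := ih
      exact ⟨X * Y, h.lf_mul a c, hm _ _ b d⟩
    | inv_mul_cancel x hx y _ ih =>
      obtain ⟨X, a, -, b⟩ := h1 x hx
      obtain ⟨Y, c, d⟩ := ih
      exact ⟨X⁻¹ * Y, h.lf_mul (h.lf_inv a) c, hm _ _ b d⟩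
  obtain ⟨A', a', b⟩ := key
  rcases a'.eq_or h.two a with rfl | rfl
  exacts [b, hn _ b]

/-- Schur's lemma -/
theorem schur {S : Set Γ} (hS : Subgroup.closure S = ⊤) {M : M4x F}
    (h1 : ∀ g ∈ S, ∃ A, Lf A (ρ g) ∧ A.1 * M = M * A.1) : ∃ c : F, M = c • 1 := by
  refine sc_of_comm h.two fun x => (h.span_ind (q := fun X => X * M = M * X) (fun g A a => ?_)
    (by simp) (fun x y a b => by simp only [add_mul, mul_add, a, b])
    (fun c x a => by simp [a]) _).symm
  refine h.gen_ind hS (q := fun A => A.1 * M = M * A.1) (fun g hg => ?_) (by simp)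
    (fun A a => by simp [a]) (fun A C a b => ?_) g A a
  · obtain ⟨A, a, b⟩ := h1 g hg
    exact ⟨A, a, b, Commute.units_inv_left b⟩
  · exact Commute.mul_left a b

theorem fix_zero {x : W F} (hx : ∀ g, ρ g x = x) : x = 0 := by
  by_contra h0
  rcases h.irr (F ∙ x) (fun g y hy => by
    obtain ⟨a, rfl⟩ := Submodule.mem_span_singleton.1 hy
    rw [map_smul, hx]; exact hy) with e | e
  · exact h0 (Submodule.span_singleton_eq_bot.1 e)
  · have := finrank_span_singleton (K := F) h0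
    rw [e, finrank_top, finrank_W] at this
    omega

theorem perp_zero {x : W F} (h0 : x ≠ 0) {w : W F} (hw : ∀ g, B w (ρ g x) = 0) : w = 0 := by
  have : Submodule.span F (Set.range fun g => ρ g x) = ⊤ := by
    refine (h.irr _ fun g y hy => ?_).resolve_left fun e => h0 ?_
    · induction hy using Submodule.span_induction with
      | mem y hy => obtain ⟨g', rfl⟩ := hy; exact Submodule.subset_span ⟨g * g', by simp⟩
      | zero => simp
      | add y z _ _ hy hz => rw [map_add]; exact add_mem hy hz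
      | smul c y _ hy => rw [map_smul]; exact Submodule.smul_mem _ c hy
    · have : x ∈ Submodule.span F (Set.range fun g => ρ g x) := Submodule.subset_span ⟨1, by simp⟩
      rwa [e, Submodule.mem_bot] at this
  refine B_nd h.two fun y => ?_
  have hy : y ∈ Submodule.span F (Set.range fun g => ρ g x) := this ▸ trivial
  induction hy using Submodule.span_induction with
  | mem y hy => obtain ⟨g, rfl⟩ := hy; exact hw g
  | zero => simp
  | add y z _ _ hy hz => rw [map_add, hy, hz, add_zero]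
  | smul c y _ hy => rw [map_smul, hy, smul_zero]

/-- two quadratic elements do not generate -/
theorem two_quad {a b : Γ} (hS : Subgroup.closure {a, b} = ⊤) {A C : GL I4 F} (ha : Lf A (ρ a))
    (hb : Lf C (ρ b)) (wa : wp A = 0) (wb : wp C = 0) : False := by
  have ta := tt_eq h.two ha.1
  have tb := tt_eq h.two hb.1
  rw [wa, map_zero, add_zero] at ta
  rw [wb, map_zero, add_zero] at tb
  obtain ⟨c1, c2⟩ := tt_mul_comm ta tb
  obtain ⟨d, hd⟩ := h.schur hS (M := tt (A * C)) (by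
    rintro g (rfl | rfl)
    exacts [⟨A, ha, c1⟩, ⟨C, hb, c2⟩])
  generalize A.1.trace / 2 = α at ta
  generalize C.1.trace / 2 = β at tb
  have e3 : (A⁻¹).1 = α • 1 - A.1 := by rw [← ta, tt]; abel
  have e4 : (C⁻¹).1 = β • 1 - C.1 := by rw [← tb, tt]; abel
  have k1 : A.1 * A.1 = α • A.1 - 1 := by
    have := A.mul_inv; rw [e3, mul_sub] at this; rw [← this]; simp
  have k2 : C.1 * C.1 = β • C.1 - 1 := by
    have := C.mul_inv; rw [e4, mul_sub] at this; rw [← this]; simp
  have k3 : C.1 * A.1 = (d - α * β) • 1 + β • A.1 + α • C.1 - A.1 * C.1 := by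
    rw [tt, _root_.mul_inv_rev, Units.val_mul, Units.val_mul, e3, e4] at hd
    simp only [mul_sub, sub_mul, smul_mul_assoc, mul_smul_comm, one_mul, mul_one] at hd
    linear_combination (norm := module) hd
  let v : Fin 4 → M4x F := ![1, A.1, C.1, A.1 * C.1]
  let S := Submodule.span F (Set.range v)
  have m : ∀ i, v i ∈ S := fun i => Submodule.subset_span ⟨i, rfl⟩
  have m0 : (1 : M4x F) ∈ S := m 0
  have m1 : A.1 ∈ S := m 1
  have m2 : C.1 ∈ S := m 2
  have m3 : A.1 * C.1 ∈ S := m 3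
  have st : ∀ X : M4x F, (∀ i, X * v i ∈ S) → ∀ Y ∈ S, X * Y ∈ S := fun X hX Y hY => by
    induction hY using Submodule.span_induction with
    | mem y hy => obtain ⟨i, rfl⟩ := hy; exact hX i
    | zero => simp
    | add y z _ _ hy hz => rw [mul_add]; exact add_mem hy hz
    | smul c y _ hy => rw [mul_smul_comm]; exact Submodule.smul_mem _ c hy
  have sA : ∀ Y ∈ S, A.1 * Y ∈ S := st _ fun i => by
    fin_cases i <;> simp only [v, cons_val, Fin.zero_eta, Fin.mk_one, Fin.reduceFinMk, mul_one,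
      ← mul_assoc, k1, sub_mul, smul_mul_assoc, one_mul] <;>
    first | assumption | exact sub_mem (S.smul_mem _ ‹_›) ‹_›
  have cA : C.1 * A.1 ∈ S := k3 ▸ sub_mem (add_mem (add_mem (S.smul_mem _ m0) (S.smul_mem _ m1))
    (S.smul_mem _ m2)) m3
  have cC : C.1 * C.1 ∈ S := k2 ▸ sub_mem (S.smul_mem _ m2) m0
  have sC : ∀ Y ∈ S, C.1 * Y ∈ S := st _ fun i => by
    fin_cases i
    · simpa [v] using m2
    · exact cA
    · exact cC
    · show C.1 * (A.1 * C.1) ∈ S
      rw [← mul_assoc, k3]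
      simp only [sub_mul, add_mul, smul_mul_assoc, one_mul, mul_assoc]
      exact sub_mem (add_mem (add_mem (S.smul_mem _ m2) (S.smul_mem _ m3)) (S.smul_mem _ cC))
        (sA _ cC)
  have all : ∀ M, M ∈ S := h.span_ind (fun g X a => by
      simpa using h.gen_ind hS (q := fun X => ∀ Y ∈ S, X.1 * Y ∈ S) (by
        rintro g (rfl | rfl)
        · exact ⟨A, ha, sA, fun Y hY => by
            rw [e3, sub_mul, smul_mul_assoc, one_mul]; exact sub_mem (S.smul_mem _ hY) (sA Y hY)⟩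
        · exact ⟨C, hb, sC, fun Y hY => by
            rw [e4, sub_mul, smul_mul_assoc, one_mul]; exact sub_mem (S.smul_mem _ hY) (sC Y hY)⟩)
        (by simp) (fun X a Y hY => by simpa using a Y hY)
        (fun X Z a b Y hY => by rw [Units.val_mul, mul_assoc]; exact a _ (b Y hY)) g X a 1 m0)
    S.zero_mem (fun _ _ => S.add_mem) (fun c _ => S.smul_mem c)
  have := finrank_range_le_card (R := F) v
  rw [Set.finrank, show Submodule.span F (Set.range v) = ⊤ from Submodule.eq_top_iff'.2 all] at this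
  simp [finrank_matrix] at this

/-- an element which generates together with an involution is not quadratic -/
theorem wp_ne {t b : Γ} (hS : Subgroup.closure {t, b} = ⊤) (e : t * t = 1) (h1 : t ≠ 1)
    {C : GL I4 F} (hb : Lf C (ρ b)) : wp C ≠ 0 := fun wb =>
  let ⟨_, ha⟩ := h.lift t
  h.two_quad hS ha hb (wp_of_sc h.two ha.1 (h.inv_tt ha e h1)) wb

/-- `wp` is fixed by elements inverting an element of odd order -/
theorem fix_wp_odd {g t : Γ} {n : ℕ} (hn : Odd n) {A : GL I4 F} (a : Lf A (ρ g)) (e : A ^ n = 1)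
    (ht : t * g * t⁻¹ = g⁻¹) : ρ t (wp A) = wp A := by
  obtain ⟨T, hT⟩ := h.lift t
  have := h.lf_mul (h.lf_mul hT a) (h.lf_inv hT)
  rw [ht] at this
  rw [← hT.wp_conj h.two a.1, h.odd_unique hn (h.lf_inv a) this (by rw [inv_pow, e, inv_one])
    (by rw [conj_pow, e]; simp), wp_inv h.two a.1]

/-- `wp` is fixed by involutions `t` such that `t g` is an involution -/
theorem fix_wp_inv {g t : Γ} {A : GL I4 F} (a : Lf A (ρ g)) (e : t * t = 1) (h1 : t ≠ 1)
    (e' : t * g * (t * g) = 1) (h1' : t * g ≠ 1) : ρ t (wp A) = wp A := by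
  obtain ⟨T, hT⟩ := h.lift t
  have k1 := h.inv_sq hT e h1
  have k2 := h.inv_sq (h.lf_mul hT a) e' h1'
  have : T * A * T⁻¹ = A⁻¹ := by
    rw [inv_eq_of_mul_eq_one_right (a := T) (b := -T) (by rw [mul_neg, k1, neg_neg]),
      eq_inv_iff_mul_eq_one, mul_neg, neg_mul, mul_assoc (T * A), k2, neg_neg]
  rw [← hT.wp_conj h.two a.1, this, wp_inv h.two a.1]

end Cx

end Cfsg.Agent.O5
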