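import Cfsg.Agent.O5.Pi
import Cfsg.Agent.H1.PermModule

/-!
Unipotent subgroups: flags, root elements and regular unipotent elements.
-/

set_option autoImplicit false
set_option linter.unusedSectionVars false

namespace Cfsg.Agent.O5

open Module Matrix H1.Spin5

variable {k : Type*} [Field k]

/-- a finite `p`-group fixes a vector modulo an invariant subspace -/
theorem exists_fix_mod {M : Type*} [AddCommGroup M] [Module k M] {p : ℕ} [Fact p.Prime] [CharP k p]
    {Γ : Type*} [Group Γ] [Finite Γ] (hS : IsPGroup p Γ) (ρ : Representation k Γ M)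
    {U U' : Submodule k M} (hU : ∀ g, ∀ x ∈ U, ρ g x ∈ U) (hU' : ∀ g, ∀ x ∈ U', ρ g x ∈ U')
    (h : ¬ U' ≤ U) : ∃ v ∈ U', v ∉ U ∧ ∀ g, ρ g v - v ∈ U := by
  obtain ⟨v, ⟨v, hv, rfl⟩, h0, hf⟩ := H1.PermModule.exists_fixed_ne_zero hS
    (ρ.quotient U fun g x hx => hU g x hx) (U'.map U.mkQ)
    (by rintro g _ ⟨x, hx, rfl⟩; exact ⟨ρ g x, hU' g x hx, rfl⟩)
    (fun e => h fun x hx => by
      have : U.mkQ x ∈ U'.map U.mkQ := ⟨x, hx, rfl⟩
      rw [e] at this
      exact (Submodule.Quotient.mk_eq_zero U).1 this)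
  exact ⟨v, hv, fun e => h0 ((Submodule.Quotient.mk_eq_zero U).2 e),
    fun g => (Submodule.Quotient.eq U).1 (hf g)⟩

/-- the natural representation of a subgroup -/
def nat {M : Type*} [AddCommGroup M] [Module k M] (S : Subgroup (M ≃ₗ[k] M)) :
    Representation k S M where
  toFun g := (g : M ≃ₗ[k] M).toLinearMap
  map_one' := rfl
  map_mul' _ _ := rfl

/-- a maximal flag -/
structure Fl (s s1 z : W k) : Prop where
  two : (2 : k) ≠ 0
  ne : s ≠ 0
  nmem : ∀ c : k, s1 ≠ c • s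
  Qs : Q s = 0
  Q1 : Q s1 = 0
  Qz : Q z = 1
  B1 : B s1 s = 0
  Bz : B z s = 0
  Bz1 : B z s1 = 0

/-- `g` is triangular with respect to the flag -/
def Tri (s s1 z : W k) (g : GW k) (l m a b c : k) : Prop :=
  g s = l • s ∧ g s1 = m • s1 + a • s ∧ g z = z + b • s1 + c • s

theorem isE_of_triv (h2 : (2 : k) ≠ 0) {s : W k} (hs : Q s = 0) (h0 : s ≠ 0) {g : GW k} (hg : Iso g)
    (e : ∀ x, B x s = 0 → ∃ c : k, g x = x + c • s) (es : g s = s) : ∃ m, IsE s m g := by
  obtain ⟨t, ht, hst⟩ := exists_hyp' h2 hs h0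
  have hss : B s s = 0 := by rw [B_self, hs, mul_zero]
  have a1 : B (g t) s = 1 := by rw [← es, hg, B_comm, hst]
  have a2 : B (g t - t) s = 0 := by simp [a1, B_comm t s, hst]
  refine ⟨g t - t - B (g t) t • s, hs, by simp [a1, B_comm t s, hst, hss], fun x => ?_⟩
  have hx : B (x - B x s • t) s = 0 := by simp [B_comm t s, hst]
  obtain ⟨c, hc⟩ := e _ hx
  have a3 := hg (x - B x s • t) t
  have a4 := hg.Q_eq h2 t
  rw [hc] at a3
  have a5 : g x = x - B x s • t + c • s + B x s • g t := by rw [← hc]; simp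
  have hc' : c = -B x (g t) + B x s * B (g t) t + B x t := by
    simp only [map_add, map_sub, map_smul, LinearMap.add_apply, LinearMap.sub_apply,
      LinearMap.smul_apply, smul_eq_mul, B_comm s (g t), a1, B_self, ht, B_comm t (g t)] at a3
    linear_combination a3
  rw [a5, hc']
  simp only [sg, map_sub, map_smul, smul_eq_mul, Q_sub, Q_smul, hs, a4, ht, LinearMap.sub_apply,
    a1, B_comm t s, hst]
  module

namespace Fl

variable {s s1 z : W k}

theorem Bss (F : Fl s s1 z) : B s s = 0 := by rw [B_self, F.Qs, mul_zero]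
theorem B11 (F : Fl s s1 z) : B s1 s1 = 0 := by rw [B_self, F.Q1, mul_zero]
theorem Bzz (F : Fl s s1 z) : B z z = 2 := by rw [B_self, F.Qz, mul_one]
theorem B1' (F : Fl s s1 z) : B s s1 = 0 := by rw [B_comm, F.B1]
theorem Bz' (F : Fl s s1 z) : B s z = 0 := by rw [B_comm, F.Bz]
theorem Bz1' (F : Fl s s1 z) : B s1 z = 0 := by rw [B_comm, F.Bz1]

theorem li2 (F : Fl s s1 z) {a b : k} (h : a • s1 + b • s = 0) : a = 0 ∧ b = 0 := by
  have ha : a = 0 := by
    by_contra ha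
    refine F.nmem (-b / a) (smul_right_injective _ ha ?_)
    simp only [smul_smul, mul_div_cancel₀ _ ha]
    linear_combination (norm := module) h
  simpa [ha, F.ne] using h

theorem li3 (F : Fl s s1 z) {a b c : k} (h : c • z + a • s1 + b • s = 0) : c = 0 ∧ a = 0 ∧ b = 0 := by
  have := congrArg (fun x => B x z) h
  simp [F.Bzz, F.Bz', F.Bz1', F.two] at this
  exact ⟨this, F.li2 (by simpa [this] using h)⟩

theorem lind (F : Fl s s1 z) : LinearIndependent k ![z, s1, s] := by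
  rw [Fintype.linearIndependent_iff]
  intro g hg i
  obtain ⟨h1, h2, h3⟩ := F.li3 (c := g 0) (a := g 1) (b := g 2) (by simpa [Fin.sum_univ_three] using hg)
  fin_cases i <;> assumption

theorem mem3 (F : Fl s s1 z) {x : W k} (h1 : B x s = 0) (h2 : B x s1 = 0) :
    ∃ c a b : k, x = c • z + a • s1 + b • s := by
  have hl : LinearIndependent k ![s1, s] := by
    rw [LinearIndependent.pair_iff]; exact fun a b h => F.li2 h
  have e : Submodule.span k (Set.range ![z, s1, s]) =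
      B.orthogonal (Submodule.span k (Set.range ![s1, s])) := by
    refine Submodule.eq_of_le_of_finrank_eq (Submodule.span_le.2 ?_) ?_
    · rintro _ ⟨i, rfl⟩ u hu
      obtain ⟨c, rfl⟩ := (Submodule.mem_span_range_iff_exists_fun k).1 hu
      fin_cases i <;> simp [LinearMap.BilinForm.IsOrtho, F.Bss, F.B11, F.B1, F.B1', F.Bz', F.Bz1']
    · have := finrank_orth F.two (Submodule.span k (Set.range ![s1, s]))
      rw [finrank_span_eq_card hl] at this
      rw [finrank_span_eq_card F.lind]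
      simp at this ⊢; omega
  have : x ∈ Submodule.span k (Set.range ![z, s1, s]) := by
    rw [e]
    intro u hu
    obtain ⟨c, rfl⟩ := (Submodule.mem_span_range_iff_exists_fun k).1 hu
    simp [LinearMap.BilinForm.IsOrtho, B_comm s x, B_comm s1 x, h1, h2]
  obtain ⟨c, rfl⟩ := (Submodule.mem_span_range_iff_exists_fun k).1 this
  exact ⟨c 0, c 1, c 2, by simp [Fin.sum_univ_three]⟩

theorem mem2 (F : Fl s s1 z) {x : W k} (h1 : B x s = 0) (h2 : B x s1 = 0) (h3 : B x z = 0) :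
    ∃ a b : k, x = a • s1 + b • s := by
  obtain ⟨c, a, b, rfl⟩ := F.mem3 h1 h2
  simp [F.Bzz, F.Bz', F.Bz1', F.two] at h3
  exact ⟨a, b, by simp [h3]⟩

theorem ψ_flag [IsAlgClosed k] (F : Fl s s1 z) :
    ψ s * ψ s1 ≠ 0 ∧ ∃ c : k, c ≠ 0 ∧ ψ s * ψ s1 * ψ z = c • (ψ s * ψ s1) := by
  have F0 : Fl (Pi.single 1 1 : W k) (Pi.single 3 1) (Pi.single 0 1) :=
    ⟨F.two, by simp, fun c h => by simpa using congrFun h 3, by simp [Q_apply], by simp [Q_apply],
      by simp [Q_apply], by simp [B_apply], by simp [B_apply], by simp [B_apply]⟩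
  have e0 : ψ (Pi.single 1 1 : W k) * ψ (Pi.single 3 1) * ψ (Pi.single 0 1) =
      ψ (Pi.single 1 1 : W k) * ψ (Pi.single 3 1) := by
    ext (i | i) (j | j) <;> fin_cases i <;> fin_cases j <;>
      simp [ψ_def, mul_apply, Fintype.sum_sum_type, Fin.sum_univ_two]
  have e1 : ψ (Pi.single 1 1 : W k) * ψ (Pi.single 3 1) ≠ 0 := fun h => by
    simpa [ψ_def, mul_apply, Fintype.sum_sum_type, Fin.sum_univ_two] using
      congrFun (congrFun h (.inl 0)) (.inr 0)
  obtain ⟨γ, hγ, e⟩ := witt_fam F.two F0.lind F.lind (fun i j => by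
    fin_cases i <;> fin_cases j <;> simp [F.Bss, F.B11, F.B1, F.B1', F.Bz', F.Bz1', F.Bz, F.Bz1, F.Bzz,
      F0.Bss, F0.B11, F0.B1, F0.B1', F0.Bz', F0.Bz1', F0.Bz, F0.Bz1, F0.Bzz])
  have a0 := e 0
  have a1 := e 1
  have a2 := e 2
  simp only [Fin.isValue, cons_val_zero, cons_val_one, cons_val] at a0 a1 a2
  have key : ∀ {γ : GW k}, γ ∈ Om k → ψ (γ (Pi.single 1 1)) * ψ (γ (Pi.single 3 1)) ≠ 0 ∧
      ψ (γ (Pi.single 1 1)) * ψ (γ (Pi.single 3 1)) * ψ (γ (Pi.single 0 1)) =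
        ψ (γ (Pi.single 1 1)) * ψ (γ (Pi.single 3 1)) := fun hγ => by
    obtain ⟨A, hA⟩ := mem_Om.1 hγ
    simp only [hA.conj, mul_assoc, Units.inv_mul_cancel_left]
    refine ⟨fun h => e1 ?_, by rw [← mul_assoc (ψ _), ← mul_assoc (ψ _ * _), e0, mul_assoc]⟩
    rwa [Units.mul_right_eq_zero, ← mul_assoc, Units.mul_left_eq_zero] at h
  rcases hγ with hγ | hγ
  · have := key hγ
    rw [a0, a1, a2] at this
    exact ⟨this.1, 1, one_ne_zero, by rw [one_smul, this.2]⟩
  · have := key hγ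
    simp only [LinearEquiv.mul_apply, a0, a1, a2, ng_apply, map_neg, neg_mul, mul_neg, neg_neg] at this
    exact ⟨this.1, -1, by simp, by rw [neg_smul, one_smul, neg_eq_iff_eq_neg.1 this.2]⟩

theorem ne_zero (F : Fl s s1 z) {g : GW k} {l m a : k} (e1 : g s = l • s) (e2 : g s1 = m • s1 + a • s) :
    l ≠ 0 ∧ m ≠ 0 := by
  have hl : l ≠ 0 := by
    rintro rfl
    exact F.ne (by simpa using e1)
  refine ⟨hl, ?_⟩
  rintro rfl
  refine F.nmem (a / l) (g.injective ?_)
  rw [e2, map_smul, e1, smul_smul, div_mul_cancel₀ _ hl]; simp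

theorem tri [IsAlgClosed k] (F : Fl s s1 z) {g : GW k} (hg : g ∈ Om k) {l m a : k}
    (e1 : g s = l • s) (e2 : g s1 = m • s1 + a • s) : ∃ b c, Tri s s1 z g l m a b c := by
  obtain ⟨hl, hm⟩ := F.ne_zero e1 e2
  have a1 := Om_iso hg z s
  have a2 := Om_iso hg z s1
  rw [e1, F.Bz, map_smul, smul_eq_zero, or_iff_right hl] at a1
  rw [e2, F.Bz1, map_add, map_smul, map_smul, a1, smul_zero, add_zero, smul_eq_zero,
    or_iff_right hm] at a2
  obtain ⟨ε, b, c, e3⟩ := F.mem3 a1 a2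
  obtain ⟨h0, d, hd, e⟩ := F.ψ_flag
  obtain ⟨A, hA⟩ := mem_Om.1 hg
  have e' : ψ (g s) * ψ (g s1) * ψ (g z) = d • (ψ (g s) * ψ (g s1)) := by
    simp only [hA.conj, mul_assoc, Units.inv_mul_cancel_left]
    rw [← mul_assoc (ψ _), ← mul_assoc (ψ _ * _), e]; simp [mul_assoc]
  have b1 : ψ s * ψ s = 0 := by rw [ψ_mul_self, F.Qs, zero_smul]
  have b2 : ψ s * ψ s1 * ψ s1 = 0 := by rw [mul_assoc, ψ_mul_self, F.Q1]; simp
  have b3 : ψ s * ψ s1 * ψ s = 0 := ψ_uwu F.Qs F.B1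
  simp only [e1, e2, e3, map_add, map_smul, mul_add, smul_mul_assoc, mul_smul_comm, b1, b2, b3, e,
    smul_zero, add_zero, smul_smul] at e'
  have := smul_left_injective k h0 e'
  have : ε = 1 := by
    have h3 : l * m * d ≠ 0 := mul_ne_zero (mul_ne_zero hl hm) hd
    exact mul_left_cancel₀ h3 (by linear_combination this)
  exact ⟨b, c, e1, e2, by rw [e3, this, one_smul]⟩

theorem tri_unique (F : Fl s s1 z) {g : GW k} {l m a b c l' m' a' b' c' : k}
    (h : Tri s s1 z g l m a b c) (h' : Tri s s1 z g l' m' a' b' c') :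
    l = l' ∧ m = m' ∧ a = a' ∧ b = b' ∧ c = c' := by
  have e1 := smul_left_injective k F.ne (h.1.symm.trans h'.1)
  have e2 := F.li2 (a := m - m') (b := a - a') (by
    linear_combination (norm := module) h.2.1.symm.trans h'.2.1)
  have e3 := F.li2 (a := b - b') (b := c - c') (by
    linear_combination (norm := module) h.2.2.symm.trans h'.2.2)
  exact ⟨e1, sub_eq_zero.1 e2.1, sub_eq_zero.1 e2.2, sub_eq_zero.1 e3.1, sub_eq_zero.1 e3.2⟩

theorem isE_of_b (F : Fl s s1 z) {g : GW k} (hg : Iso g) {a c : k} (h : Tri s s1 z g 1 1 a 0 c) :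
    ∃ m, IsE s m g := by
  obtain ⟨e1, e2, e3⟩ := h
  simp only [one_smul, zero_smul, add_zero] at e1 e2 e3
  refine isE_of_triv F.two F.Qs F.ne hg (fun x hx => ?_) e1
  have a1 := hg x s
  have a2 := hg x s1
  have a3 := hg x z
  rw [e1, hx] at a1
  simp only [e2, e3, map_add, map_smul, a1, smul_zero, add_zero] at a2 a3
  obtain ⟨α, β, e⟩ := F.mem2 (x := g x - x) (by simp [a1, hx]) (by simp [a2]) (by simp [a3])
  have e4 : g x = x + α • s1 + β • s := by rw [add_assoc, ← e]; simp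
  have a4 := hg.Q_eq F.two x
  simp [e4, Q_add, Q_smul, F.Qs, F.Q1, hx, F.B1] at a4
  rcases a4 with rfl | a4
  · exact ⟨β, by simp [e4]⟩
  · obtain ⟨γ, α', β', rfl⟩ := F.mem3 hx a4
    exact ⟨γ * c + α' * a, by simp only [map_add, map_smul, e1, e2, e3]; module⟩

theorem isE_of_a (F : Fl s s1 z) {g : GW k} (hg : Iso g) {b c : k} (h : Tri s s1 z g 1 1 0 b c) :
    ∃ s' m, s' ≠ 0 ∧ IsE s' m g := by
  by_cases hb : b = 0
  · subst hb
    obtain ⟨m, hm⟩ := F.isE_of_b hg h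
    exact ⟨s, m, F.ne, hm⟩
  have F' : Fl (b • s1 + c • s) s z :=
    ⟨F.two, fun e => hb (F.li2 e).1, fun d e => by
      have := F.li2 (a := d * b) (b := d * c - 1) (by linear_combination (norm := module) -e)
      have h1 : d = 0 := by simpa [hb] using this.1
      simpa [h1] using this.2, by simp [Q_add, Q_smul, F.Qs, F.Q1, F.B1], F.Qs, F.Qz,
      by simp [F.Bss, F.B1'], by simp [F.Bz, F.Bz1], F.Bz⟩
  obtain ⟨e1, e2, e3⟩ := h
  obtain ⟨m, hm⟩ := F'.isE_of_b hg (a := 0) (c := 1)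
    ⟨by simp [e1, e2], by simp [e1], by simp [e3, add_assoc]⟩
  exact ⟨_, m, F'.ne, hm⟩

/-- vectors moved inside the first step of the flag by a regular unipotent element -/
theorem fix2 (F : Fl s s1 z) {g : GW k} (hg : Iso g) {a b c : k} (h : Tri s s1 z g 1 1 a b c)
    (ha : a ≠ 0) (hb : b ≠ 0) {x : W k} {d : k} (hx : g x = x + d • s) :
    ∃ α β : k, x = α • s1 + β • s ∧ d = α * a := by
  obtain ⟨e1, e2, e3⟩ := h
  simp only [one_smul] at e1 e2
  have a2 := hg x s1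
  have a3 := hg x z
  simp [hx, e2, e3, F.Bss, F.B1', F.Bz', ha, add_assoc] at a2 a3
  simp [a2, hb] at a3
  obtain ⟨γ, α, β, rfl⟩ := F.mem3 a2 a3
  simp only [map_add, map_smul, e1, e2, e3] at hx
  have := F.li2 (a := γ * b) (b := γ * c + α * a - d) (by linear_combination (norm := module) hx)
  have h1 : γ = 0 := by simpa [hb] using this.1
  exact ⟨α, β, by simp [h1], by rw [h1] at this; linear_combination -this.2⟩

theorem fix1 (F : Fl s s1 z) {g : GW k} (hg : Iso g) {a b c : k} (h : Tri s s1 z g 1 1 a b c)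
    (ha : a ≠ 0) (hb : b ≠ 0) {x : W k} (hx : g x = x) : ∃ β : k, x = β • s := by
  obtain ⟨α, β, e, e'⟩ := F.fix2 hg h ha hb (x := x) (d := 0) (by simpa using hx)
  have : α = 0 := by simpa [ha] using e'
  exact ⟨β, by simp [e, this]⟩

end Fl

section Tri

variable {s s1 z : W k} {g g' : GW k} {l m a b c l' m' a' b' c' : k}

theorem Tri.one : Tri s s1 z 1 1 1 0 0 0 := ⟨by simp, by simp, by simp⟩

theorem Tri.mul (h : Tri s s1 z g l m a b c) (h' : Tri s s1 z g' l' m' a' b' c') :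
    Tri s s1 z (g * g') (l * l') (m * m') (m' * a + a' * l) (b + b' * m) (c + b' * a + c' * l) :=
  ⟨by simp only [LinearEquiv.mul_apply, h'.1, map_smul, h.1]; module,
    by simp only [LinearEquiv.mul_apply, h'.2.1, map_add, map_smul, h.1, h.2.1]; module,
    by simp only [LinearEquiv.mul_apply, h'.2.2, map_add, map_smul, h.1, h.2.1, h.2.2]; module⟩

theorem Tri.inv (h : Tri s s1 z g l m a b c) (hl : l ≠ 0) (hm : m ≠ 0) :
    Tri s s1 z g⁻¹ l⁻¹ m⁻¹ (-a / (l * m)) (-b / m) ((a * b - c * m) / (l * m)) := by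
  refine ⟨g.injective ?_, g.injective ?_, g.injective ?_⟩ <;>
    simp only [map_add, map_smul, h.1, h.2.1, h.2.2, LinearEquiv.coe_inv,
      LinearEquiv.apply_symm_apply] <;> match_scalars <;> field_simp <;> ring

theorem Tri.pow (h : Tri s s1 z g 1 1 a b c) (n : ℕ) :
    ∃ c', Tri s s1 z (g ^ n) 1 1 (n * a) (n * b) c' := by
  induction n with
  | zero => exact ⟨0, by simpa using Tri.one⟩
  | succ n ih =>
    obtain ⟨c', h'⟩ := ih
    have := h'.mul h
    simp only [mul_one, one_mul] at this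
    rw [pow_succ, Nat.cast_succ, add_mul, add_mul, one_mul, one_mul]
    exact ⟨_, this⟩

theorem Tri.pow' (h : Tri s s1 z g l m a b c) (n : ℕ) :
    ∃ a' b' c', Tri s s1 z (g ^ n) (l ^ n) (m ^ n) a' b' c' := by
  induction n with
  | zero => exact ⟨0, 0, 0, by simpa using Tri.one⟩
  | succ n ih =>
    obtain ⟨a', b', c', h'⟩ := ih
    exact ⟨_, _, _, by rw [pow_succ, pow_succ, pow_succ]; exact h'.mul h⟩

/-- conjugation of a unipotent element by a triangular element -/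
theorem Tri.conj (h : Tri s s1 z g l m a b c) (hl : l ≠ 0) (hm : m ≠ 0)
    (h' : Tri s s1 z g' 1 1 a' b' c') :
    ∃ c'', Tri s s1 z (g * g' * g⁻¹) 1 1 (l / m * a') (m * b') c'' := by
  have := (h.mul h').mul (h.inv hl hm)
  rw [show l * 1 * l⁻¹ = 1 by field_simp, show m * 1 * m⁻¹ = 1 by field_simp,
    show m⁻¹ * (1 * a + a' * l) + -a / (l * m) * (l * 1) = l / m * a' by field_simp; ring,
    show b + b' * m + -b / m * (m * 1) = m * b' by field_simp; ring] at this
  exact ⟨_, this⟩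

end Tri

theorem exists_sing [IsAlgClosed k] {w w' : W k} (h : B w w' = 0) (hw : Q w' ≠ 0) :
    ∃ c : k, Q (w + c • w') = 0 := by
  obtain ⟨c, hc⟩ := IsAlgClosed.exists_eq_mul_self (-Q w / Q w')
  exact ⟨c, by rw [Q_add, Q_smul, map_smul, h, sq, ← hc]; field_simp; simp⟩

/-- a finite `p`-subgroup is unitriangular for some flag -/
theorem exists_flag [IsAlgClosed k] {p : ℕ} [Fact p.Prime] [CharP k p] (h2 : (2 : k) ≠ 0)
    {S : Subgroup (GW k)} [Finite S] (hS : IsPGroup p S) (hle : S ≤ Om k) :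
    ∃ s s1 z, Fl s s1 z ∧ ∀ g ∈ S, ∃ a b c, Tri s s1 z g 1 1 a b c := by
  have step : ∀ U : Submodule k (W k), finrank k U ≤ 1 → (∀ u ∈ U, Q u = 0) →
      (∀ g ∈ S, ∀ x ∈ U, g x ∈ U) → ∃ v, v ∉ U ∧ Q v = 0 ∧ (∀ u ∈ U, B u v = 0) ∧
        ∀ g ∈ S, g v - v ∈ U := by
    intro U h1 hQ hU
    have hp : ∀ U' : Submodule k (W k), (∀ g ∈ S, ∀ x ∈ U', g x ∈ U') →
        ∀ g ∈ S, ∀ x ∈ B.orthogonal U', g x ∈ B.orthogonal U' := fun U' hU' g hg x hx u hu => by
      have := hx _ (hU' _ (inv_mem hg) u hu)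
      rw [B_comm, (Om_iso (hle hg)).swap, B_comm, this]
    have hd : ∀ U' : Submodule k (W k), finrank k U' ≤ 2 → ¬ B.orthogonal U' ≤ U := fun U' h3 h4 => by
      have := Submodule.finrank_mono h4
      have := finrank_orth h2 U'
      omega
    obtain ⟨w, a1, a2, a3⟩ := exists_fix_mod hS (nat S) (U := U) (U' := B.orthogonal U)
      (fun g => hU g g.2) (fun g => hp U hU g g.2) (hd U (by omega))
    by_cases hw : Q w = 0
    · exact ⟨w, a2, hw, a1, fun g hg => a3 ⟨g, hg⟩⟩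
    have hU2 : ∀ g ∈ S, ∀ x ∈ U ⊔ k ∙ w, g x ∈ U ⊔ k ∙ w := fun g hg x hx => by
      obtain ⟨u, hu, c, rfl⟩ := H7.mem_sup_span_singleton.1 hx
      refine H7.mem_sup_span_singleton.2 ⟨g u + c • (g w - w),
        add_mem (hU g hg u hu) (U.smul_mem c (a3 ⟨g, hg⟩)), c, ?_⟩
      simp only [map_add, map_smul]; module
    obtain ⟨w', b1, b2, b3⟩ := exists_fix_mod hS (nat S) (U := U) (U' := B.orthogonal (U ⊔ k ∙ w))
      (fun g => hU g g.2) (fun g => hp _ hU2 g g.2) (hd _ (by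
        have := Submodule.finrank_add_le_finrank_add_finrank U (k ∙ w)
        have := finrank_span_le_card (R := k) ({w} : Set (W k))
        simp at this
        omega))
    have b4 : B w w' = 0 := b1 w (Submodule.mem_sup_right (Submodule.mem_span_singleton_self w))
    have b5 : ∀ u ∈ U, B u w' = 0 := fun u hu => b1 u (Submodule.mem_sup_left hu)
    by_cases hw' : Q w' = 0
    · exact ⟨w', b2, hw', b5, fun g hg => b3 ⟨g, hg⟩⟩
    obtain ⟨c, hc⟩ := exists_sing b4 hw'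
    refine ⟨w + c • w', fun e => hw ?_, hc, fun u hu => by simp [b5 u hu, show B u w = 0 from a1 u hu],
      fun g hg => ?_⟩
    · have : B (w + c • w') w = 0 := a1 _ e
      simpa [B_self, B_comm w' w, b4, h2] using this
    · have := add_mem (a3 ⟨g, hg⟩) (U.smul_mem c (b3 ⟨g, hg⟩))
      convert this using 1
      simp only [nat, map_add, map_smul, MonoidHom.coe_mk, OneHom.coe_mk, LinearEquiv.coe_coe]
      module
  obtain ⟨s, a1, a2, -, a3⟩ := step ⊥ (by simp) (by simp) (by simp)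
  simp only [Submodule.mem_bot, sub_eq_zero] at a1 a3
  obtain ⟨s1, b1, b2, b3, b4⟩ := step (k ∙ s) (finrank_span_singleton a1).le
    (fun u hu => by
      obtain ⟨c, rfl⟩ := Submodule.mem_span_singleton.1 hu
      rw [Q_smul, a2, mul_zero])
    (fun g hg x hx => by
      obtain ⟨c, rfl⟩ := Submodule.mem_span_singleton.1 hx
      rwa [map_smul, a3 g hg])
  have b5 : B s s1 = 0 := b3 s (Submodule.mem_span_singleton_self s)
  obtain ⟨z, c1, c2, c3⟩ : ∃ z, Q z = 1 ∧ B z s = 0 ∧ B z s1 = 0 := by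
    by_contra hc
    push Not at hc
    have hc' : ∀ z, B z s = 0 → B z s1 = 0 → Q z = 0 := fun z e1 e2 => by
      by_contra h0
      obtain ⟨c, -, e⟩ := exists_unit h0
      exact hc _ e (by simp [e1]) (by simp [e2])
    have hm : ∀ x, (∀ u ∈ (k ∙ s) ⊔ k ∙ s1, B u x = 0) → B x s = 0 ∧ B x s1 = 0 := fun x hx =>
      ⟨by rw [B_comm]; exact hx _ (Submodule.mem_sup_left (Submodule.mem_span_singleton_self s)),
        by rw [B_comm]; exact hx _ (Submodule.mem_sup_right (Submodule.mem_span_singleton_self s1))⟩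
    have hle' : B.orthogonal ((k ∙ s) ⊔ k ∙ s1) ≤ (k ∙ s) ⊔ k ∙ s1 := fun x hx =>
      mem_of_perp_perp h2 fun y hy => by
        obtain ⟨d1, d2⟩ := hm x hx
        obtain ⟨d3, d4⟩ := hm y hy
        have a3 := hc' (x + y) (by simp [d1, d3]) (by simp [d2, d4])
        rwa [Q_add, hc' x d1 d2, hc' y d3 d4, zero_add, zero_add] at a3
    have d1 := Submodule.finrank_mono hle'
    have d2 := finrank_orth h2 ((k ∙ s) ⊔ k ∙ s1)
    have := Submodule.finrank_add_le_finrank_add_finrank (k ∙ s) (k ∙ s1)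
    have d3 := finrank_span_le_card (R := k) ({s} : Set (W k))
    have d4 := finrank_span_le_card (R := k) ({s1} : Set (W k))
    simp at d3 d4
    omega
  have F : Fl s s1 z := ⟨h2, a1, fun c e => b1 (Submodule.mem_span_singleton.2 ⟨c, e.symm⟩), a2, b2, c1,
    by rw [B_comm, b5], c2, c3⟩
  refine ⟨s, s1, z, F, fun g hg => ?_⟩
  obtain ⟨a, ha⟩ := Submodule.mem_span_singleton.1 (b4 g hg)
  obtain ⟨b, c, h⟩ := F.tri (hle hg) (l := 1) (m := 1) (a := a) (by simp [a3 g hg]) (by simp [ha])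
  exact ⟨a, b, c, h⟩

/-! ### Groups without root elements -/

/-- the unitriangular elements of `G` -/
def Un (G : Subgroup (GW k)) (s s1 z : W k) : Subgroup (GW k) where
  carrier := {g | g ∈ G ∧ ∃ a b c, Tri s s1 z g 1 1 a b c}
  one_mem' := ⟨one_mem _, _, _, _, Tri.one⟩
  mul_mem' := fun ⟨ha, _, _, _, h⟩ ⟨hb, _, _, _, h'⟩ =>
    ⟨mul_mem ha hb, _, _, _, by simpa only [mul_one] using h.mul h'⟩
  inv_mem' := fun ⟨ha, _, _, _, h⟩ =>
    ⟨inv_mem ha, _, _, _, by simpa only [inv_one] using h.inv one_ne_zero one_ne_zero⟩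

theorem mem_Un {G : Subgroup (GW k)} {s s1 z : W k} {g : GW k} :
    g ∈ Un G s s1 z ↔ g ∈ G ∧ ∃ a b c, Tri s s1 z g 1 1 a b c := Iff.rfl

/-- `G` lies in `Om` and has no root elements -/
structure NR (G : Subgroup (GW k)) : Prop where
  le : G ≤ Om k
  nl : ¬ HasLong G
  ns : ¬ HasShort G

namespace NR

variable {G : Subgroup (GW k)} {s s1 z : W k} {g g' n : GW k} {l m a b c a' b' c' : k}

theorem eq_one (h : NR G) (hg : g ∈ G) {s m : W k} (hs : s ≠ 0) (e : IsE s m g) : g = 1 := by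
  by_contra h1
  by_cases hm : Q m = 0
  · exact h.nl ⟨g, hg, h1, s, m, e, hm⟩
  · exact h.ns ⟨g, hg, s, m, hs, e, hm⟩

theorem a_ne (h : NR G) (F : Fl s s1 z) (hg : g ∈ G) (t : Tri s s1 z g 1 1 a b c) (h1 : g ≠ 1) :
    a ≠ 0 := by
  rintro rfl
  obtain ⟨s', m, h0, e⟩ := F.isE_of_a (Om_iso (h.le hg)) t
  exact h1 (h.eq_one hg h0 e)

theorem b_ne (h : NR G) (F : Fl s s1 z) (hg : g ∈ G) (t : Tri s s1 z g 1 1 a b c) (h1 : g ≠ 1) :
    b ≠ 0 := by
  rintro rfl
  obtain ⟨m, e⟩ := F.isE_of_b (Om_iso (h.le hg)) t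
  exact h1 (h.eq_one hg F.ne e)

theorem eq_of_a (h : NR G) (F : Fl s s1 z) (hg : g ∈ G) (hg' : g' ∈ G) (t : Tri s s1 z g 1 1 a b c)
    (t' : Tri s s1 z g' 1 1 a b' c') : g = g' := by
  by_contra e
  have := t.mul (t'.inv one_ne_zero one_ne_zero)
  simp only [mul_one, inv_one] at this
  exact h.a_ne F (mul_mem hg (inv_mem hg')) this (by rwa [Ne, mul_inv_eq_one]) (by simp)

theorem pow_p (h : NR G) (F : Fl s s1 z) (p : ℕ) [CharP k p] (hg : g ∈ Un G s s1 z) : g ^ p = 1 := by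
  obtain ⟨hg, a, b, c, t⟩ := hg
  obtain ⟨c', t'⟩ := t.pow p
  by_contra e
  exact h.a_ne F (pow_mem hg p) t' e (by simp)

theorem comm (h : NR G) (F : Fl s s1 z) (hg : g ∈ Un G s s1 z) (hg' : g' ∈ Un G s s1 z) :
    g * g' = g' * g := by
  obtain ⟨hg, a, b, c, t⟩ := hg
  obtain ⟨hg', a', b', c', t'⟩ := hg'
  have e1 := t.mul t'
  have e2 := t'.mul t
  simp only [mul_one, one_mul] at e1 e2
  rw [add_comm a'] at e2
  exact h.eq_of_a F (mul_mem hg hg') (mul_mem hg' hg) e1 e2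

theorem prop (h : NR G) (F : Fl s s1 z) (hg : g ∈ G) (hg' : g' ∈ G) (t : Tri s s1 z g 1 1 a b c)
    (t' : Tri s s1 z g' 1 1 a' b' c') : a * b' = a' * b := by
  have e1 := t.mul t'
  rw [h.comm F ⟨hg, _, _, _, t⟩ ⟨hg', _, _, _, t'⟩] at e1
  linear_combination (F.tri_unique e1 (t'.mul t)).2.2.2.2

theorem isPGroup (h : NR G) (F : Fl s s1 z) (p : ℕ) [CharP k p] : IsPGroup p (Un G s s1 z) :=
  fun g => ⟨1, Subtype.ext (by rw [pow_one]; exact h.pow_p F p g.2)⟩

/-- triangular elements have weights `m², m, 1` -/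
theorem sq (h : NR G) (F : Fl s s1 z) (hg : g ∈ Un G s s1 z) (h1 : g ≠ 1) (hn : n ∈ G)
    (t : Tri s s1 z n l m a b c) : l = m ^ 2 := by
  obtain ⟨hg, a', b', c', t'⟩ := hg
  obtain ⟨hl, hm⟩ := F.ne_zero t.1 t.2.1
  obtain ⟨c'', t''⟩ := t.conj hl hm t'
  have := h.prop F hg (mul_mem (mul_mem hn hg) (inv_mem hn)) t' t''
  have ha := h.a_ne F hg t' h1
  have hb := h.b_ne F hg t' h1
  field_simp at this
  exact this.symm

theorem conj_mem (F : Fl s s1 z) (hg : g ∈ Un G s s1 z) (hn : n ∈ G)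
    (t : Tri s s1 z n l m a b c) : n * g * n⁻¹ ∈ Un G s s1 z := by
  obtain ⟨hg, a', b', c', t'⟩ := hg
  obtain ⟨hl, hm⟩ := F.ne_zero t.1 t.2.1
  obtain ⟨c'', t''⟩ := t.conj hl hm t'
  exact ⟨mul_mem (mul_mem hn hg) (inv_mem hn), _, _, _, t''⟩

/-- an element conjugating a non-trivial unitriangular element to another one is triangular -/
theorem tri_of_conj [IsAlgClosed k] (h : NR G) (F : Fl s s1 z) (hg : g ∈ Un G s s1 z) (h1 : g ≠ 1)
    (hn : n ∈ Om k) (hg' : n * g * n⁻¹ ∈ Un G s s1 z) : ∃ l m a b c, Tri s s1 z n l m a b c := by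
  obtain ⟨hg, a, b, c, t⟩ := hg
  obtain ⟨hg', a', b', c', t'⟩ := hg'
  have h1' : n * g * n⁻¹ ≠ 1 := by simpa using h1
  have ha := h.a_ne F hg' t' h1'
  have hb := h.b_ne F hg' t' h1'
  have hi := Om_iso (h.le hg')
  obtain ⟨l, e1⟩ := F.fix1 hi t' ha hb (x := n s) (by simp [t.1])
  obtain ⟨m, a'', e2, -⟩ := F.fix2 hi t' ha hb (x := n s1) (d := a * l) (by
    simp [t.2.1, e1, smul_smul])
  obtain ⟨b'', c'', t''⟩ := F.tri hn e1 e2
  exact ⟨_, _, _, _, _, t''⟩

/-- the centraliser of a non-trivial unitriangular element is unitriangular -/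
theorem cent [IsAlgClosed k] (h : NR G) (F : Fl s s1 z) (hg : g ∈ Un G s s1 z) (h1 : g ≠ 1)
    (hn : n ∈ G) (e : n * g = g * n) : n ∈ Un G s s1 z := by
  have e' : n * g * n⁻¹ = g := by rw [e, mul_inv_cancel_right]
  obtain ⟨l, m, a, b, c, t⟩ := h.tri_of_conj F hg h1 (h.le hn) (by rwa [e'])
  have e2 := h.sq F hg h1 hn t
  obtain ⟨hg, a', b', c', t'⟩ := hg
  obtain ⟨hl, hm⟩ := F.ne_zero t.1 t.2.1
  obtain ⟨c'', t''⟩ := t.conj hl hm t'
  rw [e'] at t''
  have hb := h.b_ne F hg t' h1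
  have : m = 1 := mul_right_cancel₀ hb (by rw [one_mul]; exact (F.tri_unique t'' t').2.2.2.1)
  subst this
  rw [one_pow] at e2
  subst e2
  exact ⟨hn, _, _, _, t⟩

/-- regular unipotent elements need characteristic at least five -/
theorem five_le (h : NR G) (F : Fl s s1 z) {p : ℕ} (hp : p.Prime) [CharP k p]
    (hg : g ∈ Un G s s1 z) (h1 : g ≠ 1) : 5 ≤ p := by
  have e := h.pow_p F p hg
  obtain ⟨hg, a, b, c, t⟩ := hg
  have ha := h.a_ne F hg t h1
  have hb := h.b_ne F hg t h1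
  have hi := Om_iso (h.le hg)
  have h2 : p ≠ 2 := by
    rintro rfl
    exact F.two (by exact_mod_cast CharP.cast_eq_zero k 2)
  have h4 : p ≠ 4 := by rintro rfl; exact absurd hp (by decide)
  have := hp.two_le
  by_contra h5
  obtain rfl : p = 3 := by omega
  have h3 : (3 : k) = 0 := by exact_mod_cast CharP.cast_eq_zero k 3
  refine F.ne (B_nd F.two fun x => ?_)
  have e3 : g (g (g x)) = x := by
    have := congrArg (fun u : GW k => u x) e
    simpa [pow_succ] using this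
  obtain ⟨β, e4⟩ := F.fix1 hi t ha hb (x := g (g x - x) - (g x - x)) (by
    simp only [map_sub, e3]
    linear_combination (norm := module) h3 • (g x - g (g x)))
  obtain ⟨α, β', e5, -⟩ := F.fix2 hi t ha hb (x := g x - x) (d := β) (by rw [← e4]; simp)
  have e6 := hi x s1
  rw [show g x = x + α • s1 + β' • s by rw [add_assoc, ← e5]; simp, t.2.1] at e6
  simp [F.Bss, F.B11, F.B1, F.B1', ha] at e6
  rw [B_comm, e6]

/-- Sylow subgroups are the groups of unitriangular elements -/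
theorem sylow [IsAlgClosed k] (h : NR G) [Finite G] {p : ℕ} [Fact p.Prime] [CharP k p]
    (h2 : (2 : k) ≠ 0) (S : Sylow p G) :
    ∃ s s1 z, Fl s s1 z ∧ ∀ g : G, g ∈ S ↔ (g : GW k) ∈ Un G s s1 z := by
  have : Finite ((S : Subgroup G).map G.subtype) :=
    Finite.of_surjective _ ((S : Subgroup G).equivMapOfInjective _ G.subtype_injective).surjective
  obtain ⟨s, s1, z, F, e⟩ := exists_flag h2 (S.isPGroup'.map G.subtype)
    ((Subgroup.map_subtype_le _).trans h.le)
  have : (Un G s s1 z).subgroupOf G = S := S.is_maximal'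
    ((h.isPGroup F p).comap_of_injective G.subtype G.subtype_injective)
    fun g hg => ⟨g.2, e _ ⟨g, hg, rfl⟩⟩
  exact ⟨s, s1, z, F, fun g => by rw [← Subgroup.mem_subgroupOf, this]; rfl⟩

end NR

end Cfsg.Agent.O5
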