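import Cfsg.Agent.O5.G0
import Cfsg.Agent.O5.Unip
import Cfsg.Agent.H6.Pg3

/-!
The case of a socle `PSL₂(E)`: the two fields have the same order.
-/

set_option autoImplicit false
set_option linter.unusedSectionVars false

namespace Cfsg.Agent.O5

open Module Matrix H1.Spin5
open scoped MatrixGroups

variable {F : Type*} [Field F] {E : Type*} [Field E]

theorem psl_equiv (e : E ≃+* F) : Nonempty (PSL(2, E) ≃* H6.Pg.S F) := by
  obtain ⟨e'⟩ := H6.Pg.equiv_PS e.toRingHom
  have : H6.Pg.PS e.toRingHom.fieldRange = H6.Pg.S F := by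
    rw [← H6.Pg.PS_top, RingHom.fieldRange_eq_top_iff.2 e.surjective]
  exact ⟨e'.symm.trans (MulEquiv.subgroupCongr this)⟩

theorem psl_congr [Fintype E] [Fintype F] (h : Fintype.card E = Fintype.card F) :
    Nonempty (PSL(2, E) ≃* PSL(2, F)) := by
  obtain ⟨a⟩ := psl_equiv (FiniteField.ringEquivOfCardEq h)
  obtain ⟨b⟩ := psl_equiv (RingEquiv.refl F)
  exact ⟨a.trans b.symm⟩

theorem card_psl [Fintype E] (h3 : 3 ≤ Fintype.card E) (h : Odd (Fintype.card E)) :
    2 * Nat.card PSL(2, E) = (Fintype.card E + 1) * (Fintype.card E * (Fintype.card E - 1)) := by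
  obtain ⟨b⟩ := psl_equiv (RingEquiv.refl E)
  rw [← Nat.card_eq_fintype_card] at h3 h ⊢
  rw [Nat.card_congr b.toEquiv, H6.Pg.card_S h3 h]

theorem pow_odd_of_sq {R k : Type*} [CommRing k] [Ring R] [Algebra k R] {D : R} {d : k}
    (h : D * D = d • 1) (m : ℕ) : D ^ (2 * m + 1) = d ^ m • D := by
  rw [pow_succ, pow_mul, pow_two, h, _root_.smul_pow, one_pow, smul_mul_assoc, one_mul]

theorem frob_trace {p : ℕ} [Fact p.Prime] [CharP F p] (hp : p ≠ 2) {A : GL I4 F}
    (hA : A ∈ spGL 2 F) (n : ℕ) : (A ^ p ^ n).1.trace = A.1.trace ^ p ^ n := by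
  have h2 := H1.Sp4.two_ne (k := F) p hp
  obtain ⟨m, hm⟩ : Odd (p ^ n) := ((Fact.out : p.Prime).odd_of_ne_two hp).pow
  have e : tt (A ^ p ^ n) = tt A ^ p ^ n := by
    rw [tt, tt, add_pow_char_pow_of_commute _ _ (Commute.units_inv_right (Commute.refl _)),
      ← inv_pow, Units.val_pow_eq_pow_val, Units.val_pow_eq_pow_val]
  rw [tt_eq h2 hA, add_pow_char_pow_of_commute _ _ ((Commute.one_left _).smul_left _),
    _root_.smul_pow, one_pow] at e
  nth_rw 3 [hm] at e
  rw [pow_odd_of_sq (ψ_mul_self _), ← map_smul] at e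
  have := (wp_of h2 (pow_mem hA _) e).1
  rw [div_pow, show (2 : F) ^ p ^ n = 2 by
    rw [← one_add_one_eq_two, add_pow_char_pow, one_pow]] at this
  exact (div_left_inj' h2).1 this

theorem sl2_sq (h2 : (2 : E) ≠ 0) {M : SL(2, E)} (h : M * M = 1) : M = 1 ∨ M = -1 := by
  have d := M.det_coe
  have h' : M.1 * M.1 = 1 := congrArg Subtype.val h
  rw [det_fin_two] at d
  have a := congrFun (congrFun h' 0) 0
  have b := congrFun (congrFun h' 0) 1
  have c := congrFun (congrFun h' 1) 0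
  have e := congrFun (congrFun h' 1) 1
  simp [mul_apply, Fin.sum_univ_two] at a b c e
  have t : M.1 0 0 + M.1 1 1 ≠ 0 := fun t => h2 (by linear_combination -a - d + M.1 0 0 * t)
  have b0 : M.1 0 1 = 0 := mul_left_cancel₀ t (by linear_combination b)
  have c0 : M.1 1 0 = 0 := mul_left_cancel₀ t (by linear_combination c)
  have e1 : M.1 1 1 = M.1 0 0 := by
    rw [b0] at a d; linear_combination M.1 0 0 * d - M.1 1 1 * a
  rw [b0, zero_mul, add_zero] at a
  refine (mul_self_eq_one_iff.1 a).imp (fun a => ?_) fun a => ?_ <;>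
    ext i j <;> fin_cases i <;> fin_cases j <;> simp [*]

theorem sl2_cases [Fintype E] {p : ℕ} [Fact p.Prime] [CharP E p] {m : ℕ}
    (hm : Fintype.card E = 2 * m + 1) (M : SL(2, E)) :
    (M ^ (2 * m + 1) = 1 ∨ M ^ (2 * m + 1) = -1) ∨ (M ^ m = 1 ∨ M ^ m = -1) ∨
      (M ^ (m + 1) = 1 ∨ M ^ (m + 1) = -1) := by
  have h2 : (2 : E) ≠ 0 := H7.two_ne_zero_of_odd_card ⟨m, hm⟩
  obtain ⟨n, -, hn⟩ := FiniteField.card E p
  have m0 : m ≠ 0 := by have := Fintype.one_lt_card (α := E); omega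
  obtain ⟨t, ht⟩ : ∃ t, M.1 0 0 + M.1 1 1 = 2 * t := ⟨_, (mul_div_cancel₀ _ h2).symm⟩
  have d := M.det_coe
  rw [det_fin_two] at d
  have hD : (M.1 - t • 1) * (M.1 - t • 1) = (t * t - 1) • 1 := by
    ext i j; fin_cases i <;> fin_cases j <;> simp [mul_apply, Fin.sum_univ_two]
    · linear_combination -d + M.1 0 0 * ht
    · linear_combination M.1 0 1 * ht
    · linear_combination M.1 1 0 * ht
    · linear_combination -d + M.1 1 1 * ht
  have e : M.1 ^ (2 * m + 1) = t • 1 + (t * t - 1) ^ m • (M.1 - t • 1) := by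
    rw [← pow_odd_of_sq hD, ← hm, ← FiniteField.pow_card t, FiniteField.pow_card t]
    nth_rw 1 [← FiniteField.pow_card t]
    rw [hn, sub_pow_char_pow_of_commute _ _ ((Commute.one_right _).smul_right _), _root_.smul_pow,
      one_pow, add_sub_cancel]
  by_cases h0 : t * t - 1 = 0
  · rw [h0, zero_pow m0, zero_smul, add_zero] at e
    exact Or.inl ((mul_self_eq_one_iff.1 (sub_eq_zero.1 h0)).imp
      (fun c => Subtype.ext (by simp [e, c])) fun c => Subtype.ext (by simp [e, c]))
  have := FiniteField.pow_card_sub_one_eq_one _ h0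
  rw [hm, Nat.add_sub_cancel, two_mul, pow_add] at this
  refine Or.inr ((mul_self_eq_one_iff.1 this).imp (fun c => sl2_sq h2 ?_) fun c => sl2_sq h2 ?_)
  · rw [c, one_smul, add_sub_cancel] at e
    have : M ^ (2 * m + 1) = M := Subtype.ext (by simpa using e)
    rwa [pow_succ, mul_eq_right, two_mul, pow_add] at this
  · rw [← pow_add, show m + 1 + (m + 1) = 2 * m + 1 + 1 by ring, pow_succ]
    refine Subtype.ext (show (M ^ (2 * m + 1)).1 * M.1 = 1 from ?_)
    rw [Matrix.SpecialLinearGroup.coe_pow, e, c]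
    simp only [mul_sub, sub_mul, smul_mul_assoc, mul_smul_comm, one_mul, mul_one, add_mul] at hD ⊢
    linear_combination (norm := module) -hD

theorem mem_span_of_perp (h2 : (2 : F) ≠ 0) {v w y : I4 → F} (v0 : v ≠ 0) (hw : ∀ c : F, w ≠ c • v)
    (h : sympForm 2 F v w = 0) (h1 : sympForm 2 F y v = 0) (h3 : sympForm 2 F y w = 0) :
    ∃ α β : F, y = α • w + β • v := by
  obtain ⟨s, hs⟩ := exists_br h2 h
  have k : ∀ y, sympForm 2 F y v = 0 → sympForm 2 F y w = 0 → y ∈ LinearMap.ker (toLin' (ψ s)) :=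
    fun y a b => by rw [LinearMap.mem_ker, toLin'_apply, hs, br_mulVec, a, b]; simp
  have kv := k v (f_self _) h
  have s0 : s ≠ 0 := by
    rintro rfl
    obtain ⟨z, hz⟩ : ∃ z, sympForm 2 F z v ≠ 0 := by
      by_contra! hh
      exact v0 (H1.Sp4.f_nd hh)
    have := br_mulVec v w z
    rw [← hs, map_zero, zero_mulVec, eq_comm, sub_eq_zero] at this
    refine hw (sympForm 2 F z w / sympForm 2 F z v) (smul_right_injective _ hz ?_)
    simp only [this, smul_smul, mul_div_cancel₀ _ hz]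
  have qs : Q s = 0 := by
    have := congrArg (ψ s *ᵥ ·) (show ψ s *ᵥ v = 0 from kv)
    simpa [ψ_mul_self, smul_mulVec, v0] using this
  exact H1.Sp4.span_two (H1.Sp4.finrank_ker_sing h2 s0 qs).le
    (k w (by rw [f_skew, h, neg_zero]) (f_self _)) kv v0 hw (k y h1 h3)

variable {Γ : Type*} [Group Γ] {p : ℕ} {ρ : Γ →* GW F} {N : Subgroup (GW F)}

namespace Cx

variable (h : Cx p ρ N)
include h

/-- abelian subgroups of exponent `p` have at most `|F|` elements -/
theorem card_le [Finite F] (h3 : p ≠ 3) {S : Type*} [CommGroup S] [Finite S] (u : S →* Γ)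
    (hu : Function.Injective u) (hS : ∀ a : S, a ^ p = 1) : Nat.card S ≤ Nat.card F := by
  have := Fact.mk h.prime
  have := h.char
  have o := h.prime.odd_of_ne_two h.ne2
  choose A a1 a2 using fun a => h.odd_lift o (g := u a) (by rw [← map_pow, hS, map_one])
  have cm : ∀ a b, A a * A b * (A a)⁻¹ = A b := fun a b => h.odd_unique o (a1 b) (by
    have := h.lf_mul (h.lf_mul (a1 a) (a1 b)) (h.lf_inv (a1 a))
    rwa [← map_inv, ← map_mul u, ← map_mul u, mul_inv_cancel_comm] at this) (a2 b)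
    (by rw [conj_pow, a2]; simp)
  let τ : S →* GL I4 F := MonoidHom.mk' A fun a b => (h.odd_unique o (a1 (a * b))
    (by rw [map_mul u]; exact h.lf_mul (a1 a) (a1 b)) (a2 _) (by
      rw [Commute.mul_pow (mul_inv_eq_iff_eq_mul.1 (cm a b)), a2, a2, one_mul])).symm
  let r : Representation F S (I4 → F) :=
    (toLinAlgEquiv' (R := F) (n := I4)).toMulEquiv.toMonoidHom.comp ((Units.coeHom _).comp τ)
  have hr : ∀ a x, r a x = (A a).1 *ᵥ x := fun _ _ => rfl
  have pg : IsPGroup p S := fun a => ⟨1, by rw [pow_one, hS]⟩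
  obtain ⟨v, -, v0, hv⟩ := exists_fix_mod pg r (U := ⊥) (U' := ⊤) (by simp) (by simp) (by simp)
  simp only [Submodule.mem_bot, sub_eq_zero, hr] at v0 hv
  let f := H7.bilinOf (H7.isSymplecticForm_sympForm 2 F).bilinear
  obtain ⟨w, w1, w2, hw⟩ := exists_fix_mod pg r (U := F ∙ v) (U' := LinearMap.ker (f v))
    (fun a x hx => by
      obtain ⟨c, rfl⟩ := Submodule.mem_span_singleton.1 hx
      rwa [map_smul, hr, hv])
    (fun a x hx => by
      rw [LinearMap.mem_ker, ← hv a, hr]
      exact (mem_sp.1 (a1 a).1 v x).trans hx)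
    (fun c => by
      have a := Submodule.finrank_mono c
      have b := (f v).finrank_range_add_finrank_ker
      have d := (LinearMap.range (f v)).finrank_le
      rw [finrank_span_singleton v0] at a
      rw [finrank_self] at d
      have := (add_le_add d a).trans' b.ge
      simp at this)
  choose c hc using fun a => Submodule.mem_span_singleton.1 (hw a)
  refine Nat.card_le_card_of_injective c fun a b e => ?_
  have k1 : (A (b⁻¹ * a)).1 *ᵥ w = w := by
    have : (A a).1 *ᵥ w = (A b).1 *ᵥ w := sub_left_injective (by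
      simp only [← hr]; rw [← hc, ← hc, e])
    rw [show A (b⁻¹ * a) = (A b)⁻¹ * A a from (map_mul τ _ _).trans (by rw [map_inv]; rfl),
      Units.val_mul, ← mulVec_mulVec, this, mulVec_mulVec, Units.inv_mul, one_mulVec]
  generalize hd : b⁻¹ * a = d at k1
  have k2 : ∀ x y, (A d).1 *ᵥ y = y → sympForm 2 F (((A d).1 - 1) *ᵥ x) y = 0 := fun x y hy => by
    rw [sub_mulVec, one_mulVec, f_sub]
    nth_rw 1 [← hy]
    rw [mem_sp.1 (a1 d).1, sub_self]
  rcases h.ns _ _ (a1 d) (mat_ext fun x => by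
    obtain ⟨α, β, e⟩ := mem_span_of_perp h.two v0
      (fun c e => w2 (Submodule.mem_span_singleton.2 ⟨c, e.symm⟩)) w1 (k2 x v (hv d)) (k2 x w k1)
    rw [← mulVec_mulVec, e]
    simp [mulVec_add, mulVec_smul, sub_mulVec, hv, k1]) with e | e
  · rw [← map_one u, hu.eq_iff, ← hd, inv_mul_eq_one] at e
    exact e.symm
  · exact absurd e.1 h3

theorem psl [Fintype F] [Fintype E] [CharP E p] (h3 : p ≠ 3) (e : Γ ≃* PSL(2, E)) :
    Fintype.card E = Fintype.card F := by
  have := Fact.mk h.prime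
  have := h.char
  obtain ⟨n, -, hn⟩ := FiniteField.card E p
  obtain ⟨m, hm⟩ : Odd (Fintype.card E) := hn ▸ (h.prime.odd_of_ne_two h.ne2).pow
  let π : SL(2, E) →* Γ := e.symm.toMonoidHom.comp (QuotientGroup.mk' _)
  have k0 : ∀ M, π M = 1 ↔ M ∈ Subgroup.center SL(2, E) := fun M => by
    simp [π, QuotientGroup.eq_one_iff]
  refine le_antisymm ?_ ?_
  · let u : Multiplicative E →* SL(2, E) := MonoidHom.mk'
      (fun a => ⟨!![1, a.toAdd; 0, 1], by simp⟩) fun a b => Subtype.ext
        (show _ = !![1, a.toAdd; 0, 1] * !![1, b.toAdd; 0, 1] by simp [add_comm])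
    simpa using h.card_le h3 (π.comp u) ((injective_iff_map_eq_one _).2 fun a ha => by
      obtain ⟨r, -, hr⟩ := Matrix.SpecialLinearGroup.mem_center_iff.1 ((k0 _).1 ha)
      have : scalar (Fin 2) r 0 1 = a.toAdd := congrFun (congrFun hr 0) 1
      simpa using this.symm) fun a => by
        rw [← ofAdd_toAdd a, ← ofAdd_nsmul]; simp
  have k1 : ∀ (M : SL(2, E)) (A : GL I4 F) (j : ℕ), Lf A (ρ (π M)) → M ^ j = 1 ∨ M ^ j = -1 →
      A ^ j * A ^ j = 1 := fun M A j a b => by
    rcases h.pm (h.lf_pow a j) (by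
      rw [← map_pow, k0]
      rcases b with b | b <;> rw [b]
      exacts [one_mem _, Subgroup.mem_center_iff.2 (by simp)]) with c | c <;> simp [c]
  have := h.tr (RingHom.eqLocusField (iterateFrobenius F p n) (RingHom.id F)) fun g A a => by
    obtain ⟨M, rfl⟩ : ∃ M, π M = g := e.symm.surjective.comp (QuotientGroup.mk'_surjective _) g
    change A.1.trace ^ p ^ (n : ℕ) = A.1.trace
    rcases sl2_cases (p := p) hm M with c | c | c
    · refine (iterateFrobenius F p n).injective ?_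
      change (A.1.trace ^ p ^ (n : ℕ)) ^ p ^ (n : ℕ) = A.1.trace ^ p ^ (n : ℕ)
      rw [← frob_trace h.ne2 a.1, ← frob_trace h.ne2 (pow_mem a.1 _), ← hn, hm,
        pow_succ (A ^ _), pow_mul, pow_two, k1 M A _ a c, one_pow, one_mul]
    · rw [← frob_trace h.ne2 a.1, ← hn, hm, pow_succ, two_mul, pow_add, k1 M A _ a c, one_mul]
    · rw [← frob_trace h.ne2 a.1, ← hn, hm, ← (Adj.sp a.1).trace, eq_inv_of_mul_eq_one_left
        (show A ^ (2 * m + 1) * A = 1 by rw [← k1 M A _ a c, ← pow_add, ← pow_succ]; congr 1; ring)]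
  have d := (FiniteField.forall_pow_eq_one_iff F (2 * m)).1 fun x => by
    have : x.1 ^ p ^ (n : ℕ) = x.1 := (this ▸ Subfield.mem_top x.1 :
      x.1 ∈ RingHom.eqLocusField (iterateFrobenius F p n) (RingHom.id F))
    rw [← hn, hm, pow_succ, mul_eq_right₀ x.ne_zero] at this
    exact Units.ext (by simpa using this)
  have := Fintype.one_lt_card (α := E)
  have := Nat.le_of_dvd (by omega) d
  omega

end Cx

end Cfsg.Agent.O5
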