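import Cfsg.Agent.O5.Basic

/-!
Reflections, Siegel maps, Witt's theorem and involutions in the five-dimensional model.
-/

set_option autoImplicit false
set_option linter.unusedSectionVars false

namespace Cfsg.Agent.O5

open Module Matrix H1.Spin5

variable {k : Type*} [Field k]

local notation "f" => sympForm 2 k

/-- minus the identity -/
def ng : GW k := LinearEquiv.neg k

@[simp] theorem ng_apply (x : W k) : (ng : GW k) x = -x := rfl

theorem ng_mul_ng : (ng : GW k) * ng = 1 := LinearEquiv.ext fun x => by simp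

theorem ng_comm (g : GW k) : ng * g = g * ng := LinearEquiv.ext fun x => by simp

theorem ng_iso : Iso (ng : GW k) := fun x y => by simp

theorem tv_self {v : W k} (hv : Q v ≠ 0) : tv v v = v := by
  rw [tv, B_self, mul_div_assoc, div_self hv]; module

theorem tv_perp {v x : W k} (h : B x v = 0) : tv v x = -x := by simp [tv, h]

theorem tv_tv {v : W k} (hv : Q v ≠ 0) (x : W k) : tv v (tv v x) = x := by
  have : B (tv v x) v = B x v := by
    simp only [tv, map_sub, map_smul, LinearMap.sub_apply, LinearMap.smul_apply, B_self, smul_eq_mul]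
    field_simp; ring
  rw [tv, this, tv]; module

/-- `t_v` as a linear map -/
def tL (v : W k) : W k →ₗ[k] W k where
  toFun := tv v
  map_add' x y := by simp only [tv, map_add, LinearMap.add_apply, add_div]; module
  map_smul' c x := by
    simp only [tv, map_smul, LinearMap.smul_apply, smul_eq_mul, RingHom.id_apply, mul_div_assoc]
    module

/-- `t_v` as a linear equivalence -/
def tE {v : W k} (hv : Q v ≠ 0) : GW k :=
  { tL v with invFun := tv v, left_inv := tv_tv hv, right_inv := tv_tv hv }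

@[simp] theorem tE_apply {v : W k} (hv : Q v ≠ 0) (x : W k) : tE hv x = tv v x := rfl

theorem tE_isT {v : W k} (hv : Q v ≠ 0) : IsT v (tE hv) := ⟨hv, fun _ => rfl⟩

theorem IsT.eq {v : W k} {g : GW k} (h : IsT v g) : g = tE h.1 := LinearEquiv.ext h.2

theorem IsT.sq {v : W k} {g : GW k} (h : IsT v g) : g * g = 1 :=
  LinearEquiv.ext fun x => by rw [LinearEquiv.mul_apply, h.2, h.2, tv_tv h.1]; rfl

theorem IsT.smul {v : W k} {g : GW k} (h : IsT v g) {c : k} (hc : c ≠ 0) : IsT (c • v) g :=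
  ⟨by rw [Q_smul]; exact mul_ne_zero (pow_ne_zero _ hc) h.1, fun x => by
    have := h.1
    rw [h.2, tv, tv, Q_smul, map_smul, smul_smul, smul_eq_mul]
    congr 2; field_simp⟩

theorem IsT.iso {v : W k} {g : GW k} (h : IsT v g) : Iso g := fun x y => by
  have := h.1
  simp only [h.2, tv, map_sub, map_smul, LinearMap.sub_apply, LinearMap.smul_apply, B_self,
    smul_eq_mul, B_comm v]
  field_simp; ring

theorem IsT.conj (h2 : (2 : k) ≠ 0) {v : W k} {g γ : GW k} (h : IsT v g) (hγ : Iso γ) :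
    IsT (γ v) (γ * g * γ⁻¹) :=
  ⟨by rw [hγ.Q_eq h2]; exact h.1, fun x => by
    simp only [LinearEquiv.mul_apply, h.2, tv, map_sub, map_smul, hγ.Q_eq h2]
    rw [B_comm x, hγ.swap, B_comm v]; simp⟩

theorem ψ_tv {v : W k} (hv : Q v ≠ 0) (x : W k) : ψ (tv v x) * ψ v = ψ v * ψ x := by
  rw [tv, map_sub, map_smul, sub_mul, smul_mul_assoc, ψ_mul_self, smul_smul, div_mul_cancel₀ _ hv,
    ← ψ_add_swap]
  abel

/-- the lift of `t_v` -/
def tA (v : W k) (c : k) (hc : c * c * Q v = 1) : GL I4 k where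
  val := c • ψ v
  inv := c • ψ v
  val_inv := by rw [smul_mul_smul_comm, ψ_mul_self, smul_smul, hc, one_smul]
  inv_val := by rw [smul_mul_smul_comm, ψ_mul_self, smul_smul, hc, one_smul]

theorem lf_tA {v : W k} {g : GW k} (h : IsT v g) (c : k) (hc : c * c * Q v = 1) : Lf (tA v c hc) g :=
  ⟨mem_sp.2 fun x y => by
      change f ((c • ψ v) *ᵥ x) ((c • ψ v) *ᵥ y) = _
      rw [smul_mulVec, smul_mulVec, f_smul, f_smul', ψ_sa, mulVec_mulVec, ψ_mul_self, smul_mulVec,
        one_mulVec, f_smul', ← mul_assoc, ← mul_assoc, hc, one_mul],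
    fun x => by
      change _ * (c • ψ v) = (c • ψ v) * _
      rw [h.2, mul_smul_comm, ψ_tv h.1, smul_mul_assoc]⟩

theorem exists_norm [IsAlgClosed k] {a : k} (ha : a ≠ 0) : ∃ c : k, c ≠ 0 ∧ c * c * a = 1 := by
  obtain ⟨c, hc⟩ := IsAlgClosed.exists_eq_mul_self a⁻¹
  refine ⟨c, ?_, by rw [← hc, inv_mul_cancel₀ ha]⟩
  rintro rfl
  simp [ha] at hc

theorem exists_unit [IsAlgClosed k] {v : W k} (hv : Q v ≠ 0) : ∃ c : k, c ≠ 0 ∧ Q (c • v) = 1 := by
  obtain ⟨c, h0, hc⟩ := exists_norm hv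
  exact ⟨c, h0, by rw [Q_smul, sq, hc]⟩

theorem IsT.mem_Om [IsAlgClosed k] {v : W k} {g : GW k} (h : IsT v g) : g ∈ Om k := by
  obtain ⟨c, -, hc⟩ := exists_norm h.1
  exact O5.mem_Om.2 ⟨_, lf_tA h c hc⟩

/-- products of two maps `t_v` with the same norm lift over any field -/
theorem lf_tt {u v : W k} {g g' : GW k} (h : IsT u g) (h' : IsT v g') (e : Q u = Q v) :
    ∃ A : GL I4 k, (A : Matrix I4 I4 k) = (Q v)⁻¹ • (ψ u * ψ v) ∧ Lf A (g * g') := by
  have h0 := h'.1
  have a1 : ∀ x y : W k, Q x = Q v → Q y = Q v →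
      ((Q v)⁻¹ • (ψ x * ψ y)) * ((Q v)⁻¹ • (ψ y * ψ x)) = 1 := fun x y hx hy => by
    rw [smul_mul_smul_comm, mul_assoc, ← mul_assoc (ψ y), ψ_mul_self, smul_mul_assoc, one_mul,
      mul_smul_comm, ψ_mul_self, hx, hy, smul_smul, smul_smul]
    rw [show (Q v)⁻¹ * (Q v)⁻¹ * Q v * Q v = 1 by field_simp, one_smul]
  refine ⟨⟨_, _, a1 u v e rfl, a1 v u rfl e⟩, rfl, mem_sp.2 fun x y => ?_, fun x => ?_⟩
  · change f (((Q v)⁻¹ • (ψ u * ψ v)) *ᵥ x) (((Q v)⁻¹ • (ψ u * ψ v)) *ᵥ y) = _
    rw [smul_mulVec, smul_mulVec, f_smul, f_smul', ← mulVec_mulVec, ← mulVec_mulVec, ψ_sa,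
      mulVec_mulVec _ (ψ u), ψ_mul_self, smul_mulVec, one_mulVec, f_smul', ψ_sa, mulVec_mulVec,
      ψ_mul_self, smul_mulVec, one_mulVec, f_smul', e]
    field_simp
  · change _ * ((Q v)⁻¹ • (ψ u * ψ v)) = ((Q v)⁻¹ • (ψ u * ψ v)) * _
    rw [LinearEquiv.mul_apply, h.2, h'.2, mul_smul_comm, ← mul_assoc, ψ_tv h.1, mul_assoc,
      ψ_tv h'.1, smul_mul_assoc, mul_assoc]

section sg

variable {s m : W k}

theorem sg_sg (hs : Q s = 0) {m' : W k} (hm' : B m' s = 0) (x : W k) :
    sg s m (sg s m' x) = sg s (m + m') x + (B x s * B m s) • m' + (B x s * B m s * Q m') • s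
      - (B x s * B m s) • m' - (B x s * B m s * Q m') • s +
        ((B x m' + Q m' * B x s) * B m s) • s := by
  have a1 : B s s = 0 := by rw [B_self, hs, mul_zero]
  simp only [sg, map_add, map_sub, map_smul, LinearMap.add_apply, LinearMap.sub_apply,
    LinearMap.smul_apply, smul_eq_mul, a1, hm', Q_add, B_comm s m, B_comm m' m]
  module

theorem sg_comp (hs : Q s = 0) (hm : B m s = 0) {m' : W k} (hm' : B m' s = 0) (x : W k) :
    sg s m (sg s m' x) = sg s (m + m') x := by
  rw [sg_sg hs hm', hm]; simp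

@[simp] theorem sg_zero (x : W k) : sg s 0 x = x := by simp [sg]

theorem sg_add_smul (hs : Q s = 0) (hm : B m s = 0) (c : k) (x : W k) :
    sg s (m + c • s) x = sg s m x := by
  simp only [sg, map_add, map_smul, smul_eq_mul, Q_add, Q_smul, hs, hm]
  module

theorem sg_smul (c : k) (x : W k) : sg (c • s) m x = sg s (c • m) x := by
  simp only [sg, map_smul, smul_eq_mul, Q_smul]
  module

/-- the Siegel map as a linear map -/
def sgL (s m : W k) : W k →ₗ[k] W k where
  toFun := sg s m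
  map_add' x y := by simp only [sg, map_add, LinearMap.add_apply]; module
  map_smul' c x := by
    simp only [sg, map_smul, LinearMap.smul_apply, smul_eq_mul, RingHom.id_apply]; module

/-- the Siegel map as a linear equivalence -/
def sgE (hs : Q s = 0) (hm : B m s = 0) : GW k :=
  { sgL s m with
    invFun := sg s (-m)
    left_inv := fun x => by
      change sg s (-m) (sg s m x) = x
      rw [sg_comp hs (by simp [hm]) hm]; simp
    right_inv := fun x => by
      change sg s m (sg s (-m) x) = x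
      rw [sg_comp hs hm (by simp [hm])]; simp }

@[simp] theorem sgE_apply (hs : Q s = 0) (hm : B m s = 0) (x : W k) : sgE hs hm x = sg s m x := rfl

theorem sgE_isE (hs : Q s = 0) (hm : B m s = 0) : IsE s m (sgE hs hm) := ⟨hs, hm, fun _ => rfl⟩

theorem IsE.lf (h2 : (2 : k) ≠ 0) {g : GW k} (h : IsE s m g) : Lf (lift h.1 h.2.1) g :=
  ⟨lift_mem h.1 h.2.1, lift_rel h.1 h.2.1 h2 fun x => by rw [h.2.2, H8.qP_eich]; rfl⟩

theorem IsE.mem_Om (h2 : (2 : k) ≠ 0) {g : GW k} (h : IsE s m g) : g ∈ Om k :=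
  O5.mem_Om.2 ⟨_, h.lf h2⟩

theorem IsE.mul {m' : W k} {g g' : GW k} (h : IsE s m g) (h' : IsE s m' g') :
    IsE s (m + m') (g * g') :=
  ⟨h.1, by simp [h.2.1, h'.2.1], fun x => by
    rw [LinearEquiv.mul_apply, h.2.2, h'.2.2, sg_comp h.1 h.2.1 h'.2.1]⟩

theorem IsE.one (hs : Q s = 0) : IsE s 0 1 := ⟨hs, by simp, fun x => by simp⟩

theorem IsE.inv {g : GW k} (h : IsE s m g) : IsE s (-m) g⁻¹ :=
  ⟨h.1, by simp [h.2.1], fun x => by
    apply g.injective
    rw [h.2.2 (sg _ _ _), sg_comp h.1 h.2.1 (by simp [h.2.1])]; simp⟩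

theorem IsE.pow {g : GW k} (h : IsE s m g) (n : ℕ) : IsE s ((n : k) • m) (g ^ n) := by
  induction n with
  | zero => simpa using IsE.one h.1
  | succ n ih => rw [pow_succ, Nat.cast_succ, add_smul, one_smul]; exact ih.mul h

theorem IsE.conj (h2 : (2 : k) ≠ 0) {g γ : GW k} (h : IsE s m g) (hγ : Iso γ) :
    IsE (γ s) (γ m) (γ * g * γ⁻¹) :=
  ⟨by rw [hγ.Q_eq h2, h.1], by rw [hγ, h.2.1], fun x => by
    simp only [LinearEquiv.mul_apply, h.2.2, sg, map_sub, map_add, map_smul, hγ.Q_eq h2]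
    rw [B_comm x, hγ.swap, B_comm x, hγ.swap, B_comm s, B_comm m]; simp⟩

theorem IsE.fix {g : GW k} (h : IsE s m g) {x : W k} (h1 : B x s = 0) (h2 : B x m = 0) :
    g x = x := by simp [h.2.2, sg, h1, h2]

theorem IsE.fix_s {g : GW k} (h : IsE s m g) : g s = s :=
  h.fix (by rw [B_self, h.1, mul_zero]) (by rw [B_comm, h.2.1])

end sg

/-! ### Orthogonal complements -/

theorem exists_B_eq (h2 : (2 : k) ≠ 0) (φ : Dual k (W k)) : ∃ y, ∀ x, B x y = φ x := by
  obtain ⟨y, hy⟩ := (LinearMap.BilinForm.toDual B (B_nondeg h2)).surjective φ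
  exact ⟨y, fun x => by rw [← hy, LinearMap.BilinForm.toDual_def, B_comm]⟩

theorem exists_sep (h2 : (2 : k) ≠ 0) {U : Submodule k (W k)} {v : W k} (hv : v ∉ U) (a : k) :
    ∃ y, (∀ u ∈ U, B u y = 0) ∧ B v y = a := by
  obtain ⟨φ, h1, h3⟩ := H7.exists_dual_one hv
  obtain ⟨y, hy⟩ := exists_B_eq h2 (a • φ)
  exact ⟨y, fun u hu => by simp [hy, h3 u hu], by simp [hy, h1]⟩

theorem mem_of_perp_perp (h2 : (2 : k) ≠ 0) {U : Submodule k (W k)} {v : W k}
    (h : ∀ y, (∀ u ∈ U, B u y = 0) → B v y = 0) : v ∈ U := by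
  by_contra hv
  obtain ⟨y, h1, h3⟩ := exists_sep h2 hv 1
  rw [h y h1] at h3
  exact zero_ne_one h3

theorem mem_orth {U : Submodule k (W k)} {y : W k} :
    y ∈ (B : LinearMap.BilinForm k (W k)).orthogonal U ↔ ∀ u ∈ U, B u y = 0 := Iff.rfl

theorem finrank_orth (h2 : (2 : k) ≠ 0) (U : Submodule k (W k)) :
    finrank k ((B : LinearMap.BilinForm k (W k)).orthogonal U) + finrank k U = 5 := by
  rw [LinearMap.BilinForm.finrank_orthogonal (B_nondeg h2), finrank_W]
  have := Submodule.finrank_le U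
  rw [finrank_W] at this
  omega

/-- a singular vector outside `U` and orthogonal to `U` has a singular partner in `U^⊥` -/
theorem exists_hyp (h2 : (2 : k) ≠ 0) {U : Submodule k (W k)} {d : W k} (hd : Q d = 0) (hdU : d ∉ U)
    (hp : ∀ u ∈ U, B u d = 0) : ∃ e, (∀ u ∈ U, B u e = 0) ∧ Q e = 0 ∧ B d e = 1 := by
  obtain ⟨y, hy, hdy⟩ := exists_sep h2 hdU 1
  refine ⟨y - Q y • d, fun u hu => by simp [hy u hu, hp u hu], ?_, by simp [hdy, B_self, hd]⟩
  rw [Q_sub, Q_smul, hd, map_smul, B_comm, hdy]; simp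

theorem exists_hyp' (h2 : (2 : k) ≠ 0) {d : W k} (hd : Q d = 0) (h0 : d ≠ 0) :
    ∃ e, Q e = 0 ∧ B d e = 1 := by
  obtain ⟨e, -, h⟩ := exists_hyp h2 (U := ⊥) hd (by simpa using h0) (by simp)
  exact ⟨e, h⟩

/-! ### Witt's theorem -/

variable (k) in
/-- `Om` extended by `-1` -/
def Op : Subgroup (GW k) where
  carrier := {g | g ∈ Om k ∨ ng * g ∈ Om k}
  one_mem' := Or.inl (one_mem _)
  mul_mem' {a b} ha hb := by
    rcases ha with ha | ha <;> rcases hb with hb | hb
    · exact Or.inl (mul_mem ha hb)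
    · exact Or.inr (by
        have := mul_mem ha hb
        rwa [← mul_assoc, ← ng_comm, mul_assoc] at this)
    · exact Or.inr (by rw [← mul_assoc]; exact mul_mem ha hb)
    · exact Or.inl (by
        have := mul_mem ha hb
        rwa [ng_comm, mul_assoc, ← mul_assoc ng, ng_mul_ng, one_mul] at this)
  inv_mem' {a} ha := by
    rcases ha with ha | ha
    · exact Or.inl (inv_mem ha)
    · exact Or.inr (by
        have := inv_mem ha
        rwa [_root_.mul_inv_rev, inv_eq_of_mul_eq_one_right ng_mul_ng, ← ng_comm] at this)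

theorem Op_iso {g : GW k} (h : g ∈ Op k) : Iso g := by
  rcases h with h | h
  · exact Om_iso h
  · have := ng_iso.mul (Om_iso h)
    rwa [← mul_assoc, ng_mul_ng, one_mul] at this

variable [IsAlgClosed k]

theorem move (U : Submodule k (W k)) {v v' : W k} (hB : ∀ u ∈ U, B u v = B u v') (hc : Q v = Q v')
    (h : B v (v - v') ≠ 0) : ∃ t ∈ Op k, (∀ u ∈ U, t u = u) ∧ t v = v' := by
  have h1 : Q (v - v') = B v (v - v') := by rw [Q_sub, map_sub, B_self, hc]; ring
  have h0 : Q (v - v') ≠ 0 := h1 ▸ h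
  refine ⟨ng * tE h0, Or.inr ?_, fun u hu => ?_, ?_⟩
  · rw [← mul_assoc, ng_mul_ng, one_mul]; exact (tE_isT h0).mem_Om
  · simp [tv, hB u hu]
  · simp only [LinearEquiv.mul_apply, tE_apply, tv, ng_apply, h1, div_self h]
    module

theorem witt_step (h2 : (2 : k) ≠ 0) {U : Submodule k (W k)} {v v' : W k} (hv : v ∉ U)
    (hv' : v' ∉ U) (hB : ∀ u ∈ U, B u v = B u v') (hc : Q v = Q v') :
    ∃ t ∈ Op k, (∀ u ∈ U, t u = u) ∧ t v = v' := by
  by_cases h : B v (v - v') = 0
  swap
  · exact move U hB hc h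
  obtain ⟨d, rfl⟩ : ∃ d, v' = v + d := ⟨v' - v, by simp⟩
  have h' : B v d = 0 := by simpa using h
  have hd : Q d = 0 := by rw [Q_add, h'] at hc; linear_combination -hc
  have hdd : B d d = 0 := by rw [B_self, hd, mul_zero]
  have hdU : ∀ u ∈ U, B u d = 0 := fun u hu => by simpa using hB u hu
  by_cases h1 : v ∈ U ⊔ k ∙ d
  · obtain ⟨u0, hu0, a, rfl⟩ := H7.mem_sup_span_singleton.1 h1
    have ha : a ≠ 0 := by rintro rfl; simp [hu0] at hv
    have ha' : a + 1 ≠ 0 := by
      intro h0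
      apply hv'
      rw [add_assoc, ← one_smul k d, smul_smul, mul_one, ← add_smul, h0]
      simpa using hu0
    have hdU' : d ∉ U := fun h => hv (U.add_mem hu0 (U.smul_mem _ h))
    obtain ⟨e, he, he0, hde⟩ := exists_hyp h2 hd hdU' hdU
    obtain ⟨t1, ht1, ht1U, ht1d⟩ := move U (v := d) (v' := e) (fun u hu => by
      rw [hdU u hu, he u hu]) (by rw [hd, he0]) (by simp [hde, hdd])
    obtain ⟨t2, ht2, ht2U, ht2d⟩ := move U (v := e) (v' := ((a + 1) / a) • d) (fun u hu => by
      simp [hdU u hu, he u hu]) (by rw [Q_smul, hd, he0, mul_zero]) (by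
        simp [B_self, he0, B_comm e d, hde, ha, -map_add, ha'])
    refine ⟨t2 * t1, mul_mem ht2 ht1, fun u hu => by simp [ht1U u hu, ht2U u hu], ?_⟩
    simp only [LinearEquiv.mul_apply, map_add, map_smul, ht1U u0 hu0, ht2U u0 hu0, ht1d, ht2d,
      smul_smul]
    rw [mul_div_cancel₀ _ ha]
    module
  · obtain ⟨w, hw, hvw⟩ := exists_sep h2 h1 (-1)
    have hw2 : B w d = 0 := by
      rw [B_comm]; exact hw d (Submodule.mem_sup_right (Submodule.mem_span_singleton_self d))
    refine ⟨sgE hd hw2, Or.inl ((sgE_isE hd hw2).mem_Om h2), fun u hu => ?_, ?_⟩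
    · exact (sgE_isE hd hw2).fix (hdU u hu) (hw u (Submodule.mem_sup_left hu))
    · simp [sg, h', hvw]

/-- **Witt's theorem**. -/
theorem witt (h2 : (2 : k) ≠ 0) (φ : W k →ₗ[k] W k) (U : Submodule k (W k))
    (hinj : ∀ u ∈ U, φ u = 0 → u = 0) (hB : ∀ u ∈ U, ∀ u' ∈ U, B (φ u) (φ u') = B u u') :
    ∃ g ∈ Op k, ∀ u ∈ U, g u = φ u := by
  classical
  obtain ⟨s, rfl⟩ : U.FG := IsNoetherian.noetherian U
  induction s using Finset.induction_on with
  | empty => exact ⟨1, one_mem _, by simp⟩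
  | insert v s _ ih =>
    have hle : Submodule.span k (s : Set (W k)) ≤ Submodule.span k (insert v s : Finset (W k)) :=
      Submodule.span_mono (by simp)
    have hvm : v ∈ Submodule.span k (insert v s : Finset (W k)) := Submodule.subset_span (by simp)
    have hsup : Submodule.span k ((insert v s : Finset (W k)) : Set (W k)) =
        Submodule.span k (s : Set (W k)) ⊔ k ∙ v := by
      rw [Finset.coe_insert, Submodule.span_insert, sup_comm]
    obtain ⟨g, hg, hgU⟩ := ih (fun u hu => hinj u (hle hu))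
      (fun u hu u' hu' => hB u (hle hu) u' (hle hu'))
    by_cases hv : v ∈ Submodule.span k (s : Set (W k))
    · refine ⟨g, hg, fun u hu => hgU u ?_⟩
      rw [hsup] at hu
      exact (sup_le le_rfl (by simpa using hv) : _ ⊔ k ∙ v ≤ _) hu
    · obtain ⟨v', hv'⟩ := g.surjective (φ v)
      obtain ⟨t, ht, htU, htv⟩ := witt_step h2 (v' := v') hv (fun h => by
        have h1 := hinj (v - v') (Submodule.sub_mem _ hvm (hle h))
          (by rw [map_sub, ← hgU v' h, hv', sub_self])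
        exact hv (sub_eq_zero.1 h1 ▸ h)) (fun u hu => by
          rw [← Op_iso hg u v', hgU u hu, hv', hB u (hle hu) v hvm])
          (mul_left_cancel₀ h2 (by rw [← B_self, ← B_self, ← Op_iso hg v' v', hv', hB v hvm v hvm]))
      refine ⟨g * t, mul_mem hg ht, fun u hu => ?_⟩
      rw [hsup] at hu
      obtain ⟨u0, hu0, a, rfl⟩ := H7.mem_sup_span_singleton.1 hu
      simp [htU u0 hu0, htv, hgU u0 hu0, hv']

/-- Witt's theorem for linearly independent families -/
theorem witt_fam (h2 : (2 : k) ≠ 0) {ι : Type*} {a b : ι → W k} (ha : LinearIndependent k a)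
    (hb : LinearIndependent k b) (hB : ∀ i j, B (b i) (b j) = B (a i) (a j)) :
    ∃ g ∈ Op k, ∀ i, g (a i) = b i := by
  obtain ⟨φ, hφ⟩ := LinearMap.exists_extend ((Finsupp.linearCombination k b).comp ha.repr)
  have e : ∀ u (hu : u ∈ Submodule.span k (Set.range a)),
      φ u = Finsupp.linearCombination k b (ha.repr ⟨u, hu⟩) := fun u hu =>
    LinearMap.congr_fun hφ ⟨u, hu⟩
  have ea : ∀ i, φ (a i) = b i := fun i => by
    rw [e _ (Submodule.subset_span ⟨i, rfl⟩), ha.repr_eq_single i _ rfl]; simp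
  obtain ⟨g, hg, h⟩ := witt h2 φ (Submodule.span k (Set.range a)) (fun u hu h0 => by
      rw [e u hu] at h0
      have := ha.linearCombination_repr ⟨u, hu⟩
      rw [(linearIndependent_iff.1 hb) _ h0] at this
      simpa using this.symm) (fun u hu u' hu' => by
      induction hu using Submodule.span_induction with
      | mem x hx =>
        obtain ⟨i, rfl⟩ := hx
        induction hu' using Submodule.span_induction with
        | mem y hy => obtain ⟨j, rfl⟩ := hy; rw [ea, ea, hB]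
        | zero => simp
        | add y z _ _ hy hz => simp only [map_add, hy, hz]
        | smul c y _ hy => simp only [map_smul, hy]
      | zero => simp
      | add y z _ _ hy hz => simp only [map_add, LinearMap.add_apply, hy, hz]
      | smul c y _ hy => simp only [map_smul, LinearMap.smul_apply, hy])
  exact ⟨g, hg, fun i => by rw [h _ (Submodule.subset_span ⟨i, rfl⟩), ea]⟩

/-- `O(W) = Om × ±1` -/
theorem Iso.mem_Op (h2 : (2 : k) ≠ 0) {g : GW k} (h : Iso g) : g ∈ Om k ∨ ng * g ∈ Om k := by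
  obtain ⟨g', hg', e⟩ := witt h2 (g : W k →ₗ[k] W k) ⊤ (fun u _ hu => by simpa using hu)
    (fun u _ u' _ => h u u')
  have : g = g' := LinearEquiv.ext fun x => (e x trivial).symm
  exact this ▸ hg'

omit [IsAlgClosed k] in
theorem ng_not_mem (h2 : (2 : k) ≠ 0) : ng ∉ Om k := by
  intro h
  obtain ⟨A, -, hA⟩ := mem_Om.1 h
  have e := fun l i j => congrFun (congrFun (hA (Pi.single l 1)) i) j
  simp only [Fin.forall_fin_succ, Sum.forall, IsEmpty.forall_iff, and_true] at e
  simp [ψ_def, mul_apply, Fintype.sum_sum_type, Fin.sum_univ_two] at e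
  have : (A : Matrix I4 I4 k) = 0 := by
    ext (i | i) (j | j) <;> fin_cases i <;> fin_cases j <;> simp <;>
      refine mul_left_cancel₀ h2 ?_ <;> grind
  exact A.ne_zero this

/-- adjusting an isometry by a reflection -/
theorem Op_adjust {g : GW k} (hg : g ∈ Op k) {z : W k} (hz : Q z ≠ 0) :
    ∃ g' ∈ Om k, ∀ u, B u z = 0 → g' u = g u := by
  rcases hg with h | h
  · exact ⟨g, h, fun _ _ => rfl⟩
  · exact ⟨ng * g * tE hz, mul_mem h (tE_isT hz).mem_Om, fun u hu => by simp [tv_perp hu]⟩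

/-! ### Involutions -/

/-- `g` is `-1` on the plane with orthonormal basis `w, u` and `+1` on its complement -/
def IsB (w u : W k) (g : GW k) : Prop :=
  Q w = 1 ∧ Q u = 1 ∧ B w u = 0 ∧ ∀ x, g x = x - B x w • w - B x u • u

omit [IsAlgClosed k] in
theorem IsB.eq_tt {w u : W k} {g : GW k} (h : IsB w u g) :
    g = tE (v := w) (by rw [h.1]; exact one_ne_zero) * tE (v := u) (by rw [h.2.1]; exact one_ne_zero) :=
  LinearEquiv.ext fun x => by
    simp only [h.2.2.2, LinearEquiv.mul_apply, tE_apply, tv, h.1, h.2.1, div_one, map_sub, map_smul,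
      LinearMap.sub_apply, LinearMap.smul_apply, B_comm u w, h.2.2.1]
    module

theorem IsB.mem_Om {w u : W k} {g : GW k} (h : IsB w u g) : g ∈ Om k := by
  rw [h.eq_tt]; exact mul_mem (tE_isT _).mem_Om (tE_isT _).mem_Om

theorem exists_neg (h2 : (2 : k) ≠ 0) {g : GW k} (h : Iso g) (hg : ∀ x, g (g x) = x) (h1 : g ≠ 1) :
    ∃ w, Q w = 1 ∧ g w = -w := by
  by_contra hc
  push Not at hc
  have a1 : ∀ w, g w = -w → Q w = 0 := fun w hw => by
    by_contra h0
    obtain ⟨c, -, e⟩ := exists_unit h0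
    exact hc _ e (by rw [map_smul, hw, smul_neg])
  refine h1 (LinearEquiv.ext fun x => (sub_eq_zero.1 (B_nd h2 fun y => ?_)))
  have a2 : ∀ x, g (g x - x) = -(g x - x) := fun x => by rw [map_sub, hg, neg_sub]
  have a3 := a1 (g x - x + (g y - y)) (by rw [map_add, a2, a2, neg_add])
  rw [Q_add, a1 _ (a2 x), a1 _ (a2 y)] at a3
  have a4 := h (g x - x) (g y)
  rw [a2, hg] at a4
  simp only [map_sub, map_neg, LinearMap.sub_apply, LinearMap.neg_apply, LinearEquiv.coe_one,
    id] at a3 a4 ⊢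
  exact mul_left_cancel₀ h2 (by linear_combination -a3 - a4)

theorem inv_chain (h2 : (2 : k) ≠ 0) {g : GW k} (h : Iso g) (hg : ∀ x, g (g x) = x) :
    g = 1 ∨ (∃ w, Q w = 1 ∧ ∀ x, g x = x - B x w • w) ∨ (∃ w u, IsB w u g) ∨
      ∃ a b c, Q a = 1 ∧ Q b = 1 ∧ Q c = 1 ∧ B a b = 0 ∧ B a c = 0 ∧ B b c = 0 ∧
        g a = -a ∧ g b = -b ∧ g c = -c := by
  have step : ∀ {g : GW k}, Iso g → (∀ x, g (g x) = x) → g ≠ 1 → ∃ w, ∃ g' : GW k, Q w = 1 ∧
      g w = -w ∧ Iso g' ∧ (∀ x, g' (g' x) = x) ∧ (∀ x, g x = g' x - B x w • w) ∧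
      ∀ x, g' x = -x → B x w = 0 := by
    intro g h hg h1
    obtain ⟨w, hw, hn⟩ := exists_neg h2 h hg h1
    have h0 : Q w ≠ 0 := by rw [hw]; exact one_ne_zero
    have e : ∀ x, (g * (ng * tE h0) : GW k) x = g x + B x w • w := fun x => by
      simp [tv, hw, hn]
    have e2 : ∀ x, B (g x) w = -B x w := fun x => by
      rw [← h x w, hn, map_neg, neg_neg]
    refine ⟨w, g * (ng * tE h0), hw, hn, h.mul (ng_iso.mul (tE_isT h0).iso), fun x => ?_,
      fun x => by rw [e]; simp, fun x hx => ?_⟩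
    · rw [e, e]
      simp only [map_add, map_smul, hg, hn, LinearMap.add_apply, LinearMap.smul_apply, e2, B_self, hw,
        smul_eq_mul]
      module
    · have := congrArg (fun y => B y w) hx
      simp only [e, map_add, map_smul, LinearMap.add_apply, LinearMap.smul_apply, e2, B_self, hw,
        smul_eq_mul, map_neg, LinearMap.neg_apply] at this
      exact mul_left_cancel₀ h2 (by linear_combination this)
  by_cases h1 : g = 1
  · exact Or.inl h1
  obtain ⟨a, g1, a1, a2, a3, a4, a5, a6⟩ := step h hg h1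
  by_cases h1 : g1 = 1
  · exact Or.inr (Or.inl ⟨a, a1, fun x => by rw [a5, h1]; rfl⟩)
  obtain ⟨b, g2, b1, b2, b3, b4, b5, b6⟩ := step a3 a4 h1
  have hab := a6 b b2
  by_cases h1 : g2 = 1
  · exact Or.inr (Or.inr (Or.inl ⟨a, b, a1, b1, by rw [B_comm, hab], fun x => by
      rw [a5, b5, h1]; simp only [LinearEquiv.coe_one, id]; abel⟩))
  obtain ⟨c, g3, c1, c2, -⟩ := step b3 b4 h1
  have hbc := b6 c c2
  have c3 : g1 c = -c := by rw [b5, c2, hbc]; simp
  have hac := a6 c c3
  exact Or.inr (Or.inr (Or.inr ⟨a, b, c, a1, b1, c1, by rw [B_comm, hab], by rw [B_comm, hac],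
    by rw [B_comm, hbc], a2, by rw [a5, b2, hab]; simp, by rw [a5, c3, hac]; simp⟩))

omit [IsAlgClosed k] in
theorem li_of_orth (h2 : (2 : k) ≠ 0) {ι : Type*} {v : ι → W k} (h0 : ∀ i, Q (v i) ≠ 0)
    (h : ∀ i j, i ≠ j → B (v i) (v j) = 0) : LinearIndependent k v :=
  LinearMap.BilinForm.linearIndependent_of_iIsOrtho (B := B) (fun i j hij => h i j hij)
    fun i e => mul_ne_zero h2 (h0 i) (by rw [← B_self]; exact e)

omit [IsAlgClosed k] in
theorem card_le_of_orth (h2 : (2 : k) ≠ 0) {ι : Type*} [Fintype ι] {v : ι → W k}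
    (h0 : ∀ i, Q (v i) ≠ 0) (h : ∀ i j, i ≠ j → B (v i) (v j) = 0) : Fintype.card ι ≤ 5 := by
  simpa using (li_of_orth h2 h0 h).fintype_card_le_finrank

/-- every involution of `Om` is of type A or of type B -/
theorem inv_type (h2 : (2 : k) ≠ 0) {g : GW k} (h : g ∈ Om k) (hg : g * g = 1) (h1 : g ≠ 1) :
    (∃ v, Q v = 1 ∧ IsT v g) ∨ ∃ w u, IsB w u g := by
  have hg' : ∀ x, g (g x) = x := fun x => by rw [← LinearEquiv.mul_apply, hg]; rfl
  have hn : ng * g ∉ Om k := fun e => ng_not_mem h2 (by simpa using mul_mem e (inv_mem h))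
  rcases inv_chain h2 (Om_iso h) hg' with e | ⟨w, hw, e⟩ | e | ⟨a, b, c, a1, a2, a3, a4, a5, a6, a7, a8, a9⟩
  · exact absurd e h1
  · refine absurd (IsT.mem_Om (v := w) ⟨by rw [hw]; exact one_ne_zero, fun x => ?_⟩) hn
    simp [e, tv, hw]
  · exact Or.inr e
  rcases inv_chain h2 (ng_iso.mul (Om_iso h)) (fun x => by simp [hg']) with
    e | ⟨w, hw, e⟩ | ⟨w, u, e⟩ | ⟨a', b', c', b1, b2, b3, b4, b5, b6, b7, b8, b9⟩
  · exact absurd (e ▸ one_mem _) hn
  · refine Or.inl ⟨w, hw, by rw [hw]; exact one_ne_zero, fun x => ?_⟩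
    have := e x
    simp only [LinearEquiv.mul_apply, ng_apply] at this
    rw [tv, hw, div_one, ← neg_sub, ← this, neg_neg]
  · exact absurd e.mem_Om hn
  simp only [LinearEquiv.mul_apply, ng_apply, neg_inj] at b7 b8 b9
  have pp : ∀ x y, g x = -x → g y = y → B x y = 0 := fun x y hx hy => by
    have := Om_iso h x y
    rw [hx, hy, map_neg, LinearMap.neg_apply] at this
    exact mul_left_cancel₀ h2 (by linear_combination -this)
  have := card_le_of_orth h2 (v := ![a, b, c, a', b', c'])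
    (fun i => by fin_cases i <;> simp [*]) (fun i j hij => by
      have := pp a a' a7 b7; have := pp a b' a7 b8; have := pp a c' a7 b9
      have := pp b a' a8 b7; have := pp b b' a8 b8; have := pp b c' a8 b9
      have := pp c a' a9 b7; have := pp c b' a9 b8; have := pp c c' a9 b9
      fin_cases i <;> fin_cases j <;> first | exact absurd rfl hij | assumption |
        (rw [B_comm]; assumption))
  simp at this

end Cfsg.Agent.O5
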