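import Cfsg.Agent.O5.So4

/-!
Homomorphisms to `PGL₂` from the stabiliser of a non-singular vector or a non-degenerate plane.
-/

set_option autoImplicit false
set_option linter.unusedSectionVars false

namespace Cfsg.Agent.O5

open Module Matrix H1.Spin5 H6.Pg
open scoped MatrixGroups

variable {k : Type*} [Field k]

theorem tv_add (v x y : W k) : tv v (x + y) = tv v x + tv v y := (tL v).map_add x y
theorem tv_sub (v x y : W k) : tv v (x - y) = tv v x - tv v y := (tL v).map_sub x y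
theorem tv_neg (v x : W k) : tv v (-x) = -tv v x := (tL v).map_neg x
theorem tv_smul (v : W k) (c : k) (x : W k) : tv v (c • x) = c • tv v x := (tL v).map_smul c x

/-- the stabiliser of a vector in `Om` -/
def stW (w : W k) : Subgroup (GW k) where
  carrier := {g | g ∈ Om k ∧ g w = w}
  one_mem' := ⟨one_mem _, rfl⟩
  mul_mem' ha hb := ⟨mul_mem ha.1 hb.1, by rw [LinearEquiv.mul_apply, hb.2, ha.2]⟩
  inv_mem' {a} ha := ⟨inv_mem ha.1, a.injective (by rw [ha.2]; simp)⟩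

theorem mem_stW {w : W k} {g : GW k} : g ∈ stW w ↔ g ∈ Om k ∧ g w = w := Iff.rfl

theorem pg_eq_one_of_det {A : M2 k} (hA : A.det = 1) : pg A = 1 ↔ A = 1 ∨ A = -1 := by
  constructor
  · intro h
    obtain ⟨h1, h2, h3⟩ := (pg_eq_one (by simp [hA])).1 h
    rw [det_fin_two, h1, ← h3, zero_mul, sub_zero] at hA
    rcases mul_self_eq_one_iff.1 hA with e | e
    · left; ext i j; fin_cases i <;> fin_cases j <;> simp [h1, h2, ← h3, e]
    · right; ext i j; fin_cases i <;> fin_cases j <;> simp [h1, h2, ← h3, e]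
  · rintro (rfl | rfl)
    · exact pg_one
    · rw [pg_neg, pg_one]

namespace M4

variable {w : W k} {φ : M2 k →ₗ[k] W k}

theorem pg_unique (h : M4 w φ) {g : GW k} {A D A' D' : M2 k} (a : Ac φ g A D)
    (a' : Ac φ g A' D') : pg A' = pg A ∧ pg D' = pg D := by
  rcases h.ac_unique a a' with ⟨rfl, rfl⟩ | ⟨rfl, rfl⟩
  · exact ⟨rfl, rfl⟩
  · exact ⟨pg_neg _, pg_neg _⟩

theorem exists_pi (h : M4 w φ) : ∃ π₁ π₂ : stW w →* PGL(2, k),
    ∀ (g : stW w) (A D : M2 k), Ac φ g A D → π₁ g = pg A ∧ π₂ g = pg D := by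
  choose A D hAD using fun g : stW w => h.act g g.2.1 g.2.2
  have key := fun a b : stW w => h.pg_unique ((hAD a).mul (hAD b)) (hAD (a * b))
  refine ⟨MonoidHom.mk' (fun g => pg (A g)) fun a b => ?_,
    MonoidHom.mk' (fun g => pg (D g)) fun a b => ?_, fun g A' D' e => h.pg_unique e (hAD g)⟩
  · rw [(key a b).1, pg_mul (by simp [(hAD a).1]) (by simp [(hAD b).1])]
  · rw [(key a b).2, pg_mul (by simp [(hAD a).2.1]) (by simp [(hAD b).2.1])]

/-- the first projection -/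
noncomputable def π₁ (h : M4 w φ) : stW w →* PGL(2, k) := h.exists_pi.choose

/-- the second projection -/
noncomputable def π₂ (h : M4 w φ) : stW w →* PGL(2, k) := h.exists_pi.choose_spec.choose

theorem π₁_eq (h : M4 w φ) {g : stW w} {A D : M2 k} (a : Ac φ g A D) : h.π₁ g = pg A :=
  (h.exists_pi.choose_spec.choose_spec g A D a).1

theorem π₂_eq (h : M4 w φ) {g : stW w} {A D : M2 k} (a : Ac φ g A D) : h.π₂ g = pg D :=
  (h.exists_pi.choose_spec.choose_spec g A D a).2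

theorem act' (h : M4 w φ) (g : stW w) : ∃ A D, Ac φ g A D := h.act g g.2.1 g.2.2

theorem π₁_eq_one (h : M4 w φ) {g : stW w} : h.π₁ g = 1 ↔ ∃ D, Ac φ g 1 D := by
  refine ⟨fun e => ?_, fun ⟨D, a⟩ => by rw [h.π₁_eq a, pg_one]⟩
  obtain ⟨A, D, a⟩ := h.act' g
  rw [h.π₁_eq a, pg_eq_one_of_det a.1] at e
  rcases e with rfl | rfl
  · exact ⟨D, a⟩
  · exact ⟨-D, by simpa using a.neg⟩

theorem π₂_eq_one (h : M4 w φ) {g : stW w} : h.π₂ g = 1 ↔ ∃ A, Ac φ g A 1 := by
  refine ⟨fun e => ?_, fun ⟨D, a⟩ => by rw [h.π₂_eq a, pg_one]⟩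
  obtain ⟨A, D, a⟩ := h.act' g
  rw [h.π₂_eq a, pg_eq_one_of_det a.2.1] at e
  rcases e with rfl | rfl
  · exact ⟨A, a⟩
  · exact ⟨-A, by simpa using a.neg⟩

/-- the kernel of both projections is `{1, t_w}` -/
theorem ker_pi (h : M4 w φ) {g : stW w} (e1 : h.π₁ g = 1) (e2 : h.π₂ g = 1) :
    (g : GW k) = 1 ∨ IsT w g := by
  obtain ⟨D, a⟩ := h.π₁_eq_one.1 e1
  rw [h.π₂_eq a, pg_eq_one_of_det a.2.1] at e2
  rcases e2 with rfl | rfl
  · exact Or.inl (h.eq_of_ac g.2.2 rfl a Ac.one)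
  · exact Or.inr (h.isT_of_ac g.2.2 a)

/-- elements negating `w` -/
theorem act_neg [IsAlgClosed k] (h : M4 w φ) {g : GW k} (hg : g ∈ Om k) (e : g w = -w) :
    ∃ A D : M2 k, A.det = 1 ∧ D.det = 1 ∧ ∀ X, g (φ X) = φ (A * X.adjugate * D.adjugate) := by
  have h1 : Q (φ 1) ≠ 0 := by simp [h.Q_eq]
  obtain ⟨A, D, a⟩ := h.act (g * tE h1) (mul_mem hg (tE_isT h1).mem_Om)
    (by simp [tv_perp (B_comm w _ ▸ h.perp 1), e])
  refine ⟨A, D, a.1, a.2.1, fun X => ?_⟩
  have := a.2.2 X.adjugate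
  rwa [LinearEquiv.mul_apply, tE_apply, h.tv_one, adj_adj] at this

end M4

/-! ### Non-degenerate planes -/

/-- the stabiliser in `Om` of the complement of the plane spanned by `w, u` -/
def stT (w u : W k) : Subgroup (GW k) where
  carrier := {g | g ∈ Om k ∧ ∀ y, (B (g y) w = 0 ∧ B (g y) u = 0) ↔ (B y w = 0 ∧ B y u = 0)}
  one_mem' := ⟨one_mem _, fun _ => Iff.rfl⟩
  mul_mem' ha hb := ⟨mul_mem ha.1 hb.1, fun y => by rw [LinearEquiv.mul_apply, ha.2, hb.2]⟩
  inv_mem' {a} ha := ⟨inv_mem ha.1, fun y => by rw [← ha.2]; simp⟩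

theorem mem_stT {w u : W k} {g : GW k} : g ∈ stT w u ↔
    g ∈ Om k ∧ ∀ y, (B (g y) w = 0 ∧ B (g y) u = 0) ↔ (B y w = 0 ∧ B y u = 0) := Iff.rfl

/-- orthonormal pairs -/
def ON (w u : W k) : Prop := Q w = 1 ∧ Q u = 1 ∧ B w u = 0

theorem IsB.on {w u : W k} {g : GW k} (h : IsB w u g) : ON w u := ⟨h.1, h.2.1, h.2.2.1⟩

theorem ON.dec (h2 : (2 : k) ≠ 0) {w u : W k} (h : ON w u) (x : W k) :
    ∃ y, B y w = 0 ∧ B y u = 0 ∧ x = (B x w / 2) • w + (B x u / 2) • u + y :=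
  ⟨x - (B x w / 2) • w - (B x u / 2) • u, by
    simp [B_self, h.1, B_comm u w, h.2.2, h2], by simp [B_self, h.2.1, h.2.2, h2], by abel⟩

theorem ON.eq_of_perp (h2 : (2 : k) ≠ 0) {w u : W k} (h : ON w u) {x : W k}
    (hx : ∀ y, B y w = 0 → B y u = 0 → B x y = 0) : x = (B x w / 2) • w + (B x u / 2) • u := by
  obtain ⟨y, h1, h3, e⟩ := h.dec h2 x
  have : y = 0 := B_nd h2 fun z => by
    obtain ⟨z', a1, a2, e'⟩ := h.dec h2 z
    have := hx z' a1 a2
    rw [e] at this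
    rw [e']
    simpa [h1, h3, B_comm w z', B_comm u z', a1, a2] using this
  rw [this, add_zero] at e
  exact e

theorem mem_stT_of (h2 : (2 : k) ≠ 0) {w u : W k} (h : ON w u) {g : GW k} (hg : g ∈ Om k)
    (e : ∀ y, B y w = 0 → B y u = 0 → B (g y) w = 0 ∧ B (g y) u = 0) : g ∈ stT w u := by
  refine ⟨hg, fun y => ⟨fun hy => ?_, fun hy => e y hy.1 hy.2⟩⟩
  let T : Submodule k (W k) := LinearMap.ker (B.flip w) ⊓ LinearMap.ker (B.flip u)
  have hT : ∀ y, y ∈ T ↔ B y w = 0 ∧ B y u = 0 := fun y => Iff.rfl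
  have : T.map g.toLinearMap = T := Submodule.eq_of_le_of_finrank_eq
    (by rintro _ ⟨z, hz, rfl⟩; exact e z hz.1 hz.2) (LinearEquiv.finrank_map_eq g T)
  have hy' : g y ∈ T.map g.toLinearMap := by rw [this]; exact hy
  obtain ⟨z, hz, e⟩ := hy'
  exact g.injective e ▸ hz

theorem mem_stT_of_plane (h2 : (2 : k) ≠ 0) {w u : W k} (h : ON w u) {g : GW k} (hg : g ∈ Om k)
    {a b c d : k} (e1 : g w = a • w + b • u) (e2 : g u = c • w + d • u) : g ∈ stT w u := by
  rw [← inv_mem_iff]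
  refine mem_stT_of h2 h (inv_mem hg) fun y h1 h3 => ?_
  rw [B_comm, ← (Om_iso hg).swap, B_comm _ u, ← (Om_iso hg).swap, e1, e2]
  simp [B_comm w y, B_comm u y, h1, h3]

theorem stT_plane (h2 : (2 : k) ≠ 0) {w u : W k} (h : ON w u) {g : GW k} (hg : g ∈ stT w u) :
    ∃ a b : k, a * a + b * b = 1 ∧ g w = a • w + b • u ∧
      (g u = -b • w + a • u ∨ g u = b • w - a • u) := by
  have hi := Om_iso hg.1
  have e : ∀ x, (∀ y, B y w = 0 → B y u = 0 → B x y = 0) →
      g x = (B (g x) w / 2) • w + (B (g x) u / 2) • u := fun x hx => h.eq_of_perp h2 fun y h1 h3 => by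
    have := ((inv_mem hg).2 y).2 ⟨h1, h3⟩
    rw [hi.swap, hx _ this.1 this.2]
  have e1 := e w fun y h1 _ => by rw [B_comm, h1]
  have e2 := e u fun y _ h1 => by rw [B_comm, h1]
  generalize B (g w) w / 2 = a at e1
  generalize B (g w) u / 2 = b at e1
  generalize B (g u) w / 2 = c at e2
  generalize B (g u) u / 2 = d at e2
  have q1 := Om_Q hg.1 w
  have q2 := Om_Q hg.1 u
  have q3 := hi w u
  rw [e1] at q1 q3
  rw [e2] at q2 q3
  simp [Q_add, Q_smul, h.1, h.2.1, h.2.2, B_self, B_comm u w] at q1 q2 q3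
  have q4 : a * c + b * d = 0 := mul_left_cancel₀ h2 (by linear_combination q3)
  refine ⟨a, b, by linear_combination q1, e1, ?_⟩
  have : (a * d - b * c - 1) * (a * d - b * c + 1) = 0 := by grind
  rcases mul_eq_zero.1 this with e3 | e3
  · left; rw [e2, show c = -b by grind, show d = a by grind]
  · right; rw [e2, show c = b by grind, show d = -a by grind]; module

theorem isT_of_plane (h2 : (2 : k) ≠ 0) {w u : W k} (h : ON w u) {g : GW k} {a b : k}
    (hab : a * a + b * b = 1) (e1 : g w = a • w + b • u) (e2 : g u = b • w - a • u)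
    (e3 : ∀ y, B y w = 0 → B y u = 0 → g y = -y) : ∃ c d : k, IsT (c • w + d • u) g := by
  have key : ∀ v, Q v ≠ 0 → g w = tv v w → g u = tv v u → (∀ y, B y w = 0 → B y u = 0 → B y v = 0) →
      IsT v g := fun v hv a1 a2 a3 => ⟨hv, fun x => by
    obtain ⟨y, h1, h3, e⟩ := h.dec h2 x
    change _ = tL v x
    rw [e]
    simp only [map_add, map_smul, a1, a2, e3 y h1 h3]
    rw [← tv_perp (a3 y h1 h3)]; rfl⟩
  by_cases ha : 1 + a = 0
  · obtain rfl : a = -1 := by linear_combination ha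
    obtain rfl : b = 0 := by simpa using hab
    refine ⟨0, 1, key _ (by simp [h.2.1]) ?_ ?_ fun y _ h3 => by simp [h3]⟩
    · simp [e1, tv, h.2.2]
    · simp [e2, tv_self (show Q u ≠ 0 by simp [h.2.1])]
  · have hq : Q ((1 + a) • w + b • u) = 2 * (1 + a) := by
      simp [Q_add, Q_smul, h.1, h.2.1, h.2.2]; linear_combination hab
    refine ⟨1 + a, b, key _ (by rw [hq]; exact mul_ne_zero h2 ha) ?_ ?_ fun y h1 h3 => by
      simp [h1, h3]⟩
    · rw [e1, tv, hq]
      simp only [map_add, map_smul, B_self, h.1, h.2.2, smul_eq_mul]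
      rw [show ((1 + a) * (2 * 1) + b * 0) / (2 * (1 + a)) = 1 by field_simp; ring]
      module
    · rw [e2, tv, hq]
      simp only [map_add, map_smul, B_self, h.2.1, B_comm u w, h.2.2, smul_eq_mul]
      rw [show ((1 + a) * 0 + b * (2 * 1)) / (2 * (1 + a)) = b / (1 + a) by field_simp; ring, smul_add,
        smul_smul, smul_smul, div_mul_cancel₀ _ ha, show b / (1 + a) * b = 1 - a by
          field_simp; linear_combination hab]
      module

variable [IsAlgClosed k]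

/-- an element of `Om` which is `-1` on the complement of a plane is of type A -/
theorem isT_of_neg (h2 : (2 : k) ≠ 0) {w u : W k} (h : ON w u) {g : GW k} (hg : g ∈ Om k)
    (e : ∀ y, B y w = 0 → B y u = 0 → g y = -y) : ∃ c d : k, IsT (c • w + d • u) g := by
  obtain ⟨a, b, hab, e1, e2 | e2⟩ := stT_plane h2 h (mem_stT_of h2 h hg fun y h1 h3 => by
    simp [e y h1 h3, h1, h3])
  · have h0 : Q w ≠ 0 := by simp [h.1]
    obtain ⟨c, d, ht⟩ := isT_of_plane h2 h (g := ng * (tE h0 * g)) (a := -a) (b := b) (by simpa using hab)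
      (by simp [e1, tv_add, tv_smul, tv_self h0, tv_perp (B_comm u w ▸ h.2.2), add_comm])
      (by simp [e2, tv_add, tv_neg, tv_smul, tv_self h0, tv_perp (B_comm u w ▸ h.2.2), add_comm])
      (fun y h1 h3 => by simp [e y h1 h3, tv_neg, tv_perp h1])
    have := mul_mem ht.mem_Om (inv_mem (mul_mem (tE_isT h0).mem_Om hg))
    rw [mul_inv_cancel_right] at this
    exact absurd this (ng_not_mem h2)
  · exact isT_of_plane h2 h hab e1 e2 e

/-- an element of `Om` which fixes the complement of a plane is a rotation -/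
theorem rot_of_fix (h2 : (2 : k) ≠ 0) {w u : W k} (h : ON w u) {g : GW k} (hg : g ∈ Om k)
    (e : ∀ y, B y w = 0 → B y u = 0 → g y = y) :
    ∃ a b : k, a * a + b * b = 1 ∧ g w = a • w + b • u ∧ g u = -b • w + a • u := by
  obtain ⟨a, b, hab, e1, e2 | e2⟩ := stT_plane h2 h (mem_stT_of h2 h hg fun y h1 h3 => by
    simp [e y h1 h3, h1, h3])
  · exact ⟨a, b, hab, e1, e2⟩
  · obtain ⟨c, d, ht⟩ := isT_of_plane h2 h (g := ng * g) (a := -a) (b := -b) (by simpa using hab)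
      (by simp [e1, add_comm]) (by simp [e2, sub_eq_add_neg, add_comm])
      (fun y h1 h3 => by simp [e y h1 h3])
    exact absurd (by simpa using mul_mem ht.mem_Om (inv_mem hg)) (ng_not_mem h2)

omit [IsAlgClosed k] in
/-- `g` acts on the image of the trace zero matrices as `ε` times conjugation by `A` -/
def Ac3 (φ : M2 k →ₗ[k] W k) (g : GW k) (A : M2 k) (ε : k) : Prop :=
  A.det = 1 ∧ (ε = 1 ∨ ε = -1) ∧ ∀ X : M2 k, X.trace = 0 → g (φ X) = ε • φ (A * X * A.adjugate)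

omit [IsAlgClosed k] in
theorem trace_conj {A : M2 k} (hA : A.det = 1) (X : M2 k) : (A * X * A.adjugate).trace = X.trace := by
  rw [trace_mul_comm, ← mul_assoc, adj_mul hA, one_mul]

omit [IsAlgClosed k] in
theorem Ac3.mul {φ : M2 k →ₗ[k] W k} {g g' : GW k} {A A' : M2 k} {ε ε' : k} (h : Ac3 φ g A ε)
    (h' : Ac3 φ g' A' ε') : Ac3 φ (g * g') (A * A') (ε * ε') :=
  ⟨by rw [det_mul, h.1, h'.1, one_mul], by
    rcases h.2.1 with rfl | rfl <;> rcases h'.2.1 with rfl | rfl <;> simp, fun X hX => by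
    rw [LinearEquiv.mul_apply, h'.2.2 X hX, map_smul, h.2.2 _ (by rw [trace_conj h'.1, hX]),
      adjugate_mul_distrib, smul_smul, mul_comm ε']
    simp only [mul_assoc]⟩

omit [IsAlgClosed k] in
theorem Ac3.inv {φ : M2 k →ₗ[k] W k} {g : GW k} {A : M2 k} {ε : k} (h : Ac3 φ g A ε) :
    Ac3 φ g⁻¹ A.adjugate ε :=
  ⟨by rw [det_adj, h.1], h.2.1, fun X hX => by
    apply g.injective
    rw [map_smul, h.2.2 _ (by rw [trace_conj (by rw [det_adj, h.1]), hX]), adj_adj, smul_smul,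
      show ε * ε = 1 by rcases h.2.1 with rfl | rfl <;> simp]
    simp [mul_assoc, mul_adj' h.1, mul_adj h.1]⟩

namespace M4

variable {w : W k} {φ : M2 k →ₗ[k] W k}

omit [IsAlgClosed k] in
theorem surj3 (h : M4 w φ) {y : W k} (h1 : B y w = 0) (h3 : B y (φ 1) = 0) :
    ∃ X : M2 k, X.trace = 0 ∧ φ X = y := by
  obtain ⟨X, rfl⟩ := h.surj y h1
  exact ⟨X, by rwa [h.B_one] at h3, rfl⟩

omit [IsAlgClosed k] in
theorem on (h : M4 w φ) (hw : Q w = 1) : ON w (φ 1) :=
  ⟨hw, by simp [h.Q_eq], by rw [B_comm, h.perp]⟩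

omit [IsAlgClosed k] in
theorem ac3_one (h : M4 w φ) {A : M2 k} {ε : k} (a : Ac3 φ 1 A ε) : (A = 1 ∨ A = -1) ∧ ε = 1 := by
  have h2 := h.two
  have e : ∀ X : M2 k, X.trace = 0 → X * A = ε • (A * X) := fun X hX => by
    have := a.2.2 X hX
    rw [← map_smul] at this
    have := h.inj this
    conv_lhs => rw [this]
    rw [smul_mul_assoc, mul_assoc, adj_mul a.1, mul_one]
  have e1 := e !![1, 0; 0, -1] (by simp [trace_fin_two])
  have e2 := e !![0, 1; 0, 0] (by simp [trace_fin_two])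
  have e3 := e !![0, 0; 1, 0] (by simp [trace_fin_two])
  have hD := a.1
  rw [det_fin_two] at hD
  rw [eta_fin_two A] at e1 e2 e3
  rcases a.2.1 with rfl | rfl
  · simp [mul_fin_two] at e1 e2 e3
    refine ⟨(pg_eq_one_of_det a.1).1 ((pg_eq_one (by simp [a.1])).2 (by grind)), rfl⟩
  · simp [mul_fin_two] at e1 e2 e3
    exfalso
    have : A 0 0 = 0 := mul_left_cancel₀ h2 (by grind)
    grind

omit [IsAlgClosed k] in
theorem ac3_unique (h : M4 w φ) {g : GW k} {A A' : M2 k} {ε ε' : k} (a : Ac3 φ g A ε)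
    (a' : Ac3 φ g A' ε') : (A' = A ∨ A' = -A) ∧ ε' = ε := by
  have := a.inv.mul a'
  rw [inv_mul_cancel] at this
  obtain ⟨e1, e2⟩ := h.ac3_one this
  refine ⟨e1.imp (fun e => ?_) fun e => ?_, ?_⟩
  · rw [← mul_adj' a.1 A', e, mul_one]
  · rw [← mul_adj' a.1 A', e, mul_neg_one]
  · rcases a.2.1 with rfl | rfl
    · simpa using e2
    · simpa [neg_eq_iff_eq_neg] using e2

/-- isometries of the three-space are `±` conjugations -/
theorem act3 (h : M4 w φ) (hw : Q w = 1) {g : GW k} (hg : Iso g)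
    (e : ∀ y, B y w = 0 → B y (φ 1) = 0 → B (g y) w = 0 ∧ B (g y) (φ 1) = 0) :
    ∃ A ε, Ac3 φ g A ε := by
  have h2 := h.two
  have ho := h.on hw
  have h0 : Q w ≠ 0 := h.hw
  have h1 : Q (φ 1) ≠ 0 := by simp [h.Q_eq]
  let L : W k →ₗ[k] W k := g.toLinearMap + (B.flip w).smulRight ((1 / 2 : k) • (w - g w)) +
    (B.flip (φ 1)).smulRight ((1 / 2 : k) • (φ 1 - g (φ 1)))
  have L1 : L w = w := by simp [L, B_self, hw, ho.2.2, smul_smul, h2]
  have L2 : L (φ 1) = φ 1 := by simp [L, B_self, ho.2.1, h.perp, smul_smul, h2]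
  have L3 : ∀ y, B y w = 0 → B y (φ 1) = 0 → L y = g y := fun y a b => by simp [L, a, b]
  have L4 : ∀ x y, B (L x) (L y) = B x y := fun x y => by
    obtain ⟨x', a1, a2, a3⟩ := ho.dec h2 x
    obtain ⟨y', b1, b2, b3⟩ := ho.dec h2 y
    obtain ⟨c1, c2⟩ := e x' a1 a2
    obtain ⟨d1, d2⟩ := e y' b1 b2
    rw [a3, b3]
    simp only [map_add, map_smul, L1, L2, L3 x' a1 a2, L3 y' b1 b2, LinearMap.add_apply,
      LinearMap.smul_apply, a1, a2, c1, c2, B_comm w y', B_comm w (g y'), B_comm (φ 1) y',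
      B_comm (φ 1) (g y'), b1, b2, d1, d2, hg x' y']
  obtain ⟨ρ, hρ, eρ⟩ := witt h2 L ⊤ (fun x _ hx => B_nd h2 fun y => by rw [← L4, hx]; simp)
    fun x _ y _ => L4 x y
  rcases hρ with hρ | hρ
  · obtain ⟨A, D, a⟩ := h.act ρ hρ (by rw [eρ w trivial, L1])
    obtain rfl := h.ac_fix a (by rw [eρ _ trivial, L2])
    exact ⟨D, 1, a.1, Or.inl rfl, fun X hX => by
      rw [← a.2.2, eρ _ trivial, L3 _ (h.perp X) (by rw [h.B_one, hX]), one_smul]⟩
  · obtain ⟨A, D, a⟩ := h.act (tE h0 * tE h1 * (ng * ρ))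
      (mul_mem (mul_mem (tE_isT h0).mem_Om (tE_isT h1).mem_Om) hρ)
      (by simp [eρ w trivial, L1, tv_neg, tv_perp ho.2.2, tv_self h0])
    obtain rfl := h.ac_fix a (by simp [eρ _ trivial, L2, tv_neg, tv_perp (h.perp 1), tv_self h1])
    refine ⟨D, -1, a.1, Or.inr rfl, fun X hX => ?_⟩
    have b1 : B (φ X) (φ 1) = 0 := by rw [h.B_one, hX]
    obtain ⟨c1, c2⟩ := e _ (h.perp X) b1
    rw [← a.2.2]
    simp [eρ _ trivial, L3 _ (h.perp X) b1, tv_neg, tv_perp c1, tv_perp c2]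

theorem act3' (h : M4 w φ) (hw : Q w = 1) (g : stT w (φ 1)) : ∃ A ε, Ac3 φ g A ε :=
  h.act3 hw (Om_iso g.2.1) fun y a b => (g.2.2 y).2 ⟨a, b⟩

theorem exists_pi3 (h : M4 w φ) (hw : Q w = 1) : ∃ π : stT w (φ 1) →* PGL(2, k),
    ∀ (g : stT w (φ 1)) (A : M2 k) (ε : k), Ac3 φ g A ε → π g = pg A := by
  choose A ε hA using h.act3' hw
  have key : ∀ {g : GW k} {A A' : M2 k} {ε ε' : k}, Ac3 φ g A ε → Ac3 φ g A' ε' → pg A' = pg A :=
    fun a a' => by
      rcases (h.ac3_unique a a').1 with rfl | rfl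
      · rfl
      · exact pg_neg _
  refine ⟨MonoidHom.mk' (fun g => pg (A g)) fun a b => ?_, fun g A' ε' e => key e (hA g)⟩
  rw [key ((hA a).mul (hA b)) (hA (a * b)), pg_mul (by simp [(hA a).1]) (by simp [(hA b).1])]

/-- the projection of a plane stabiliser -/
noncomputable def π₃ (h : M4 w φ) (hw : Q w = 1) : stT w (φ 1) →* PGL(2, k) := (h.exists_pi3 hw).choose

theorem π₃_eq (h : M4 w φ) (hw : Q w = 1) {g : stT w (φ 1)} {A : M2 k} {ε : k} (a : Ac3 φ g A ε) :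
    h.π₃ hw g = pg A :=
  (h.exists_pi3 hw).choose_spec g A ε a

/-- the kernel consists of rotations of the plane and of involutions of type A -/
theorem ker_pi3 (h : M4 w φ) (hw : Q w = 1) {g : stT w (φ 1)} (e : h.π₃ hw g = 1) :
    (∀ y, B y w = 0 → B y (φ 1) = 0 → (g : GW k) y = y) ∨ ∃ c d : k, IsT (c • w + d • φ 1) g := by
  obtain ⟨A, ε, a⟩ := h.act3' hw g
  rw [h.π₃_eq hw a, pg_eq_one_of_det a.1] at e
  have : ∀ y, B y w = 0 → B y (φ 1) = 0 → (g : GW k) y = ε • y := fun y h1 h3 => by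
    obtain ⟨X, hX, rfl⟩ := h.surj3 h1 h3
    rw [a.2.2 X hX]
    rcases e with rfl | rfl <;> simp [adj_neg]
  rcases a.2.1 with rfl | rfl
  · exact Or.inl fun y h1 h3 => by rw [this y h1 h3, one_smul]
  · exact Or.inr (isT_of_neg h.two (h.on hw) g.2.1 fun y h1 h3 => by rw [this y h1 h3]; simp)

theorem pi3_eq_one (h : M4 w φ) (hw : Q w = 1) {g : stT w (φ 1)}
    (e : ∀ y, B y w = 0 → B y (φ 1) = 0 → (g : GW k) y = y) : h.π₃ hw g = 1 := by
  rw [h.π₃_eq hw (A := 1) (ε := 1) ⟨det_one, Or.inl rfl, fun X hX => by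
    simp [e _ (h.perp X) (by rw [h.B_one, hX])]⟩, pg_one]

end M4

/-- the centraliser of an involution of type B stabilises its plane -/
theorem IsB.cent (h2 : (2 : k) ≠ 0) {w u : W k} {t g : GW k} (h : IsB w u t) (hg : g ∈ Om k)
    (e : g * t = t * g) : g ∈ stT w u := by
  refine mem_stT_of h2 h.on hg fun y h1 h3 => ?_
  have := congrArg (fun a : GW k => a y) e
  simp only [LinearEquiv.mul_apply, h.2.2.2, h1, h3, zero_smul, sub_zero] at this
  have a1 := congrArg (fun x => B x w) this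
  have a2 := congrArg (fun x => B x u) this
  simp only [B_self, h.1, h.2.1, h.2.2.1, B_comm u w, map_sub, map_smul, LinearMap.sub_apply,
    LinearMap.smul_apply, smul_eq_mul] at a1 a2
  exact ⟨mul_left_cancel₀ h2 (by linear_combination a1), mul_left_cancel₀ h2 (by linear_combination a2)⟩

end Cfsg.Agent.O5
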