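import Cfsg.Agent.O5.Orth

/-!
The stabiliser of a non-singular vector and of a non-degenerate plane.
-/

set_option autoImplicit false
set_option linter.unusedSectionVars false

namespace Cfsg.Agent.O5

open Module Matrix H1.Spin5 H6.Pg
open scoped MatrixGroups

variable {k : Type*} [Field k]

/-- two by two matrices -/
abbrev M2 (k : Type*) : Type _ := Matrix (Fin 2) (Fin 2) k

theorem adj_adj (A : M2 k) : A.adjugate.adjugate = A := by
  ext i j; fin_cases i <;> fin_cases j <;> simp [adjugate_fin_two]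

theorem det_adj (A : M2 k) : A.adjugate.det = A.det := by
  simp [adjugate_fin_two, det_fin_two]; ring

theorem adj_neg (A : M2 k) : (-A).adjugate = -A.adjugate := by
  ext i j; fin_cases i <;> fin_cases j <;> simp [adjugate_fin_two]

theorem det_neg2 (A : M2 k) : (-A).det = A.det := by simp [det_fin_two]

theorem mul_adj {A : M2 k} (h : A.det = 1) : A * A.adjugate = 1 := by rw [mul_adjugate, h, one_smul]

theorem adj_mul {A : M2 k} (h : A.det = 1) : A.adjugate * A = 1 := by rw [adjugate_mul, h, one_smul]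

theorem mul_adj' {A : M2 k} (h : A.det = 1) (X : M2 k) : A * (A.adjugate * X) = X := by
  rw [← mul_assoc, mul_adj h, one_mul]

theorem adj_mul' {A : M2 k} (h : A.det = 1) (X : M2 k) : A.adjugate * (A * X) = X := by
  rw [← mul_assoc, adj_mul h, one_mul]

theorem adj_eq (A : M2 k) : A.adjugate = A.trace • 1 - A := by
  ext i j; fin_cases i <;> fin_cases j <;> simp [adjugate_fin_two, trace_fin_two]

/-- `g` acts on the image of `φ` as `X ↦ A X D⁻¹` with `A, D` of determinant one -/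
def Ac (φ : M2 k →ₗ[k] W k) (g : GW k) (A D : M2 k) : Prop :=
  A.det = 1 ∧ D.det = 1 ∧ ∀ X, g (φ X) = φ (A * X * D.adjugate)

/-- a matrix model of the orthogonal complement of `w` -/
structure M4 (w : W k) (φ : M2 k →ₗ[k] W k) : Prop where
  two : (2 : k) ≠ 0
  hw : Q w ≠ 0
  Q_eq : ∀ X, Q (φ X) = X.det
  perp : ∀ X, B (φ X) w = 0
  surj : ∀ y, B y w = 0 → ∃ X, φ X = y
  act : ∀ g ∈ Om k, g w = w → ∃ A D, Ac φ g A D
  ex : ∀ A D : M2 k, A.det = 1 → D.det = 1 → ∃ g ∈ Om k, g w = w ∧ Ac φ g A D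

section Ac

variable {φ : M2 k →ₗ[k] W k} {g g' : GW k} {A A' D D' : M2 k}

theorem Ac.one : Ac φ 1 1 1 := ⟨det_one, det_one, fun X => by simp⟩

theorem Ac.mul (h : Ac φ g A D) (h' : Ac φ g' A' D') : Ac φ (g * g') (A * A') (D * D') :=
  ⟨by rw [det_mul, h.1, h'.1, one_mul], by rw [det_mul, h.2.1, h'.2.1, one_mul], fun X => by
    rw [LinearEquiv.mul_apply, h'.2.2, h.2.2, adjugate_mul_distrib]
    simp only [mul_assoc]⟩

theorem Ac.inv (h : Ac φ g A D) : Ac φ g⁻¹ A.adjugate D.adjugate :=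
  ⟨by rw [det_adj, h.1], by rw [det_adj, h.2.1], fun X => by
    apply g.injective
    rw [h.2.2, adj_adj]
    simp [mul_assoc, mul_adj' h.1, mul_adj h.2.1]⟩

theorem Ac.pow (h : Ac φ g A D) (n : ℕ) : Ac φ (g ^ n) (A ^ n) (D ^ n) := by
  induction n with
  | zero => simpa using Ac.one
  | succ n ih => rw [pow_succ, pow_succ, pow_succ]; exact ih.mul h

theorem Ac.neg (h : Ac φ g A D) : Ac φ g (-A) (-D) :=
  ⟨by rw [det_neg2, h.1], by rw [det_neg2, h.2.1], fun X => by rw [h.2.2, adj_neg]; simp⟩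

end Ac

/-- the standard model -/
def φ0 : M2 k →ₗ[k] W k where
  toFun X := ![0, X 0 0, X 1 1, X 0 1, X 1 0]
  map_add' X Y := by ext i; fin_cases i <;> simp
  map_smul' c X := by ext i; fin_cases i <;> simp

theorem φ0_def (X : M2 k) : φ0 X = ![0, X 0 0, X 1 1, X 0 1, X 1 0] := rfl

/-- block matrices -/
def blk (A D : M2 k) : Matrix I4 I4 k :=
  fromBlocks !![A 0 0, 0; 0, D 0 0] !![A 0 1, 0; 0, D 0 1] !![A 1 0, 0; 0, D 1 0]
    !![A 1 1, 0; 0, D 1 1]

theorem blk_mul (A D A' D' : M2 k) : blk A D * blk A' D' = blk (A * A') (D * D') := by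
  ext (i | i) (j | j) <;> fin_cases i <;> fin_cases j <;>
    simp [blk, mul_apply, Fintype.sum_sum_type, Fin.sum_univ_two]

theorem blk_one : blk (1 : M2 k) 1 = 1 := by
  ext (i | i) (j | j) <;> fin_cases i <;> fin_cases j <;> simp [blk]

theorem ψ_blk (A : M2 k) {D : M2 k} (hD : D.det = 1) (hA : A.det = 1) (X : M2 k) :
    ψ (φ0 (A * X * D.adjugate)) * blk A D = blk A D * ψ (φ0 X) := by
  rw [det_fin_two] at hA hD
  rw [adjugate_fin_two]
  ext (i | i) (j | j) <;> fin_cases i <;> fin_cases j <;>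
    simp [blk, ψ_def, φ0_def, mul_apply, Fintype.sum_sum_type, Fin.sum_univ_two] <;> grind

theorem decomp {w : W k} (h2 : (2 : k) ≠ 0) (hw : Q w ≠ 0) (x : W k) :
    B (x - (B x w / (2 * Q w)) • w) w = 0 := by
  simp only [map_sub, map_smul, LinearMap.sub_apply, LinearMap.smul_apply, B_self, smul_eq_mul]
  field_simp; ring

theorem m4_zero (h2 : (2 : k) ≠ 0) : M4 (Pi.single 0 1 : W k) φ0 where
  two := h2
  hw := by simp [Q_apply]
  Q_eq X := by simp [Q_apply, φ0_def, det_fin_two]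
  perp X := by simp [B_apply, φ0_def]
  surj y hy := by
    refine ⟨!![y 1, y 3; y 4, y 2], ?_⟩
    simp [B_apply, h2] at hy
    ext i; fin_cases i <;> simp [φ0_def, hy]
  act g hg hw := by
    obtain ⟨M, hM⟩ := mem_Om.1 hg
    have e := hM.2 (Pi.single 0 1)
    rw [hw] at e
    have e' := fun i j => congrFun (congrFun e i) j
    simp only [Fin.forall_fin_succ, Sum.forall, IsEmpty.forall_iff, and_true] at e'
    simp [ψ_def, mul_apply, Fintype.sum_sum_type, Fin.sum_univ_two] at e'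
    have hb : (M : Matrix I4 I4 k) = blk !![M (.inl 0) (.inl 0), M (.inl 0) (.inr 0);
        M (.inr 0) (.inl 0), M (.inr 0) (.inr 0)] !![M (.inl 1) (.inl 1), M (.inl 1) (.inr 1);
        M (.inr 1) (.inl 1), M (.inr 1) (.inr 1)] := by
      ext (i | i) (j | j) <;> fin_cases i <;> fin_cases j <;> simp [blk] <;>
        refine mul_left_cancel₀ h2 ?_ <;> grind
    have s1 := mem_sp.1 hM.1 (Pi.single (.inr 0) 1) (Pi.single (.inl 0) 1)
    have s2 := mem_sp.1 hM.1 (Pi.single (.inr 1) 1) (Pi.single (.inl 1) 1)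
    rw [hb] at s1 s2
    simp [f_apply, blk] at s1 s2
    generalize hA : !![M (.inl 0) (.inl 0), M (.inl 0) (.inr 0);
        M (.inr 0) (.inl 0), M (.inr 0) (.inr 0)] = A at hb
    generalize hD : !![M (.inl 1) (.inl 1), M (.inl 1) (.inr 1);
        M (.inr 1) (.inl 1), M (.inr 1) (.inr 1)] = D at hb
    have dA : A.det = 1 := by rw [← hA, det_fin_two]; simp; linear_combination s1
    have dD : D.det = 1 := by rw [← hD, det_fin_two]; simp; linear_combination s2
    refine ⟨A, D, dA, dD, fun X => ψ_injective ?_⟩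
    rw [hM.conj, Units.mul_inv_eq_iff_eq_mul, hb, ψ_blk A dD dA]
  ex A D hA hD := by
    let L : M2 k → M2 k → W k →ₗ[k] W k := fun A D =>
      { toFun := fun x => x 0 • Pi.single 0 1 + φ0 (A * !![x 1, x 3; x 4, x 2] * D.adjugate)
        map_add' := fun x y => by
          rw [show !![(x + y) 1, (x + y) 3; (x + y) 4, (x + y) 2] =
            !![x 1, x 3; x 4, x 2] + !![y 1, y 3; y 4, y 2] by simp]
          simp only [mul_add, add_mul, map_add, Pi.add_apply]; module
        map_smul' := fun c x => by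
          rw [show !![(c • x) 1, (c • x) 3; (c • x) 4, (c • x) 2] =
            c • !![x 1, x 3; x 4, x 2] by simp]
          simp only [mul_smul_comm, smul_mul_assoc, map_smul, Pi.smul_apply, smul_eq_mul,
            RingHom.id_apply]; module }
    have L1 : ∀ A D X, L A D (φ0 X) = φ0 (A * X * D.adjugate) := fun A D X => by
      simp only [L, LinearMap.coe_mk, AddHom.coe_mk]
      rw [show !![φ0 X 1, φ0 X 3; φ0 X 4, φ0 X 2] = X from (eta_fin_two X).symm]
      simp [φ0_def]
    have L2 : ∀ A D, L A D (Pi.single 0 1) = Pi.single 0 1 := fun A D => by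
      simp only [L, LinearMap.coe_mk, AddHom.coe_mk]
      rw [show !![(Pi.single 0 1 : W k) 1, (Pi.single 0 1 : W k) 3; (Pi.single 0 1 : W k) 4,
        (Pi.single 0 1 : W k) 2] = 0 by ext i j; fin_cases i <;> fin_cases j <;> simp]
      simp
    have dec : ∀ x : W k, x = x 0 • Pi.single 0 1 + φ0 !![x 1, x 3; x 4, x 2] := fun x => by
      ext i; fin_cases i <;> simp [φ0_def]
    have L3 : ∀ A D : M2 k, A.det = 1 → D.det = 1 → ∀ x, L A.adjugate D.adjugate (L A D x) = x :=
      fun A D hA hD x => by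
        conv_lhs => rw [dec x]
        rw [map_add, map_smul, L1, L2, map_add, map_smul, L1, L2, adj_adj]
        simp only [mul_assoc, adj_mul' hA, adj_mul hD, mul_one]
        exact (dec x).symm
    have L4 : ∀ x, L A D (L A.adjugate D.adjugate x) = x := fun x => by
      have := L3 A.adjugate D.adjugate (by rw [det_adj, hA]) (by rw [det_adj, hD]) x
      rwa [adj_adj, adj_adj] at this
    refine ⟨{ L A D with invFun := L A.adjugate D.adjugate, left_inv := L3 A D hA hD, right_inv := L4 },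
      mem_Om.2 ⟨⟨blk A D, blk A.adjugate D.adjugate, ?_, ?_⟩, mem_sp.2 fun u v => ?_, fun x => ?_⟩,
      L2 A D, hA, hD, L1 A D⟩
    · rw [blk_mul, mul_adj hA, mul_adj hD, blk_one]
    · rw [blk_mul, adj_mul hA, adj_mul hD, blk_one]
    · rw [det_fin_two] at hA hD
      simp [f_apply, blk, mulVec, dotProduct, Fintype.sum_sum_type, Fin.sum_univ_two]
      grind
    · change ψ (L A D x) * blk A D = blk A D * ψ x
      conv_lhs => rw [dec x]
      conv_rhs => rw [dec x]
      rw [map_add, map_smul, L1, L2, map_add, map_add, add_mul, mul_add, ψ_blk A hD hA, map_smul,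
        smul_mul_assoc, mul_smul_comm]
      congr 2
      ext (i | i) (j | j) <;> fin_cases i <;> fin_cases j <;>
        simp [blk, ψ_def, mul_apply, Fintype.sum_sum_type, Fin.sum_univ_two]

namespace M4

variable {w : W k} {φ : M2 k →ₗ[k] W k}

theorem smul (h : M4 w φ) {c : k} (hc : c ≠ 0) : M4 (c • w) φ where
  two := h.two
  hw := by rw [Q_smul]; exact mul_ne_zero (pow_ne_zero _ hc) h.hw
  Q_eq := h.Q_eq
  perp X := by simp [h.perp]
  surj y hy := h.surj y (by simpa [hc] using hy)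
  act g hg e := h.act g hg (smul_right_injective _ hc (by simpa using e))
  ex A D hA hD := let ⟨g, a, b, d⟩ := h.ex A D hA hD; ⟨g, a, by rw [map_smul, b], d⟩

theorem map (h : M4 w φ) {γ : GW k} (hγ : γ ∈ Om k) : M4 (γ w) (γ.toLinearMap ∘ₗ φ) where
  two := h.two
  hw := by rw [Om_Q hγ]; exact h.hw
  Q_eq X := by simp [Om_Q hγ, h.Q_eq]
  perp X := by simp [Om_iso hγ _ _, h.perp]
  surj y hy := by
    obtain ⟨X, hX⟩ := h.surj (γ⁻¹ y) (by rw [← Om_iso hγ]; simpa using hy)
    exact ⟨X, by simp [hX]⟩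
  act g hg e := by
    obtain ⟨A, D, hA⟩ := h.act (γ⁻¹ * g * γ) (mul_mem (mul_mem (inv_mem hγ) hg) hγ) (by simp [e])
    exact ⟨A, D, hA.1, hA.2.1, fun X => by simp [← hA.2.2 X]⟩
  ex A D hA hD := by
    obtain ⟨g, a, b, d⟩ := h.ex A D hA hD
    exact ⟨γ * g * γ⁻¹, mul_mem (mul_mem hγ a) (inv_mem hγ), by simp [b], hA, hD,
      fun X => by simp [d.2.2 X]⟩

/-- change of the model by `X ↦ P X R⁻¹` -/
def tw (φ : M2 k →ₗ[k] W k) (P R : M2 k) : M2 k →ₗ[k] W k :=
  φ ∘ₗ LinearMap.mulLeft k P ∘ₗ LinearMap.mulRight k R.adjugate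

theorem tw_apply (P R X : M2 k) : tw φ P R X = φ (P * X * R.adjugate) := by
  simp [tw, mul_assoc]

theorem _root_.Cfsg.Agent.O5.Ac.tw {g : GW k} {A D : M2 k} (h : Ac φ g A D) {P R : M2 k}
    (hP : P.det = 1) (hR : R.det = 1) :
    Ac (tw φ P R) g (P.adjugate * A * P) (R.adjugate * D * R) :=
  ⟨by simp [det_adj, hP, h.1], by simp [det_adj, hR, h.2.1], fun X => by
    rw [tw_apply, tw_apply, h.2.2]
    simp only [adjugate_mul_distrib, adj_adj, mul_assoc, mul_adj' hP, mul_adj hR, mul_one]⟩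

theorem twist (h : M4 w φ) {P R : M2 k} (hP : P.det = 1) (hR : R.det = 1) : M4 w (tw φ P R) := by
  obtain ⟨g, a, b, d⟩ := h.ex P R hP hR
  have := h.map a
  rw [b] at this
  convert this using 1
  exact LinearMap.ext fun X => by rw [tw_apply]; exact (d.2.2 X).symm

theorem B_eq (h : M4 w φ) (X Y : M2 k) : B (φ X) (φ Y) = (X * Y.adjugate).trace := by
  have := Q_add (φ X) (φ Y)
  rw [← map_add, h.Q_eq, h.Q_eq, h.Q_eq] at this
  simp only [det_fin_two, Matrix.add_apply] at this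
  simp [adjugate_fin_two, trace_fin_two, mul_apply, Fin.sum_univ_two]
  linear_combination -this

theorem B_one (h : M4 w φ) (X : M2 k) : B (φ X) (φ 1) = X.trace := by simp [h.B_eq]

theorem inj (h : M4 w φ) : Function.Injective φ := by
  refine (injective_iff_map_eq_zero φ).2 fun X hX => ?_
  have e := fun Y => h.B_eq X Y
  simp only [hX, map_zero, LinearMap.zero_apply] at e
  have e1 := e !![1, 0; 0, 0]
  have e2 := e !![0, 1; 0, 0]
  have e3 := e !![0, 0; 1, 0]
  have e4 := e !![0, 0; 0, 1]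
  simp [adjugate_fin_two, trace_fin_two, mul_apply, Fin.sum_univ_two] at e1 e2 e3 e4
  ext i j; fin_cases i <;> fin_cases j <;> simp [← e1, ← e4, e2, e3]

/-- every vector is `c w + φ X` -/
theorem dec (h : M4 w φ) (x : W k) : ∃ (c : k) (X : M2 k), x = c • w + φ X := by
  obtain ⟨X, hX⟩ := h.surj _ (decomp h.two h.hw x)
  exact ⟨_, X, by rw [hX]; exact (add_sub_cancel _ _).symm⟩

theorem ext (h : M4 w φ) {g g' : GW k} (e1 : g w = g' w) (e2 : ∀ X, g (φ X) = g' (φ X)) : g = g' :=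
  LinearEquiv.ext fun x => by
    obtain ⟨c, X, rfl⟩ := h.dec x
    simp [e1, e2]

theorem eq_of_ac (h : M4 w φ) {g g' : GW k} {A D : M2 k} (e : g w = w) (e' : g' w = w)
    (a : Ac φ g A D) (a' : Ac φ g' A D) : g = g' :=
  h.ext (by rw [e, e']) fun X => by rw [a.2.2, a'.2.2]

theorem ac_one (h : M4 w φ) {A D : M2 k} (a : Ac φ 1 A D) :
    (A = 1 ∧ D = 1) ∨ (A = -1 ∧ D = -1) := by
  have e : ∀ X : M2 k, X * D = A * X := fun X => by
    have := h.inj (a.2.2 X)
    conv_lhs => rw [this]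
    rw [mul_assoc, adj_mul a.2.1, mul_one]
  have e0 : D = A := by simpa using e 1
  subst e0
  have e1 := e !![1, 0; 0, 0]
  have e2 := e !![0, 1; 0, 0]
  have hD := a.1
  rw [det_fin_two] at hD
  rw [eta_fin_two D] at e1 e2
  simp [mul_fin_two] at e1 e2
  have : (D 0 0 - 1) * (D 0 0 + 1) = 0 := by grind
  rcases mul_eq_zero.1 this with e3 | e3
  · left
    have : D = 1 := by ext i j; fin_cases i <;> fin_cases j <;> simp <;> grind
    exact ⟨this, this⟩
  · right
    have : D = -1 := by ext i j; fin_cases i <;> fin_cases j <;> simp <;> grind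
    exact ⟨this, this⟩

theorem ac_unique (h : M4 w φ) {g : GW k} {A D A' D' : M2 k} (a : Ac φ g A D)
    (a' : Ac φ g A' D') : (A' = A ∧ D' = D) ∨ (A' = -A ∧ D' = -D) := by
  have := a.inv.mul a'
  rw [inv_mul_cancel] at this
  rcases h.ac_one this with ⟨e1, e2⟩ | ⟨e1, e2⟩
  · exact Or.inl ⟨by rw [← mul_adj' a.1 A', e1, mul_one], by rw [← mul_adj' a.2.1 D', e2, mul_one]⟩
  · exact Or.inr ⟨by rw [← mul_adj' a.1 A', e1, mul_neg_one],
      by rw [← mul_adj' a.2.1 D', e2, mul_neg_one]⟩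

theorem ac_tw (h : M4 w φ) {g : GW k} (hg : IsT w g) : Ac φ g 1 (-1) :=
  ⟨det_one, by simp [det_neg2], fun X => by rw [hg.2, tv_perp (h.perp X), adj_neg]; simp⟩

theorem isT_of_ac (h : M4 w φ) {g : GW k} (e : g w = w) (a : Ac φ g 1 (-1)) : IsT w g := by
  rw [h.eq_of_ac e (tv_self h.hw) a (h.ac_tw (tE_isT h.hw))]; exact tE_isT h.hw

/-- `t_{φ 1}` acts as the adjugate -/
theorem tv_one (h : M4 w φ) (X : M2 k) : tv (φ 1) (φ X) = φ X.adjugate := by
  rw [tv, h.B_one, h.Q_eq, det_one, div_one, ← map_smul, ← map_sub]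
  congr 1
  ext i j; fin_cases i <;> fin_cases j <;> simp [adjugate_fin_two, trace_fin_two]

/-- elements fixing `φ 1` act by conjugation -/
theorem ac_fix (h : M4 w φ) {g : GW k} {A D : M2 k} (a : Ac φ g A D) (e : g (φ 1) = φ 1) :
    D = A := by
  have := h.inj ((a.2.2 1).symm.trans e)
  rw [← mul_one A, ← adj_mul a.2.1, ← mul_assoc, ← mul_one A, this, one_mul]

end M4

theorem exists_move [IsAlgClosed k] (h2 : (2 : k) ≠ 0) {v w : W k} (hv : v ≠ 0) (hw : w ≠ 0)
    (e : Q v = Q w) : ∃ γ ∈ Om k, γ v = w := by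
  obtain ⟨t, ht, -, e1⟩ := witt_step h2 (U := ⊥) (by simpa using hv) (by simpa using hw) (by simp) e
  have : ∃ z, Q z ≠ 0 ∧ B v z = 0 := by
    by_contra hc
    push Not at hc
    have hc' : ∀ z, B v z = 0 → Q z = 0 := fun z hz => by_contra fun h => hc z h hz
    have hle : B.orthogonal (k ∙ v) ≤ k ∙ v := fun x hx => mem_of_perp_perp h2 fun y hy => by
      have a1 := hx v (Submodule.mem_span_singleton_self v)
      have a2 := hy v (Submodule.mem_span_singleton_self v)
      have a3 := hc' (x + y) (by rw [map_add, a2, add_zero]; exact a1)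
      rwa [Q_add, hc' x a1, hc' y a2, zero_add, zero_add] at a3
    have a1 := Submodule.finrank_mono hle
    have a2 := finrank_orth h2 (k ∙ v)
    rw [finrank_span_singleton hv] at a1 a2
    omega
  obtain ⟨z, hz, hz'⟩ := this
  obtain ⟨g, hg, e2⟩ := Op_adjust ht hz
  exact ⟨g, hg, by rw [e2 v hz', e1]⟩

theorem exists_m4 [IsAlgClosed k] (h2 : (2 : k) ≠ 0) {w : W k} (hw : Q w ≠ 0) : ∃ φ, M4 w φ := by
  obtain ⟨c, hc, e⟩ := exists_unit hw
  obtain ⟨γ, hγ, e1⟩ := exists_move h2 (v := Pi.single 0 1) (w := c • w) (by simp)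
    (by rintro h; rw [h] at e; simp at e) (by rw [e]; simp [Q_apply])
  have := ((m4_zero h2).map hγ).smul (inv_ne_zero hc)
  rw [e1, smul_smul, inv_mul_cancel₀ hc, one_smul] at this
  exact ⟨_, this⟩

/-- a model with prescribed `φ 1` -/
theorem exists_m4_one [IsAlgClosed k] (h2 : (2 : k) ≠ 0) {w u : W k} (hw : Q w ≠ 0) (hu : Q u = 1)
    (huw : B u w = 0) : ∃ φ, M4 w φ ∧ φ 1 = u := by
  obtain ⟨φ, h⟩ := exists_m4 h2 hw
  obtain ⟨X, rfl⟩ := h.surj u huw
  rw [h.Q_eq] at hu
  exact ⟨_, h.twist hu det_one, by simp [M4.tw_apply]⟩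

end Cfsg.Agent.O5
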