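import Cfsg.Agent.H6.M1
import Cfsg.Agent.H7.Lin

/-!
Symplectic transvections in odd characteristic: two non-orthogonal centres.
-/

set_option autoImplicit false
set_option linter.unusedSectionVars false

namespace Cfsg.Agent.O5.Tv

open Module Matrix H7 H6.Pg H6.M3
open scoped MatrixGroups

variable {F V : Type*} [Field F] [AddCommGroup V] [Module F V]

/-- a group of isometries of a non-degenerate alternating form -/
structure Sy (f : LinearMap.BilinForm F V) (X : Subgroup (V ≃ₗ[F] V)) : Prop where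
  alt : ∀ x, f x x = 0
  nd : ∀ x, (∀ y, f x y = 0) → x = 0
  iso : ∀ g ∈ X, ∀ x y, f (g x) (g y) = f x y

/-- the transvection with centre `u` and parameter `a` lies in `X` -/
def T (f : LinearMap.BilinForm F V) (X : Subgroup (V ≃ₗ[F] V)) (u : V) (a : F) : Prop :=
  Has X fun x => x + (a * f x u) • u

variable {f : LinearMap.BilinForm F V} {X : Subgroup (V ≃ₗ[F] V)} {u v : V} {a b : F}

theorem T.zero : T f X u 0 := Has.id.congr fun x => by simp

theorem T.smul {c : F} (h : T f X u (c * c * a)) : T f X (c • u) a :=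
  h.congr fun x => by simp only [map_smul, smul_eq_mul, smul_smul]; ring_nf

theorem T.of_smul {c : F} (h : T f X (c • u) a) : T f X u (c * c * a) :=
  h.congr fun x => by simp only [map_smul, smul_eq_mul, smul_smul]; ring_nf

theorem T.cast (h : T f X u a) (e : a = b) : T f X u b := e ▸ h

namespace Sy

variable (h : Sy f X)
include h

theorem skew (x y : V) : f x y = -f y x := by
  have := h.alt (x + y)
  simp only [map_add, LinearMap.add_apply, h.alt] at this
  linear_combination this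

theorem add (h1 : T f X u a) (h2 : T f X u b) : T f X u (a + b) :=
  (h1.comp h2).congr fun x => by
    simp only [map_add, map_smul, LinearMap.add_apply, LinearMap.smul_apply, h.alt, smul_zero,
      add_zero]
    module

theorem neg (h1 : T f X u a) : T f X u (-a) :=
  Has.inv h1 fun x => by
    simp only [map_add, map_smul, LinearMap.add_apply, LinearMap.smul_apply, h.alt, smul_zero,
      add_zero]
    module

theorem nsmul (h1 : T f X u a) (n : ℕ) : T f X u (n * a) := by
  induction n with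
  | zero => simpa using T.zero
  | succ n ih => exact (h.add ih h1).cast (by push_cast; ring)

theorem half (p : ℕ) [Fact p.Prime] [CharP F p] (hp : p ≠ 2) (h1 : T f X u (2 * a)) : T f X u a := by
  obtain ⟨n, hn⟩ := (Fact.out : p.Prime).odd_of_ne_two hp
  have : (2 * n + 1 : F) = 0 := by exact_mod_cast hn ▸ CharP.cast_eq_zero F p
  exact (h.nsmul h1 (n + 1)).cast (by push_cast; linear_combination a * this)

theorem act {g : V ≃ₗ[F] V} (hg : g ∈ X) (h1 : T f X u a) : T f X (g u) a :=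
  Has.conj h1 hg fun x => by simp [h.iso g hg]

theorem step (h1 : T f X u a) (h2 : T f X v b) : T f X (u + (b * f u v) • v) a := by
  obtain ⟨g, hg, e⟩ := h2
  have := h.act hg h1
  rwa [e] at this

theorem dec (huv : f u v ≠ 0) (x : V) :
    ∃ z, f z u = 0 ∧ f z v = 0 ∧ x = (f x v / f u v) • u - (f x u / f u v) • v + z :=
  ⟨x - (f x v / f u v) • u + (f x u / f u v) • v, by
    simp [h.alt, h.skew v u, huv], by simp [h.alt, huv], by abel⟩

theorem eq_of_perp (huv : f u v ≠ 0) {y : V} (hy : ∀ z, f z u = 0 → f z v = 0 → f y z = 0) :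
    y = (f y v / f u v) • u - (f y u / f u v) • v := by
  obtain ⟨z, h1, h2, e⟩ := h.dec huv y
  have : z = 0 := h.nd z fun x => by
    obtain ⟨z', h3, h4, e'⟩ := h.dec huv x
    have := hy z' h3 h4
    rw [e] at this
    rw [e']
    simpa [h1, h2, h.skew u z', h.skew v z', h3, h4] using this
  rw [this, add_zero] at e
  exact e

end Sy

/-- elements fixing the complement of the plane pointwise -/
def M0 (f : LinearMap.BilinForm F V) (X : Subgroup (V ≃ₗ[F] V)) (u v : V) : Subgroup (V ≃ₗ[F] V) where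
  carrier := {g | g ∈ X ∧ ∀ x, f x u = 0 → f x v = 0 → g x = x}
  one_mem' := ⟨one_mem _, fun _ _ _ => rfl⟩
  mul_mem' ha hb := ⟨mul_mem ha.1 hb.1, fun x h1 h2 => by
    rw [LinearEquiv.mul_apply, hb.2 x h1 h2, ha.2 x h1 h2]⟩
  inv_mem' {a} ha := ⟨inv_mem ha.1, fun x h1 h2 => a.injective (by rw [ha.2 x h1 h2]; simp)⟩

/-- the matrix of `g` on the plane -/
def R (u v : V) (g : V ≃ₗ[F] V) (A : Matrix (Fin 2) (Fin 2) F) : Prop :=
  g u = A 0 0 • u + A 1 0 • v ∧ g v = A 0 1 • u + A 1 1 • v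

theorem R.mul {g g' : V ≃ₗ[F] V} {A A' : Matrix (Fin 2) (Fin 2) F} (h : R u v g A)
    (h' : R u v g' A') : R u v (g * g') (A * A') := by
  constructor <;> simp only [LinearEquiv.mul_apply, h'.1, h'.2, map_add, map_smul, h.1, h.2,
    mul_apply, Fin.sum_univ_two] <;> module

namespace Sy

variable (h : Sy f X) (huv : f u v ≠ 0)
include h huv

theorem R_det {g : V ≃ₗ[F] V} {A : Matrix (Fin 2) (Fin 2) F} (hg : g ∈ X) (r : R u v g A) :
    A.det = 1 := by
  have := h.iso g hg u v
  simp [r.1, r.2, h.alt, h.skew v u] at this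
  rw [det_fin_two]
  exact mul_right_cancel₀ huv (by linear_combination this)

theorem R_ex {g : V ≃ₗ[F] V} (hg : g ∈ M0 f X u v) : ∃ A, R u v g A := by
  have e : ∀ y, (∀ z, f z u = 0 → f z v = 0 → f y z = 0) →
      g y = (f (g y) v / f u v) • u - (f (g y) u / f u v) • v := fun y hy =>
    h.eq_of_perp huv fun z h1 h2 => by rw [← hg.2 z h1 h2, h.iso g hg.1, hy z h1 h2]
  refine ⟨!![f (g u) v / f u v, f (g v) v / f u v; -(f (g u) u / f u v), -(f (g v) u / f u v)], ?_, ?_⟩
  · simpa [sub_eq_add_neg] using e u fun z h1 _ => by rw [h.skew, h1, neg_zero]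
  · simpa [sub_eq_add_neg] using e v fun z _ h1 => by rw [h.skew, h1, neg_zero]

theorem R_unique {g : V ≃ₗ[F] V} {A A' : Matrix (Fin 2) (Fin 2) F} (r : R u v g A)
    (r' : R u v g A') : A = A' := by
  have e1 := r.1.symm.trans r'.1
  have e2 := r.2.symm.trans r'.2
  have a1 := congrArg (fun x => f x v) e1
  have a2 := congrArg (fun x => f u x) e1
  have a3 := congrArg (fun x => f x v) e2
  have a4 := congrArg (fun x => f u x) e2
  simp [h.alt, huv] at a1 a2 a3 a4
  ext i j; fin_cases i <;> fin_cases j <;> assumption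

theorem R_apply {g : V ≃ₗ[F] V} (hg : g ∈ M0 f X u v) {T' : V →ₗ[F] V} (e1 : g u = T' u)
    (e2 : g v = T' v) (e3 : ∀ z, f z u = 0 → f z v = 0 → T' z = z) (x : V) : g x = T' x := by
  obtain ⟨z, h1, h2, e⟩ := h.dec huv x
  rw [e]
  simp only [map_add, map_sub, map_smul, e1, e2, hg.2 z h1 h2, e3 z h1 h2]

end Sy

/-- transvections as linear maps -/
def tL (f : LinearMap.BilinForm F V) (u : V) (a : F) : V →ₗ[F] V :=
  LinearMap.id + a • (f.flip u).smulRight u

theorem tL_apply (u : V) (a : F) (x : V) : tL f u a x = x + (a * f x u) • u := by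
  simp [tL, smul_smul]

theorem Sy.dick0 (h : Sy f X) [Finite X] (p : ℕ) [Fact p.Prime] [CharP F p] (hp : p ≠ 2)
    (huv : f v u = 1) (hu : T f X u 1) (hv : T f X v b) (hb : b ≠ 0) :
    (∃ L : Set F, (∀ l, T f X u l ↔ l ∈ L) ∧ (∀ l, T f X v (l * b) ↔ l ∈ L) ∧ b ∈ L) ∨
      (p = 3 ∧ (∀ l, T f X u l → l ^ 3 = l) ∧
        ∃ τ ∈ X, τ u = -u ∧ τ v = -v ∧ ∀ x, f x u = 0 → f x v = 0 → τ x = x) := by
  have h1 : f u v = -1 := by rw [h.skew, huv]
  have h0 : f u v ≠ 0 := by simp [h1]
  let ι := algebraMap F (AlgebraicClosure F)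
  have : Finite (M0 f X u v) := Finite.of_injective _
    (Subgroup.inclusion_injective (show M0 f X u v ≤ X from fun g hg => hg.1))
  choose A hA using fun g : M0 f X u v => h.R_ex h0 g.2
  have dA : ∀ g, ((A g).map ι).det ≠ 0 := fun g => by
    rw [H6.Pg.det_map, h.R_det h0 g.2.1 (hA g)]; simp
  let φ : M0 f X u v →* PGL(2, AlgebraicClosure F) := MonoidHom.mk' (fun g => pg ((A g).map ι))
    fun g g' => by
      rw [pg_mul (dA g) (dA g'), ← Matrix.map_mul, h.R_unique h0 (hA (g * g')) ((hA g).mul (hA g'))]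
  have k1 : ∀ l, T f X u l → aff 1 (ι l) ∈ φ.range := fun l ⟨g, hg, e⟩ => by
    have hg' : g ∈ M0 f X u v := ⟨hg, fun x h1 _ => by simp [e, h1]⟩
    refine ⟨⟨g, hg'⟩, ?_⟩
    change pg ((A _).map ι) = _
    rw [h.R_unique h0 (hA ⟨g, hg'⟩) (A' := !![1, l; 0, 1]) ⟨by simp [e, h.alt], by simp [e, huv, add_comm]⟩]
    congr 1
    ext i j; fin_cases i <;> fin_cases j <;> simp
  have k2 : ∀ l, T f X v l → low (ι (-l)) ∈ φ.range := fun l ⟨g, hg, e⟩ => by
    have hg' : g ∈ M0 f X u v := ⟨hg, fun x _ h1 => by simp [e, h1]⟩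
    refine ⟨⟨g, hg'⟩, ?_⟩
    change pg ((A _).map ι) = _
    rw [h.R_unique h0 (hA ⟨g, hg'⟩) (A' := !![1, 0; -l, 1]) ⟨by simp [e, h1], by simp [e, h.alt]⟩]
    congr 1
    ext i j; fin_cases i <;> fin_cases j <;> simp
  have k1' : ∀ l, aff 1 (ι l) ∈ φ.range → T f X u l := fun l ⟨g, e⟩ => by
    obtain ⟨c, e⟩ := (pg_eq_iff (dA g) (by simp [det_fin_two])).1 e
    have e' := fun i j => congrFun (congrFun e i) j
    have a1 := e' 0 0
    have a2 := e' 0 1
    have a3 := e' 1 0
    have a4 := e' 1 1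
    simp at a1 a2 a3 a4
    have hc : c ≠ 0 := by rintro rfl; simp at a1
    have b1 : A g 1 0 = 0 := by simpa [hc] using a3
    have b2 : A g 1 1 = A g 0 0 := ι.injective (mul_left_cancel₀ hc (by rw [a1, a4]))
    have b3 : A g 0 1 = l * A g 0 0 := ι.injective (mul_left_cancel₀ hc (by
      rw [a2, map_mul]; linear_combination -ι l * a1))
    have b4 := h.R_det h0 g.2.1 (hA g)
    rw [det_fin_two, b1, b2] at b4
    have r := (hA g).mul (hA g)
    refine h.half p hp ⟨g * g, mul_mem g.2.1 g.2.1, fun x => ?_⟩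
    beta_reduce
    rw [← tL_apply]
    refine h.R_apply h0 (mul_mem g.2 g.2) ?_ ?_ (fun z h1 _ => by simp [tL_apply, h1]) x
    · rw [r.1]; simp [tL_apply, h.alt, mul_apply, b1]
      rw [show A g 0 0 * A g 0 0 = 1 by linear_combination b4, one_smul]
    · rw [r.2]; simp only [tL_apply, huv, mul_apply, Fin.sum_univ_two, b1, b2, b3]
      match_scalars
      · linear_combination 2 * l * b4
      · linear_combination b4
  have k2' : ∀ l, low (ι (-l)) ∈ φ.range → T f X v l := fun l ⟨g, e⟩ => by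
    obtain ⟨c, e⟩ := (pg_eq_iff (dA g) (by simp [det_fin_two])).1 e
    have e' := fun i j => congrFun (congrFun e i) j
    have a1 := e' 0 0
    have a2 := e' 0 1
    have a3 := e' 1 0
    have a4 := e' 1 1
    simp at a1 a2 a3 a4
    have hc : c ≠ 0 := by rintro rfl; simp at a1
    have b1 : A g 0 1 = 0 := by simpa [hc] using a2
    have b2 : A g 1 1 = A g 0 0 := ι.injective (mul_left_cancel₀ hc (by rw [a1, a4]))
    have b3 : A g 1 0 = -l * A g 0 0 := ι.injective (mul_left_cancel₀ hc (by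
      rw [a3, map_mul, map_neg]; linear_combination ι l * a1))
    have b4 := h.R_det h0 g.2.1 (hA g)
    rw [det_fin_two, b1, b2] at b4
    have r := (hA g).mul (hA g)
    refine h.half p hp ⟨g * g, mul_mem g.2.1 g.2.1, fun x => ?_⟩
    beta_reduce
    rw [← tL_apply]
    refine h.R_apply h0 (mul_mem g.2 g.2) ?_ ?_ (fun z _ h1 => by simp [tL_apply, h1]) x
    · rw [r.1]; simp only [tL_apply, h1, mul_apply, Fin.sum_univ_two, b1, b2, b3]
      match_scalars
      · linear_combination b4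
      · linear_combination -2 * l * b4
    · rw [r.2]; simp [tL_apply, h.alt, mul_apply, b1, b2]
      rw [show A g 0 0 * A g 0 0 = 1 by linear_combination b4, one_smul]
  have : Finite φ.range := Finite.of_surjective _ φ.rangeRestrict_surjective
  rcases two_roots p φ.range (by simpa using k1 1 hu) (c := ι (-b)) (by simpa using hb) (k2 b hv) with
    ⟨L, -, -, l1, l2⟩ | ⟨e, -⟩ | ⟨e, -, e1, _, ⟨g, rfl⟩, e2, e3⟩
  · have hbL : ι b ∈ L := by simpa using mem_of_low (l2 (k2 b hv))
    refine Or.inl ⟨{l | ι l ∈ L}, fun l => ⟨fun t => mem_of_aff (l2 (k1 l t)),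
      fun t => k1' l (l1 (aff_mem_PS t))⟩, fun l => ⟨fun t => ?_, fun t => k2' _ (l1 (low_mem_PS ?_))⟩, hbL⟩
    · have := L.div_mem (mem_of_low (l2 (k2 _ t))) (L.neg_mem hbL)
      rwa [map_neg, map_mul, neg_div_neg_eq, mul_div_cancel_right₀ _ (by simpa using hb)] at this
    · rw [map_neg, map_mul]; exact L.neg_mem (L.mul_mem t hbL)
  · exact absurd e hp
  · refine Or.inr ⟨e, fun l t => ι.injective (by rw [map_pow]; exact e1 _ (k1 l t)), g * g,
      mul_mem g.2.1 g.2.1, ?_⟩
    have b4 := h.R_det h0 g.2.1 (hA g)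
    have r := (hA g).mul (hA g)
    rw [sq, ← map_mul] at e3
    change pg ((A _).map ι) = 1 at e3
    change pg ((A _).map ι) ≠ 1 at e2
    rw [h.R_unique h0 (hA (g * g)) r] at e3
    rw [Ne, pg_eq_one (dA g)] at e2
    rw [pg_eq_one (by rw [H6.Pg.det_map, det_mul, b4]; simp)] at e3
    simp only [map_apply, map_eq_zero, ι.injective.eq_iff, mul_apply, Fin.sum_univ_two] at e2 e3
    rw [det_fin_two] at b4
    have ht : A g 0 0 + A g 1 1 = 0 := by
      by_contra ht
      exact e2 ⟨mul_right_cancel₀ ht (by linear_combination e3.1),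
        mul_right_cancel₀ ht (by linear_combination e3.2.1),
        mul_right_cancel₀ ht (by linear_combination e3.2.2)⟩
    refine ⟨?_, ?_, (mul_mem g.2 g.2).2⟩
    · rw [r.1]; simp only [mul_apply, Fin.sum_univ_two]
      match_scalars
      · linear_combination A g 0 0 * ht - b4
      · linear_combination A g 1 0 * ht
    · rw [r.2]; simp only [mul_apply, Fin.sum_univ_two]
      match_scalars
      · linear_combination A g 0 1 * ht
      · linear_combination A g 1 1 * ht - b4

/-- Dickson's lemma for two non-orthogonal centres -/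
theorem Sy.dick (h : Sy f X) [Finite X] (p : ℕ) [Fact p.Prime] [CharP F p] (hp : p ≠ 2)
    (huv : f u v ≠ 0) (hu : T f X u a) (ha : a ≠ 0) (hv : T f X v b) (hb : b ≠ 0) :
    (∃ L : Set F, (∀ l, T f X u (l * a) ↔ l ∈ L) ∧ (∀ l, T f X v (l * b) ↔ l ∈ L) ∧
      a * b * f u v ^ 2 ∈ L) ∨
      (p = 3 ∧ (∀ l, T f X u (l * a) → l ^ 3 = l) ∧
        ∃ τ ∈ X, τ u = -u ∧ τ v = -v ∧ ∀ x, f x u = 0 → f x v = 0 → τ x = x) := by
  have h' : Sy (a • f) X := ⟨fun x => by simp [h.alt], fun x hx => h.nd x fun y => by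
    simpa [ha] using hx y, fun g hg x y => by simp [h.iso g hg]⟩
  have e1 : ∀ w l, T (a • f) X w l ↔ T f X w (l * a) := fun w l => by
    simp [T, mul_assoc]
  have hc : a * f v u ≠ 0 := mul_ne_zero ha (by rw [h.skew]; simpa using huv)
  have e2 : ∀ l, T (a • f) X ((a * f v u)⁻¹ • v) (l * (a * b * f u v ^ 2)) ↔ T f X v (l * b) := fun l => by
    rw [e1]
    have : (a * f v u)⁻¹ * (a * f v u)⁻¹ * (l * (a * b * f u v ^ 2) * a) = l * b := by
      rw [h.skew v u] at hc ⊢; field_simp
    exact ⟨fun t => t.of_smul.cast this, fun t => T.smul (t.cast this.symm)⟩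
  rcases h'.dick0 p hp (u := u) (v := (a * f v u)⁻¹ • v) (b := a * b * f u v ^ 2)
    (by simp only [map_smul, LinearMap.smul_apply, smul_eq_mul]; exact inv_mul_cancel₀ hc) ((e1 _ _).2 (by simpa using hu))
    (by simpa using (e2 1).2 (by simpa using hv)) (by simp [ha, hb, huv]) with
    ⟨L, l1, l2, l3⟩ | ⟨e, l1, τ, t1, t2, t3, t4⟩
  · exact Or.inl ⟨L, fun l => by rw [← e1, l1], fun l => by rw [← e2, l2], l3⟩
  · refine Or.inr ⟨e, fun l t => l1 l ((e1 _ _).2 t), τ, t1, t2, ?_, fun x h1 h2 => t4 x (by simp [h1])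
      (by simp [h2])⟩
    rw [map_smul, ← smul_neg] at t3
    exact smul_right_injective _ (inv_ne_zero hc) t3

end Cfsg.Agent.O5.Tv
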